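import Mathlib

set_option autoImplicit false

/-!
# Arithmetic of the alternating groups: orders of elements and the order of the group
-/

namespace Cfsg.Agent.Lib.Helper57

/-- A prime dividing the lcm of a multiset of naturals divides one of its members. -/
theorem exists_dvd_of_prime_dvd_multiset_lcm {p : ℕ} (hp : p.Prime) (s : Multiset ℕ) (h : p ∣ s.lcm) :
    ∃ a ∈ s, p ∣ a := by
  induction s using Multiset.induction_on with
  | empty =>
    rw [Multiset.lcm_zero] at h
    exact absurd (Nat.dvd_one.mp h) hp.one_lt.ne'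
  | cons a s ih =>
    rw [Multiset.lcm_cons] at h
    rcases (Nat.Prime.dvd_lcm hp).mp h with h | h
    · exact ⟨a, Multiset.mem_cons_self a s, h⟩
    · obtain ⟨b, hb, hpb⟩ := ih h
      exact ⟨b, Multiset.mem_cons_of_mem hb, hpb⟩

/-- A permutation of fewer than `p + q` points does not have order `p * q` (`p ≠ q` primes). -/
theorem orderOf_perm_ne_mul {α : Type*} [Fintype α] [DecidableEq α] {p q : ℕ} (hp : p.Prime)
    (hq : q.Prime) (hne : p ≠ q) (hcard : Fintype.card α < p + q) (σ : Equiv.Perm α) :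
    orderOf σ ≠ p * q := by
  intro h
  have hl : σ.cycleType.lcm = p * q := by rw [Equiv.Perm.lcm_cycleType, h]
  have hsum : σ.cycleType.sum ≤ Fintype.card α := by
    rw [Equiv.Perm.sum_cycleType]
    exact Finset.card_le_univ _
  obtain ⟨a, ha, hpa⟩ := exists_dvd_of_prime_dvd_multiset_lcm hp σ.cycleType (hl ▸ Dvd.intro _ rfl)
  obtain ⟨b, hb, hqb⟩ := exists_dvd_of_prime_dvd_multiset_lcm hq σ.cycleType (hl ▸ Dvd.intro_left _ rfl)
  have ha0 : 0 < a := lt_of_lt_of_le (by norm_num) (Equiv.Perm.two_le_of_mem_cycleType ha)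
  have hb0 : 0 < b := lt_of_lt_of_le (by norm_num) (Equiv.Perm.two_le_of_mem_cycleType hb)
  by_cases hab : a = b
  · subst hab
    have hpq : p * q ∣ a := Nat.Coprime.mul_dvd_of_dvd_of_dvd ((Nat.coprime_primes hp hq).mpr hne) hpa hqb
    have h1 : p * q ≤ a := Nat.le_of_dvd ha0 hpq
    have h2 : a ≤ σ.cycleType.sum := Multiset.le_sum_of_mem ha
    have h3 : p + q ≤ p * q := by
      have := hp.two_le
      have := hq.two_le
      nlinarith
    omega
  · have hb' : b ∈ σ.cycleType.erase a := (Multiset.mem_erase_of_ne (Ne.symm hab)).mpr hb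
    have h1 : σ.cycleType.sum = a + (σ.cycleType.erase a).sum := by
      rw [← Multiset.sum_cons, Multiset.cons_erase ha]
    have h2 : b ≤ (σ.cycleType.erase a).sum := Multiset.le_sum_of_mem hb'
    have h3 : p ≤ a := Nat.le_of_dvd ha0 hpa
    have h4 : q ≤ b := Nat.le_of_dvd hb0 hqb
    omega

/-- Same for the alternating group. -/
theorem orderOf_alt_ne_mul {n p q : ℕ} (hp : p.Prime) (hq : q.Prime) (hne : p ≠ q) (hn : n < p + q)
    (σ : alternatingGroup (Fin n)) : orderOf σ ≠ p * q := by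
  rw [← Subgroup.orderOf_coe]
  exact orderOf_perm_ne_mul hp hq hne (by simpa using hn) _

theorem two_mul_card_alt (n : ℕ) (hn : 2 ≤ n) :
    2 * Nat.card (alternatingGroup (Fin n)) = n.factorial := by
  have : Nontrivial (Fin n) := Fin.nontrivial_iff_two_le.mpr hn
  rw [two_mul_nat_card_alternatingGroup, Nat.card_perm, Nat.card_eq_fintype_card, Fintype.card_fin]

/-- An odd prime `p ≤ n` divides the order of `A_n`. -/
theorem prime_dvd_card_alt {n p : ℕ} (hp : p.Prime) (hp2 : p ≠ 2) (hpn : p ≤ n) :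
    p ∣ Nat.card (alternatingGroup (Fin n)) := by
  have h := two_mul_card_alt n (hp.two_le.trans hpn)
  have h1 : p ∣ 2 * Nat.card (alternatingGroup (Fin n)) := by
    rw [h]; exact (hp.dvd_factorial).mpr hpn
  rcases hp.dvd_mul.mp h1 with h2 | h2
  · exact absurd ((Nat.prime_dvd_prime_iff_eq hp Nat.prime_two).mp h2) hp2
  · exact h2

/-- If `n < 2 * p` and `3 ≤ p`, then `p ^ 2` does not divide `n!`. -/
theorem pow_dvd_factorial_le_one {n p i : ℕ} (hp : p.Prime) (hp3 : 3 ≤ p) (hn : n < 2 * p)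
    (h : p ^ i ∣ n.factorial) : i ≤ 1 := by
  have h1 : i ≤ n.factorial.factorization p :=
    (hp.pow_dvd_iff_le_factorization (Nat.factorial_ne_zero n)).mp h
  have hlog : Nat.log p n < 2 := by
    apply Nat.log_lt_of_lt_pow'
    · norm_num
    · nlinarith
  rw [Nat.factorization_factorial hp hlog] at h1
  have h2 : ∑ i ∈ Finset.Ico 1 2, n / p ^ i = n / p := by simp
  rw [h2] at h1
  have h3 : n / p < 2 := by
    rw [Nat.div_lt_iff_lt_mul hp.pos]; omega
  omega

theorem pow_dvd_card_alt_le_one {n p i : ℕ} (hp : p.Prime) (hp3 : 3 ≤ p) (hn : n < 2 * p) (hn2 : 2 ≤ n)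
    (h : p ^ i ∣ Nat.card (alternatingGroup (Fin n))) : i ≤ 1 :=
  pow_dvd_factorial_le_one hp hp3 hn (two_mul_card_alt n hn2 ▸ Dvd.dvd.mul_left h 2)

end Cfsg.Agent.Lib.Helper57
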