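import Mathlib
import Cfsg.Agent.Lib.Helper92.GolayCount
import Cfsg.Agent.Lib.Helper93.AbstractGolay
import Cfsg.Agent.Lib.Helper8.Golay
import Cfsg.Agent.S0358

/-! Transport of `golayCode` to `Fin 24`, coset leaders, puncturing. -/

set_option autoImplicit false

namespace Cfsg.Agent.Lib.Helper57

open Cfsg Cfsg.Agent.Lib.Helper27 Cfsg.Agent.Lib.Helper92 Cfsg.Agent.Lib.Helper93.AG

theorem golay_min_weight {w : GolayPt → ZMod 2} (hw : w ∈ golayCode) (h0 : w ≠ 0) :
    8 ≤ hammingNorm w := by
  have h := card_support₂_of_mem hw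
  have h1 : hammingNorm w = (support₂ w).card := rfl
  have h2 : hammingNorm w ≠ 0 := by
    rw [Ne, hammingNorm_eq_zero]; exact h0
  omega

/-- a numbering of the 24 points -/
noncomputable def gE : Fin 24 ≃ GolayPt := (Fintype.equivFinOfCardEq (by decide)).symm

/-- the induced linear equivalence -/
noncomputable def gPhi : (GolayPt → ZMod 2) ≃ₗ[ZMod 2] (Fin 24 → ZMod 2) :=
  LinearEquiv.funCongrLeft (ZMod 2) (ZMod 2) gE

theorem gPhi_apply (w : GolayPt → ZMod 2) (i : Fin 24) : gPhi w i = w (gE i) := rfl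

theorem hammingNorm_gPhi (w : GolayPt → ZMod 2) : hammingNorm (gPhi w) = hammingNorm w := by
  unfold hammingNorm
  apply Finset.card_bij (fun i _ => gE i)
  · intro i hi
    rw [Finset.mem_filter] at hi ⊢
    exact ⟨Finset.mem_univ _, hi.2⟩
  · intro i _ j _ h; exact gE.injective h
  · intro p hp
    refine ⟨gE.symm p, ?_, by simp⟩
    rw [Finset.mem_filter] at hp ⊢
    refine ⟨Finset.mem_univ _, ?_⟩
    rw [gPhi_apply, Equiv.apply_symm_apply]; exact hp.2

theorem golay_isAG : IsAG (golayCode.map (gPhi : (GolayPt → ZMod 2) →ₗ[ZMod 2] (Fin 24 → ZMod 2))) where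
  dim := by
    rw [LinearEquiv.finrank_map_eq]; exact Cfsg.Agent.S0358.result
  orth := by
    rintro _ ⟨v, hv, rfl⟩ _ ⟨w, hw, rfl⟩
    have := Cfsg.Agent.Lib.Helper8.golay_orth hv hw
    rw [← this]
    exact Equiv.sum_comp gE (fun p => v p * w p)
  minw := by
    rintro _ ⟨v, hv, rfl⟩ h0
    have : hammingNorm (gPhi v) = hammingNorm v := hammingNorm_gPhi v
    show 8 ≤ hammingNorm (gPhi v)
    rw [this]
    apply golay_min_weight hv
    rintro rfl
    exact h0 (map_zero _)

/-- the transported code -/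
noncomputable abbrev gC : Submodule (ZMod 2) (Fin 24 → ZMod 2) :=
  golayCode.map (gPhi : (GolayPt → ZMod 2) →ₗ[ZMod 2] (Fin 24 → ZMod 2))

theorem gPhi_mem_leaders_iff (w v : GolayPt → ZMod 2) :
    gPhi v ∈ leaders gC (gPhi w) ↔ hammingNorm v ≤ 4 ∧ w - v ∈ golayCode := by
  rw [mem_leaders, hammingNorm_gPhi, ← map_sub]
  have h1 : gPhi (v - w) ∈ gC ↔ v - w ∈ golayCode := by
    constructor
    · rintro ⟨x, hx, hxe⟩
      have : x = v - w := gPhi.injective hxe
      rwa [← this]
    · intro h; exact ⟨_, h, rfl⟩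
  have h2 : v - w ∈ golayCode ↔ w - v ∈ golayCode := by
    rw [← neg_sub, Submodule.neg_mem_iff]
  rw [h1, h2, and_comm]

theorem leaderSet_eq (w : GolayPt → ZMod 2) :
    {v : GolayPt → ZMod 2 | hammingNorm v ≤ 4 ∧ w - v ∈ golayCode}
      = gPhi.symm '' (leaders gC (gPhi w) : Set (Fin 24 → ZMod 2)) := by
  ext v
  constructor
  · intro hv
    exact ⟨gPhi v, (gPhi_mem_leaders_iff w v).2 hv, by simp⟩
  · rintro ⟨x, hx, rfl⟩
    apply (gPhi_mem_leaders_iff w _).1
    simpa using hx

/-- Coset leaders of the length-24 code. -/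
theorem golay_leaders (w : GolayPt → ZMod 2) :
    (∃ u, {v : GolayPt → ZMod 2 | hammingNorm v ≤ 4 ∧ w - v ∈ golayCode} = {u} ∧
        hammingNorm u ≤ 3) ∨
    ({v : GolayPt → ZMod 2 | hammingNorm v ≤ 4 ∧ w - v ∈ golayCode}.ncard = 6 ∧
      (∀ v : GolayPt → ZMod 2, hammingNorm v ≤ 4 → w - v ∈ golayCode → hammingNorm v = 4) ∧
      ∀ p : GolayPt, ∃ v : GolayPt → ZMod 2, hammingNorm v ≤ 4 ∧ w - v ∈ golayCode ∧ v p ≠ 0) := by
  rcases golay_isAG.leaders_cases (gPhi w) with ⟨u, hu, hu3⟩ | ⟨h6, hall⟩
  · left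
    refine ⟨gPhi.symm u, ?_, ?_⟩
    · rw [leaderSet_eq]
      rw [show leaders gC (gPhi w) = {u} from hu]
      simp
    · rw [← hammingNorm_gPhi]; simpa using hu3
  · right
    refine ⟨?_, ?_, ?_⟩
    · rw [leaderSet_eq, Set.ncard_image_of_injective _ gPhi.symm.injective, Set.ncard_coe_finset]
      exact h6
    · intro v hv hvw
      have := (hall (gPhi v) ((gPhi_mem_leaders_iff w v).2 ⟨hv, hvw⟩)).1
      rwa [hammingNorm_gPhi] at this
    · intro p
      have huniv := biUnion_eq_univ (leaders gC (gPhi w)) (fun u hu => (hall u hu).1)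
        (fun u hu v hv hne => (hall u hu).2 v hv hne) h6
      have hp : gE.symm p ∈ (leaders gC (gPhi w)).biUnion supp := by
        rw [huniv]; exact Finset.mem_univ _
      rw [Finset.mem_biUnion] at hp
      obtain ⟨x, hx, hpx⟩ := hp
      have hx' : gPhi (gPhi.symm x) ∈ leaders gC (gPhi w) := by simpa using hx
      obtain ⟨h1, h2⟩ := (gPhi_mem_leaders_iff w _).1 hx'
      refine ⟨gPhi.symm x, h1, h2, ?_⟩
      rw [mem_supp] at hpx
      have : gPhi (gPhi.symm x) (gE.symm p) = (gPhi.symm x) p := by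
        rw [gPhi_apply, Equiv.apply_symm_apply]
      rw [← this]; simpa using hpx

theorem hammingDist_eq_norm_sub {ι : Type*} [Fintype ι] (x y : ι → ZMod 2) :
    hammingDist x y = hammingNorm (x - y) := by
  unfold hammingDist hammingNorm
  congr 1
  ext i
  simp [sub_ne_zero]

/-- weight of a word and of its punctured word -/
theorem hammingNorm_punct (v : GolayPt → ZMod 2) :
    hammingNorm v = hammingNorm (fun x : ZMod 23 => v (some x)) + (if v none ≠ 0 then 1 else 0) := by
  unfold hammingNorm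
  have h : (Finset.univ.filter fun p : GolayPt => v p ≠ 0)
      = ((Finset.univ.filter fun x : ZMod 23 => v (some x) ≠ 0).map Function.Embedding.some) ∪
        (if v none ≠ 0 then {none} else ∅) := by
    ext p
    cases p with
    | none => by_cases h : v none ≠ 0 <;> simp [h]
    | some x => by_cases h : v none ≠ 0 <;> simp [h]
  rw [h, Finset.card_union_of_disjoint, Finset.card_map]
  · by_cases h : v none ≠ 0 <;> simp [h]
  · by_cases h : v none ≠ 0 <;> simp [h]

theorem hammingNorm_punct_le (v : GolayPt → ZMod 2) :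
    hammingNorm (fun x : ZMod 23 => v (some x)) ≤ hammingNorm v := by
  rw [hammingNorm_punct v]; exact Nat.le_add_right _ _

theorem hammingNorm_le_punct (v : GolayPt → ZMod 2) :
    hammingNorm v ≤ hammingNorm (fun x : ZMod 23 => v (some x)) + 1 := by
  rw [hammingNorm_punct v]; split_ifs <;> omega

/-- puncturing is injective on the code -/
theorem punct_injOn {a b : GolayPt → ZMod 2} (ha : a ∈ golayCode) (hb : b ∈ golayCode)
    (h : hammingNorm (fun x : ZMod 23 => (a - b) (some x)) ≤ 6) : a = b := by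
  by_contra hne
  have h1 := golay_min_weight (golayCode.sub_mem ha hb) (sub_ne_zero.2 hne)
  have h2 := hammingNorm_le_punct (a - b)
  omega

/-- the punctured word of a set of points -/
def punctOf (s : Finset GolayPt) : ZMod 23 → ZMod 2 := fun x => if some x ∈ s then 1 else 0

theorem punctOf_support₂ (w : GolayPt → ZMod 2) : punctOf (support₂ w) = fun x => w (some x) := by
  funext x
  simp only [punctOf, support₂, Finset.mem_filter, Finset.mem_univ, true_and]
  exact (zmod2_eq (w (some x))).symm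

theorem hammingNorm_punctOf (s : Finset GolayPt) :
    hammingNorm (punctOf s) = pc (Nat.land (mask s) 8388607) := by
  have h1 : mask (unmask 8388607) = 8388607 := mask_unmask (by norm_num)
  have h2 : Nat.land (mask s) 8388607 = mask (s ∩ unmask 8388607) := by
    rw [mask_inter, h1]; rfl
  rw [h2, ← card_eq_pc]
  unfold hammingNorm
  rw [← Finset.card_map Function.Embedding.some]
  congr 1
  ext p
  cases p with
  | none =>
    simp only [Finset.mem_map, Finset.mem_filter, Finset.mem_univ, true_and,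
      Function.Embedding.some_apply, reduceCtorEq, and_false, exists_false, Finset.mem_inter,
      mem_unmask, false_iff, not_and]
    intro _
    decide
  | some x =>
    have hx : (8388607 : ℕ).testBit (idx (some x)) = true := by revert x; decide
    simp only [Finset.mem_map, Finset.mem_filter, Finset.mem_univ, true_and,
      Function.Embedding.some_apply, Option.some.injEq, exists_eq_right, Finset.mem_inter,
      mem_unmask, hx, and_true, punctOf]
    by_cases h : some x ∈ s <;> simp [h]

theorem ncard_punct (k : ℕ) :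
    {u : ZMod 23 → ZMod 2 | u ∈ {u : ZMod 23 → ZMod 2 | ∃ w ∈ golayCode, ∀ x : ZMod 23, u x = w (some x)}
        ∧ hammingNorm u = k}.ncard
      = countBelow (fun j => Nat.beq (pc (Nat.land (enc j) 8388607)) k) 4096 := by
  rw [← ncard_codeSet (fun m => Nat.beq (pc (Nat.land m 8388607)) k)]
  have h : {u : ZMod 23 → ZMod 2 | u ∈ {u : ZMod 23 → ZMod 2 | ∃ w ∈ golayCode, ∀ x : ZMod 23, u x = w (some x)}
        ∧ hammingNorm u = k} = punctOf '' {s : Finset GolayPt |
          s ∈ supports (golayCode : Set (GolayPt → ZMod 2)) ∧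
            Nat.beq (pc (Nat.land (mask s) 8388607)) k = true} := by
    ext u
    constructor
    · rintro ⟨⟨w, hw, hu⟩, hk⟩
      have hu' : punctOf (support₂ w) = u := by
        rw [punctOf_support₂]; funext x; exact (hu x).symm
      refine ⟨support₂ w, ⟨⟨w, hw, rfl⟩, ?_⟩, hu'⟩
      rw [Nat.beq_eq, ← hammingNorm_punctOf, hu', hk]
    · rintro ⟨s, ⟨⟨w, hw, rfl⟩, hk⟩, rfl⟩
      refine ⟨⟨w, hw, fun x => ?_⟩, ?_⟩
      · rw [punctOf_support₂]
      · rw [Nat.beq_eq, ← hammingNorm_punctOf] at hk
        exact hk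
  rw [h, Set.ncard_image_of_injOn]
  rintro s ⟨⟨a, ha, rfl⟩, _⟩ t ⟨⟨b, hb, rfl⟩, _⟩ hst
  rw [punctOf_support₂, punctOf_support₂] at hst
  have : a = b := by
    apply punct_injOn ha hb
    have h0 : (fun x : ZMod 23 => (a - b) (some x)) = 0 := by
      funext x
      have := congrFun hst x
      simp only [Pi.sub_apply, Pi.zero_apply]
      rw [this, sub_self]
    rw [h0, hammingNorm_zero]; omega
  rw [this]

theorem ncard_punct_all :
    {u : ZMod 23 → ZMod 2 | ∃ w ∈ golayCode, ∀ x : ZMod 23, u x = w (some x)}.ncard = 4096 := by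
  have h : {u : ZMod 23 → ZMod 2 | ∃ w ∈ golayCode, ∀ x : ZMod 23, u x = w (some x)}
      = (fun (w : GolayPt → ZMod 2) (x : ZMod 23) => w (some x)) '' (golayCode : Set (GolayPt → ZMod 2)) := by
    ext u
    constructor
    · rintro ⟨w, hw, hu⟩
      exact ⟨w, hw, by funext x; exact (hu x).symm⟩
    · rintro ⟨w, hw, rfl⟩
      exact ⟨w, hw, fun x => rfl⟩
  rw [h, Set.ncard_image_of_injOn]
  · rw [← natCard_golayCode]; rfl
  · intro a ha b hb hab
    apply punct_injOn ha hb
    have h0 : (fun x : ZMod 23 => (a - b) (some x)) = 0 := by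
      funext x
      have := congrFun hab x
      simp only [Pi.sub_apply, Pi.zero_apply]
      simp only at this
      rw [this, sub_self]
    rw [h0, hammingNorm_zero]; omega

end Cfsg.Agent.Lib.Helper57
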