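import Mathlib

set_option autoImplicit false

/-!
# Elements of order `p * q`

* `exists_orderOf_eq_mul_of_normalizes`: an element of prime order `p` normalising a nontrivial `q`-group `Q`
  with `p ∤ |Q| - 1` gives an element of order `p * q`.
* `exists_orderOf_eq_mul_of_normal`: Frattini version.
* `exists_orderOf_eq_mul_of_isSolvable`: in a solvable group whose order is divisible by `p` and `q`,
  under arithmetic conditions, there is an element of order `p * q`.
-/

namespace Cfsg.Agent.Lib.Helper57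

/-- If some element has order divisible by `m > 0`, some element has order exactly `m`. -/
theorem exists_orderOf_eq_of_dvd {G : Type*} [Group G] (g : G) (m : ℕ) (hg : orderOf g ≠ 0)
    (h : m ∣ orderOf g) : ∃ x : G, orderOf x = m := by
  obtain ⟨k, hk⟩ := h
  have hk0 : k ≠ 0 := by rintro rfl; rw [mul_zero] at hk; exact hg hk
  refine ⟨g ^ k, ?_⟩
  rw [orderOf_pow_of_dvd hk0 (by rw [hk]; exact Dvd.intro_left m rfl), hk]
  exact Nat.mul_div_cancel _ (Nat.pos_of_ne_zero hk0)

/-- An element `x` of prime order `p` normalising a `q`-subgroup `Q` of order `q ^ b`, with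
`p ∤ q ^ b - 1`: then there is an element of order `p * q`. -/
theorem exists_orderOf_eq_mul_of_normalizes {G : Type*} [Group G] [Finite G] {p q b : ℕ}
    (hp : p.Prime) (hq : q.Prime) (hne : p ≠ q) (Q : Subgroup G) (hQ : Nat.card Q = q ^ b)
    (hpq : ¬ p ∣ q ^ b - 1) (x : G) (hx : orderOf x = p)
    (hxQ : ∀ y ∈ Q, x * y * x⁻¹ ∈ Q) : ∃ g : G, orderOf g = p * q := by
  classical
  have : Fact p.Prime := ⟨hp⟩
  have : Fintype Q := Fintype.ofFinite Q
  let f : Function.End Q := fun y => ⟨x * y * x⁻¹, hxQ y y.2⟩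
  have hfk : ∀ (k : ℕ) (y : Q), ((f ^ k) y : G) = x ^ k * y * (x ^ k)⁻¹ := by
    intro k
    induction k with
    | zero => intro y; rw [pow_zero, pow_zero]; show (y : G) = _; simp
    | succ k ih =>
      intro y
      rw [pow_succ']
      show x * ((f ^ k) y : G) * x⁻¹ = _
      rw [ih, pow_succ']
      group
  have hf : f ^ p ^ 1 = 1 := by
    funext y
    apply Subtype.ext
    rw [pow_one, hfk, ← hx, pow_orderOf_eq_one]
    show _ = (y : G)
    simp
  have hmod := Equiv.Perm.card_fixedPoints_modEq hf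
  rw [← Nat.card_eq_fintype_card, hQ] at hmod
  -- there is a nontrivial fixed point
  have hex : ∃ y : Q, y ≠ 1 ∧ f y = y := by
    by_contra hcon
    push Not at hcon
    have hone : Fintype.card (Function.fixedPoints f) = 1 := by
      rw [Fintype.card_eq_one_iff]
      refine ⟨⟨1, ?_⟩, ?_⟩
      · show f 1 = 1
        apply Subtype.ext
        show x * ((1 : Q) : G) * x⁻¹ = _
        simp
      · rintro ⟨y, hy⟩
        apply Subtype.ext
        by_contra hy1
        exact hcon y hy1 hy
    rw [hone] at hmod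
    apply hpq
    exact (Nat.modEq_iff_dvd' (Nat.one_le_pow _ _ hq.pos)).mp hmod.symm
  obtain ⟨y, hy1, hy⟩ := hex
  have hcomm : Commute x (y : G) := by
    have : x * (y : G) * x⁻¹ = y := congrArg Subtype.val hy
    exact mul_inv_eq_iff_eq_mul.mp this
  -- the order of `y` is a positive power of `q`
  have hyo : orderOf y ∣ q ^ b := hQ ▸ orderOf_dvd_natCard y
  obtain ⟨j, -, hj⟩ := (Nat.dvd_prime_pow hq).mp hyo
  have hj0 : j ≠ 0 := by
    rintro rfl
    rw [pow_zero, orderOf_eq_one_iff] at hj
    exact hy1 hj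
  have hyG : orderOf (y : G) = q ^ j := by rw [Subgroup.orderOf_coe, hj]
  have hcop : Nat.Coprime (orderOf x) (orderOf (y : G)) := by
    rw [hx, hyG]
    exact Nat.Coprime.pow_right _ ((Nat.coprime_primes hp hq).mpr hne)
  have hxy : orderOf (x * (y : G)) = p * q ^ j := by
    rw [hcomm.orderOf_mul_eq_mul_orderOf_of_coprime hcop, hx, hyG]
  apply exists_orderOf_eq_of_dvd (x * (y : G)) (p * q) (orderOf_pos _).ne'
  rw [hxy]
  exact Nat.mul_dvd_mul_left p (dvd_pow_self q hj0)

/-- Frattini version: `M` normal in `G`, `p ∤ |M|`, `p ∣ |G|`, `q ∣ |M|` and `p ∤ q ^ i - 1` for every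
`q ^ i` dividing `|G|`, `i ≥ 1`. Then `G` has an element of order `p * q`. -/
theorem exists_orderOf_eq_mul_of_normal {G : Type*} [Group G] [Finite G] {p q : ℕ}
    (hp : p.Prime) (hq : q.Prime) (hne : p ≠ q) (M : Subgroup G) [M.Normal]
    (hpM : ¬ p ∣ Nat.card M) (hpG : p ∣ Nat.card G) (hqM : q ∣ Nat.card M)
    (h1 : ∀ i, 1 ≤ i → q ^ i ∣ Nat.card G → ¬ p ∣ q ^ i - 1) : ∃ g : G, orderOf g = p * q := by
  have : Fact p.Prime := ⟨hp⟩
  have : Fact q.Prime := ⟨hq⟩
  obtain ⟨Q⟩ : Nonempty (Sylow q M) := inferInstance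
  set Q' : Subgroup G := (Q : Subgroup M).map M.subtype with hQ'
  have hfr : Subgroup.normalizer (Q' : Set G) ⊔ M = ⊤ := Sylow.normalizer_sup_eq_top Q
  set N : Subgroup G := Subgroup.normalizer (Q' : Set G) with hN
  have hidx : M.index = M.relIndex N := by
    rw [← Subgroup.relIndex_sup_left, sup_comm, hfr, Subgroup.relIndex_top_right]
  have hpidx : p ∣ M.index := by
    have := Subgroup.card_mul_index M
    rw [← this] at hpG
    exact (hp.dvd_mul.mp hpG).resolve_left hpM
  have hpN : p ∣ Nat.card N := by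
    rw [hidx] at hpidx
    exact hpidx.trans (Subgroup.index_dvd_card _)
  obtain ⟨x, hx⟩ := exists_prime_orderOf_dvd_card' (G := N) p hpN
  have hcardQ : Nat.card Q' = q ^ (Nat.card M).factorization q := by
    rw [hQ', Subgroup.card_map_of_injective M.subtype_injective]
    exact Sylow.card_eq_multiplicity Q
  have hb : 1 ≤ (Nat.card M).factorization q :=
    (hq.dvd_iff_one_le_factorization Nat.card_pos.ne').mp hqM
  have hdvd : q ^ (Nat.card M).factorization q ∣ Nat.card G :=
    (Nat.ordProj_dvd _ _).trans (Subgroup.card_subgroup_dvd_card M)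
  refine exists_orderOf_eq_mul_of_normalizes hp hq hne Q' hcardQ (h1 _ hb hdvd) (x : G)
    (by rw [Subgroup.orderOf_coe, hx]) ?_
  intro y hy
  exact (Subgroup.mem_normalizer_iff.mp x.2 y).mp hy

/-- In a finite solvable group whose order is divisible by the distinct primes `p` and `q`, where
`p ∤ q ^ i - 1` whenever `q ^ i` divides the order (`i ≥ 1`) and symmetrically, there is an element of order
`p * q`. -/
theorem exists_orderOf_eq_mul_of_isSolvable {G : Type*} [Group G] [Finite G] [Group.IsSolvable G]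
    {p q : ℕ} (hp : p.Prime) (hq : q.Prime) (hne : p ≠ q)
    (hpG : p ∣ Nat.card G) (hqG : q ∣ Nat.card G)
    (h1 : ∀ i, 1 ≤ i → q ^ i ∣ Nat.card G → ¬ p ∣ q ^ i - 1)
    (h2 : ∀ i, 1 ≤ i → p ^ i ∣ Nat.card G → ¬ q ∣ p ^ i - 1) : ∃ g : G, orderOf g = p * q := by
  induction' hn : Nat.card G using Nat.strong_induction_on with n ih generalizing G
  have : Fact p.Prime := ⟨hp⟩
  have : Fact q.Prime := ⟨hq⟩
  have hnt : Nontrivial G := by
    rw [← Finite.one_lt_card_iff_nontrivial]
    exact lt_of_lt_of_le hp.one_lt (Nat.le_of_dvd Nat.card_pos hpG)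
  set M : Subgroup G := commutator G with hM
  have hMlt : M < ⊤ := Group.IsSolvable.commutator_lt_top_of_nontrivial G
  have hMn : M.Normal := inferInstance
  by_cases hpM : p ∣ Nat.card M <;> by_cases hqM : q ∣ Nat.card M
  · -- both divide `|M|`: induction
    have hcard : Nat.card M < n := by
      rw [← hn, ← Subgroup.card_top (G := G)]
      exact Set.Finite.card_lt_card (Set.toFinite _) hMlt
    have hdvd : Nat.card M ∣ Nat.card G := Subgroup.card_subgroup_dvd_card M
    obtain ⟨g, hg⟩ := ih (Nat.card M) hcard (G := M) hpM hqM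
      (fun i hi hd => h1 i hi (hd.trans hdvd)) (fun i hi hd => h2 i hi (hd.trans hdvd)) rfl
    exact ⟨(g : G), by rw [Subgroup.orderOf_coe, hg]⟩
  · rw [mul_comm]
    exact exists_orderOf_eq_mul_of_normal hq hp hne.symm M hqM hqG hpM h2
  · exact exists_orderOf_eq_mul_of_normal hp hq hne M hpM hpG hqM h1
  · -- both divide the index: the abelianization has an element of order `p * q`
    have hidx := Subgroup.card_mul_index M
    have hpi : p ∣ Nat.card (G ⧸ M) := by
      rw [← hidx] at hpG
      exact (hp.dvd_mul.mp hpG).resolve_left hpM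
    have hqi : q ∣ Nat.card (G ⧸ M) := by
      rw [← hidx] at hqG
      exact (hq.dvd_mul.mp hqG).resolve_left hqM
    obtain ⟨a, ha⟩ := exists_prime_orderOf_dvd_card' (G := G ⧸ M) p hpi
    obtain ⟨b, hb⟩ := exists_prime_orderOf_dvd_card' (G := G ⧸ M) q hqi
    have hcomm : Commute a b := by
      have : ∀ a b : Abelianization G, a * b = b * a := mul_comm
      exact this a b
    have hab : orderOf (a * b) = p * q := by
      rw [hcomm.orderOf_mul_eq_mul_orderOf_of_coprime (by
        rw [ha, hb]; exact (Nat.coprime_primes hp hq).mpr hne), ha, hb]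
    obtain ⟨g, hg⟩ := QuotientGroup.mk_surjective (a * b)
    apply exists_orderOf_eq_of_dvd g (p * q) (orderOf_pos _).ne'
    rw [← hab, ← hg]
    exact orderOf_map_dvd (QuotientGroup.mk' M) g

end Cfsg.Agent.Lib.Helper57
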