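import Mathlib
import Cfsg.Agent.Lib.Helper57.RootSLc
import Cfsg.Agent.Lib.Helper5.SLGen

set_option autoImplicit false

/-! The transvection subgroups of `SL_n(K)`, `n ≥ 3`, form a class of abstract root subgroups. -/

namespace Cfsg.Agent.Lib.Helper57.RootSL

open Matrix Cfsg
open Cfsg.Agent.Lib.Helper83 (conjBy_one conjBy_conjBy mem_conjBy)

variable {ι : Type*} [Fintype ι] [DecidableEq ι] {K : Type*} [Field K]

variable {v φ w ψ : ι → K}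

theorem comm_pair (h : φ ⬝ᵥ v = 0) (h' : ψ ⬝ᵥ w = 0) (hα : φ ⬝ᵥ w = 0) (hβ : ψ ⬝ᵥ v = 0) :
    ∀ a ∈ T v φ, ∀ b ∈ T w ψ, a * b = b * a := by
  intro a ha b hb
  obtain ⟨c, rfl⟩ := (mem_T h).mp ha
  obtain ⟨d, rfl⟩ := (mem_T h').mp hb
  exact tv_commute (smul_dot h c) (smul_dot h' d) (smul_dot hβ d) (smul_dot hα c)

lemma comm_formula (h : φ ⬝ᵥ v = 0) (h' : ψ ⬝ᵥ w = 0) (hβ : ψ ⬝ᵥ v = 0) (c d : K) :
    tv v (c • φ) * tv w (d • ψ) * (tv v (c • φ))⁻¹ * (tv w (d • ψ))⁻¹ =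
      tv v ((c * (φ ⬝ᵥ w) * d) • ψ) := by
  rw [tv_comm (smul_dot h c) (smul_dot h' d) (smul_dot hβ d), tv_smul, smul_smul, smul_dotProduct,
    smul_eq_mul]

lemma ne_zero_of_tv_ne_one {c : K} (hc : tv v (c • φ) ≠ 1) : c ≠ 0 := by
  rintro rfl
  exact hc (by rw [zero_smul, tv_zero_right])

theorem commutator_T (h : φ ⬝ᵥ v = 0) (h' : ψ ⬝ᵥ w = 0) (hα : φ ⬝ᵥ w ≠ 0) (hβ : ψ ⬝ᵥ v = 0) :
    ⁅T v φ, T w ψ⁆ = T v ψ := by
  apply le_antisymm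
  · rw [Subgroup.commutator_le]
    intro a ha b hb
    obtain ⟨c, rfl⟩ := (mem_T h).mp ha
    obtain ⟨d, rfl⟩ := (mem_T h').mp hb
    rw [commutatorElement_def, comm_formula h h' hβ]
    exact tv_mem_T _ _ _
  · intro x hx
    obtain ⟨e, rfl⟩ := (mem_T hβ).mp hx
    have h1 := Subgroup.commutator_mem_commutator (tv_mem_T v φ (e * (φ ⬝ᵥ w)⁻¹)) (tv_mem_T w ψ 1)
    rw [commutatorElement_def, comm_formula h h' hβ, mul_assoc e, inv_mul_cancel₀ hα, mul_one,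
      mul_one] at h1
    exact h1

theorem cc_pair (hv : v ≠ 0) (hψ : ψ ≠ 0) (h : φ ⬝ᵥ v = 0) (h' : ψ ⬝ᵥ w = 0) (hα : φ ⬝ᵥ w ≠ 0)
    (hβ : ψ ⬝ᵥ v = 0) : RootCommutatorCase Sig (T v φ) (T w ψ) := by
  rw [RootCommutatorCase, commutator_T h h' hα hβ]
  refine ⟨T_mem_Sig hv hψ hβ, ?_, ?_, ?_⟩
  · have hle : T v φ ⊔ T w ψ ≤ Subgroup.centralizer (T v ψ : Set (SpecialLinearGroup ι K)) := by
      apply sup_le
      · intro a ha
        rw [Subgroup.mem_centralizer_iff]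
        intro c hc
        exact comm_pair hβ h hβ h c hc a ha
      · intro b hb
        rw [Subgroup.mem_centralizer_iff]
        intro c hc
        exact comm_pair hβ h' h' hβ c hc b hb
    intro c hc x hx
    exact Subgroup.mem_centralizer_iff.mp (hle hx) c hc
  · intro a ha ha1
    obtain ⟨c, rfl⟩ := (mem_T h).mp ha
    have hc := ne_zero_of_tv_ne_one ha1
    apply le_antisymm
    · rw [Subgroup.closure_le]
      rintro _ ⟨b, hb, rfl⟩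
      obtain ⟨d, rfl⟩ := (mem_T h').mp hb
      simp only [comm_formula h h' hβ]
      exact tv_mem_T _ _ _
    · intro x hx
      obtain ⟨e, rfl⟩ := (mem_T hβ).mp hx
      apply Subgroup.subset_closure
      refine ⟨tv w (((c * (φ ⬝ᵥ w))⁻¹ * e) • ψ), tv_mem_T _ _ _, ?_⟩
      simp only [comm_formula h h' hβ]
      rw [← mul_assoc, mul_inv_cancel₀ (mul_ne_zero hc hα), one_mul]
  · intro b hb hb1
    obtain ⟨d, rfl⟩ := (mem_T h').mp hb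
    have hd := ne_zero_of_tv_ne_one hb1
    apply le_antisymm
    · rw [Subgroup.closure_le]
      rintro _ ⟨a, ha, rfl⟩
      obtain ⟨c, rfl⟩ := (mem_T h).mp ha
      simp only [comm_formula h h' hβ]
      exact tv_mem_T _ _ _
    · intro x hx
      obtain ⟨e, rfl⟩ := (mem_T hβ).mp hx
      apply Subgroup.subset_closure
      refine ⟨tv v ((e * ((φ ⬝ᵥ w) * d)⁻¹) • φ), tv_mem_T _ _ _, ?_⟩
      simp only [comm_formula h h' hβ]
      rw [mul_assoc, mul_assoc, inv_mul_cancel₀ (mul_ne_zero hα hd), mul_one]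

/-- the trichotomy. -/
theorem pair_T (hv : v ≠ 0) (hφ : φ ≠ 0) (hw : w ≠ 0) (hψ : ψ ≠ 0) (h : φ ⬝ᵥ v = 0)
    (h' : ψ ⬝ᵥ w = 0) :
    ⁅T v φ, T w ψ⁆ = ⊥ ∨ IsRankOnePair (T v φ) (T w ψ) ∨ RootCommutatorCase Sig (T v φ) (T w ψ) := by
  by_cases hα : φ ⬝ᵥ w = 0
  · by_cases hβ : ψ ⬝ᵥ v = 0
    · exact Or.inl (Cfsg.Agent.Lib.Helper83.commutator_eq_bot_of_commute (comm_pair h h' hα hβ))
    · exact Or.inr (Or.inr (Cfsg.Agent.Lib.Helper83.CC.symm (cc_pair hw hφ h' h hβ hα)))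
  · by_cases hβ : ψ ⬝ᵥ v = 0
    · exact Or.inr (Or.inr (cc_pair hv hψ h h' hα hβ))
    · exact Or.inr (Or.inl (opp_pair h h' hα hβ).2)

theorem opp_of_rankOne (hv : v ≠ 0) (hφ : φ ≠ 0) (hw : w ≠ 0) (hψ : ψ ≠ 0) (h : φ ⬝ᵥ v = 0)
    (h' : ψ ⬝ᵥ w = 0) (hr : IsRankOnePair (T v φ) (T w ψ)) : φ ⬝ᵥ w ≠ 0 ∧ ψ ⬝ᵥ v ≠ 0 := by
  have hne : tv v φ ≠ 1 := by
    rw [Ne, tv_eq_one_iff h]
    exact fun hh => hh.elim hv hφ
  have hne' : tv w ψ ≠ 1 := by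
    rw [Ne, tv_eq_one_iff h']
    exact fun hh => hh.elim hw hψ
  by_cases hα : φ ⬝ᵥ w = 0
  · by_cases hβ : ψ ⬝ᵥ v = 0
    · exact absurd (Cfsg.Agent.Lib.Helper83.R1.eq_one_of_commute hr (tv_mem_T' v φ)
        (comm_pair h h' hα hβ _ (tv_mem_T' v φ))) hne
    · have hcc := cc_pair hw hφ h' h hβ hα
      exact absurd (Cfsg.Agent.Lib.Helper83.R1.eq_one_of_commutatorCase (RankOnePair_symm hr) (T_comm h)
        hcc (x := tv w ψ) (z := 1) (tv_mem_T' w ψ) (by simp) (by simpa using tv_mem_T' w ψ)) hne'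
  · by_cases hβ : ψ ⬝ᵥ v = 0
    · have hcc := cc_pair hv hψ h h' hα hβ
      exact absurd (Cfsg.Agent.Lib.Helper83.R1.eq_one_of_commutatorCase hr (T_comm h')
        hcc (x := tv v φ) (z := 1) (tv_mem_T' v φ) (by simp) (by simpa using tv_mem_T' v φ)) hne
    · exact ⟨hα, hβ⟩

theorem generates_Sig (h3 : 2 < Fintype.card ι) :
    (⨆ A ∈ (Sig : Set (Subgroup (SpecialLinearGroup ι K))), A) = ⊤ := by
  have : Nontrivial ι := Fintype.one_lt_card_iff_nontrivial.1 (by omega)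
  rw [eq_top_iff]
  intro g _
  refine Cfsg.Agent.Lib.Helper5.SL_transvection_induction
    (fun g => g ∈ ⨆ A ∈ (Sig : Set (Subgroup (SpecialLinearGroup ι K))), A) ?_
    (fun _ _ => Subgroup.mul_mem _) g
  intro i j hij c
  have h1 : Matrix.SpecialLinearGroup.transvection hij c = tv (bv i) (c • bv j) := by
    apply Subtype.ext
    rw [tv_bv_val hij, Matrix.SpecialLinearGroup.transvection_coe]
    rfl
  rw [h1]
  have h2 : T (bv i) (bv j) ≤ ⨆ A ∈ (Sig : Set (Subgroup (SpecialLinearGroup ι K))), A :=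
    le_iSup₂_of_le (T (bv i) (bv j)) (T_mem_Sig (bv_ne_zero i) (bv_ne_zero j) (bv_dot_bv hij.symm))
      le_rfl
  exact h2 (tv_mem_T _ _ _)

theorem isRootSubgroupSet_Sig (h3 : 2 < Fintype.card ι) :
    IsRootSubgroupSet (Sig : Set (Subgroup (SpecialLinearGroup ι K))) where
  commutative := by
    rintro _ ⟨v, φ, hv, hφ, h, rfl⟩
    exact T_comm h
  ne_bot := by
    rintro _ ⟨v, φ, hv, hφ, h, rfl⟩
    exact T_ne_bot h hv hφ
  generates := generates_Sig h3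
  conj_mem := by
    rintro _ ⟨v, φ, hv, hφ, h, rfl⟩ g
    rw [conjBy_T g h]
    exact T_mem_Sig (mulVec_ne_zero g hv) (vecMul_ne_zero _ hφ) (by rw [dot_conj, h])
  pair := by
    rintro _ ⟨v, φ, hv, hφ, h, rfl⟩ _ ⟨w, ψ, hw, hψ, h', rfl⟩
    exact pair_T hv hφ hw hψ h h'

theorem isConjClass_Sig (h3 : 2 < Fintype.card ι) :
    IsConjClassOfSubgroups (Sig : Set (Subgroup (SpecialLinearGroup ι K))) := by
  have : Nontrivial ι := Fintype.one_lt_card_iff_nontrivial.1 (by omega)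
  obtain ⟨i, j, hij⟩ := exists_pair_ne ι
  refine ⟨⟨_, T_mem_Sig (bv_ne_zero i) (bv_ne_zero j) (bv_dot_bv hij.symm)⟩, ?_⟩
  rintro _ ⟨v, φ, hv, hφ, h, rfl⟩ _ ⟨w, ψ, hw, hψ, h', rfl⟩
  obtain ⟨g, hg⟩ := trans_T h3 hv hφ h hw hψ h'
  exact ⟨g, hg.symm⟩

theorem isKRoot_Sig (h3 : 2 < Fintype.card ι) :
    IsKRootSubgroupSet K (Sig : Set (Subgroup (SpecialLinearGroup ι K))) := by
  refine ⟨isRootSubgroupSet_Sig h3, ?_⟩
  rintro _ ⟨v, φ, hv, hφ, h, rfl⟩ _ ⟨w, ψ, hw, hψ, h', rfl⟩ hr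
  obtain ⟨hα, hβ⟩ := opp_of_rankOne hv hφ hw hψ h h' hr
  exact (opp_pair h h' hα hβ).1

theorem nondeg_Sig {i j l : ι} (hij : i ≠ j) (hil : i ≠ l) (hjl : j ≠ l) :
    IsNondegenerateRootSet (Sig : Set (Subgroup (SpecialLinearGroup ι K))) := by
  have m1 : T (bv i) (bv j) ∈ (Sig : Set (Subgroup (SpecialLinearGroup ι K))) :=
    T_mem_Sig (bv_ne_zero i) (bv_ne_zero j) (bv_dot_bv hij.symm)
  refine ⟨⟨_, m1, T (bv i) (bv l), T_mem_Sig (bv_ne_zero i) (bv_ne_zero l) (bv_dot_bv hil.symm), ?_, ?_⟩,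
    ⟨_, m1, T (bv j) (bv i), T_mem_Sig (bv_ne_zero j) (bv_ne_zero i) (bv_dot_bv hij), ?_⟩,
    ⟨_, m1, T (bv j) (bv l), T_mem_Sig (bv_ne_zero j) (bv_ne_zero l) (bv_dot_bv hjl.symm), ?_⟩⟩
  · intro he
    obtain ⟨c, hc⟩ := axis_of_T_eq (bv_dot_bv hij.symm) (bv_dot_bv hil.symm) (bv_ne_zero i) he
    have := congrFun hc j
    simp [bv, hjl] at this
  · exact Cfsg.Agent.Lib.Helper83.commutator_eq_bot_of_commute
      (comm_pair (bv_dot_bv hij.symm) (bv_dot_bv hil.symm) (bv_dot_bv hij.symm) (bv_dot_bv hil.symm))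
  · refine (opp_pair (bv_dot_bv hij.symm) (bv_dot_bv hij) ?_ ?_).2
    · rw [bv_dot_self]; exact one_ne_zero
    · rw [bv_dot_self]; exact one_ne_zero
  · refine cc_pair (bv_ne_zero i) (bv_ne_zero l) (bv_dot_bv hij.symm) (bv_dot_bv hjl.symm) ?_
      (bv_dot_bv hil.symm)
    rw [bv_dot_self]; exact one_ne_zero

omit [DecidableEq ι] in
lemma not_par_of_dot (hv : v ≠ 0) {u : ι → K} (h : φ ⬝ᵥ v = 0) (hu : φ ⬝ᵥ u ≠ 0) :
    ∀ c : K, v ≠ c • u := by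
  intro c hc
  rw [hc, dotProduct_smul, smul_eq_mul] at h
  rcases mul_eq_zero.mp h with h0 | h0
  · apply hv
    rw [hc, h0, zero_smul]
  · exact hu h0

/-- a common opposite for two transvection groups. -/
lemma exists_common_opp (hv : v ≠ 0) (hφ : φ ≠ 0) (hw : w ≠ 0) (hψ : ψ ≠ 0) (h : φ ⬝ᵥ v = 0)
    (h' : ψ ⬝ᵥ w = 0) : ∃ u χ : ι → K, χ ⬝ᵥ u = 0 ∧ φ ⬝ᵥ u ≠ 0 ∧ ψ ⬝ᵥ u ≠ 0 ∧ χ ⬝ᵥ v ≠ 0 ∧
      χ ⬝ᵥ w ≠ 0 := by
  obtain ⟨x, hx⟩ := exists_dot_eq_one hφ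
  obtain ⟨y, hy⟩ := exists_dot_eq_one hψ
  rw [dotProduct_comm] at hx hy
  obtain ⟨u, -, hu1, hu2⟩ := exists_both_ne (fun z => φ ⬝ᵥ z) (fun z => ψ ⬝ᵥ z)
    (fun a b => dotProduct_add _ _ _) (fun a b => dotProduct_add _ _ _) (fun _ => True)
    (fun _ _ _ _ => trivial) (x := x) (y := y) trivial trivial (by simp [hx]) (by simp [hy])
  obtain ⟨χ₁, a1, a2⟩ := exists_dot_sep (not_par_of_dot hv h hu1)
  obtain ⟨χ₂, b1, b2⟩ := exists_dot_sep (not_par_of_dot hw h' hu2)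
  obtain ⟨χ, hχ, c1, c2⟩ := exists_both_ne (fun z => z ⬝ᵥ v) (fun z => z ⬝ᵥ w)
    (fun a b => add_dotProduct _ _ _) (fun a b => add_dotProduct _ _ _) (fun z => z ⬝ᵥ u = 0)
    (fun a b ha hb => by rw [add_dotProduct, ha, hb, add_zero]) (x := χ₁) (y := χ₂) a1 b1
    (by simp [a2]) (by simp [b2])
  exact ⟨u, χ, hχ, hu1, hu2, c1, c2⟩

theorem connected_Sig :
    IsConnectedFamily (FAdj (Sig : Set (Subgroup (SpecialLinearGroup ι K)))) Sig := by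
  rintro _ ⟨v, φ, hv, hφ, h, rfl⟩ _ ⟨w, ψ, hw, hψ, h', rfl⟩
  obtain ⟨u, χ, hχ, h1, h2, h3, h4⟩ := exists_common_opp hv hφ hw hψ h h'
  have hu : u ≠ 0 := by
    rintro rfl
    simp at h1
  have hχ0 : χ ≠ 0 := by
    rintro rfl
    simp at h3
  have m := T_mem_Sig hu hχ0 hχ
  exact Relation.ReflTransGen.head ⟨T_mem_Sig hv hφ h, m, (opp_pair h hχ h1 h3).2⟩
    (Relation.ReflTransGen.single ⟨m, T_mem_Sig hw hψ h', (opp_pair hχ h' h4 h2).2⟩)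

end Cfsg.Agent.Lib.Helper57.RootSL
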