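import Mathlib
import Cfsg.Agent.Lib.Helper57.RootSLd

set_option autoImplicit false

/-! Exact transitivity on incident pairs; transvections as root involutions in characteristic 2. -/

namespace Cfsg.Agent.Lib.Helper57.RootSL

open Matrix Cfsg

variable {ι : Type*} [Fintype ι] [DecidableEq ι] {K : Type*} [Field K]

/-- some element of `SL` moves the pair `(v, φ)` to `(v', φ')`. -/
def Mv (v φ v' φ' : ι → K) : Prop :=
  ∃ g : SpecialLinearGroup ι K, (g : Matrix ι ι K) *ᵥ v = v' ∧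
    φ ᵥ* ((g⁻¹ : SpecialLinearGroup ι K) : Matrix ι ι K) = φ'

lemma Mv.trans {v φ v' φ' v'' φ'' : ι → K} (h₁ : Mv v φ v' φ') (h₂ : Mv v' φ' v'' φ'') :
    Mv v φ v'' φ'' := by
  obtain ⟨g₁, a1, a2⟩ := h₁
  obtain ⟨g₂, b1, b2⟩ := h₂
  refine ⟨g₂ * g₁, ?_, ?_⟩
  · rw [Matrix.SpecialLinearGroup.coe_mul, ← Matrix.mulVec_mulVec, a1, b1]
  · rw [_root_.mul_inv_rev, Matrix.SpecialLinearGroup.coe_mul, ← Matrix.vecMul_vecMul, a2, b2]

lemma exists_np (h3 : 2 < Fintype.card ι) {v : ι → K} (φ : ι → K) (hv : v ≠ 0) :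
    ∃ u : ι → K, φ ⬝ᵥ u = 0 ∧ ∀ c : K, u ≠ c • v := by
  obtain ⟨χ, hχ⟩ := exists_dot_eq_one hv
  obtain ⟨u, hu, h1, h2⟩ := exists_common_ker h3 φ χ
  refine ⟨u, h1, ?_⟩
  intro c hc
  rw [hc, dotProduct_smul, hχ, smul_eq_mul, mul_one] at h2
  apply hu
  rw [hc, h2, zero_smul]

omit [Fintype ι] [DecidableEq ι] in
lemma np_symm {v v' : ι → K} (hv : v ≠ 0) (h : ∀ c : K, v' ≠ c • v) : ∀ c : K, v ≠ c • v' := by
  intro c hc
  have hc0 : c ≠ 0 := by
    rintro rfl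
    exact hv (by simpa using hc)
  apply h c⁻¹
  rw [hc, smul_smul, inv_mul_cancel₀ hc0, one_smul]

lemma move_center_np {v v' φ : ι → K} (hv : v ≠ 0) (hpar : ∀ c : K, v' ≠ c • v) (h : φ ⬝ᵥ v = 0)
    (h' : φ ⬝ᵥ v' = 0) : Mv v φ v' φ := by
  obtain ⟨χ, h1, h2⟩ := exists_dot_both hv hpar
  have hχ : χ ⬝ᵥ (v' - v) = 0 := by rw [dotProduct_sub, h1, h2, sub_self]
  refine ⟨tv (v' - v) χ, ?_, ?_⟩
  · rw [tv_mulVec hχ, h1, one_smul, add_sub_cancel]
  · rw [vecMul_tv_inv hχ, dotProduct_sub, h, h', sub_self, zero_smul, sub_zero]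

lemma move_center_ex (h3 : 2 < Fintype.card ι) {v v' φ : ι → K} (hv : v ≠ 0) (hv' : v' ≠ 0)
    (h : φ ⬝ᵥ v = 0) (h' : φ ⬝ᵥ v' = 0) : Mv v φ v' φ := by
  by_cases hpar : ∃ c : K, v' = c • v
  · obtain ⟨c, rfl⟩ := hpar
    obtain ⟨u, hu, hnp⟩ := exists_np h3 φ hv
    have hu0 : u ≠ 0 := by simpa using hnp 0
    refine (move_center_np hv hnp h hu).trans (move_center_np hu0 ?_ hu h')
    intro d hd
    have hd0 : d ≠ 0 := by
      rintro rfl
      exact hv' (by simpa using hd)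
    apply hnp (d⁻¹ * c)
    rw [← smul_smul, hd, smul_smul, inv_mul_cancel₀ hd0, one_smul]
  · push Not at hpar
    exact move_center_np hv hpar h h'

lemma move_axis_np {v φ φ' : ι → K} (hφ : φ ≠ 0) (hpar : ∀ c : K, φ' ≠ c • φ) (h : φ ⬝ᵥ v = 0)
    (h' : φ' ⬝ᵥ v = 0) : Mv v φ v φ' := by
  obtain ⟨u, h1, h2⟩ := exists_dot_both hφ hpar
  rw [dotProduct_comm] at h1 h2
  have hu : (φ - φ') ⬝ᵥ u = 0 := by rw [sub_dotProduct, h1, h2, sub_self]
  refine ⟨tv u (φ - φ'), ?_, ?_⟩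
  · rw [tv_mulVec hu, sub_dotProduct, h, h', sub_self, zero_smul, add_zero]
  · rw [vecMul_tv_inv hu, h1, one_smul, sub_sub_cancel]

lemma move_axis_ex (h3 : 2 < Fintype.card ι) {v φ φ' : ι → K} (hφ : φ ≠ 0) (hφ' : φ' ≠ 0)
    (h : φ ⬝ᵥ v = 0) (h' : φ' ⬝ᵥ v = 0) : Mv v φ v φ' := by
  by_cases hpar : ∃ c : K, φ' = c • φ
  · obtain ⟨c, rfl⟩ := hpar
    obtain ⟨u, hu, hnp⟩ := exists_np h3 v hφ
    rw [dotProduct_comm] at hu
    have hu0 : u ≠ 0 := by simpa using hnp 0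
    refine (move_axis_np hφ hnp h hu).trans (move_axis_np hu0 ?_ hu h')
    intro d hd
    have hd0 : d ≠ 0 := by
      rintro rfl
      exact hφ' (by simpa using hd)
    apply hnp (d⁻¹ * c)
    rw [← smul_smul, hd, smul_smul, inv_mul_cancel₀ hd0, one_smul]
  · push Not at hpar
    exact move_axis_np hφ hpar h h'

theorem trans_ex (h3 : 2 < Fintype.card ι) {v φ v' φ' : ι → K} (hv : v ≠ 0) (hφ : φ ≠ 0)
    (h : φ ⬝ᵥ v = 0) (hv' : v' ≠ 0) (hφ' : φ' ≠ 0) (h' : φ' ⬝ᵥ v' = 0) : Mv v φ v' φ' := by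
  obtain ⟨u, hu, hu1, hu2⟩ := exists_common_ker h3 φ φ'
  exact ((move_center_ex h3 hv hu h hu1).trans (move_axis_ex h3 hφ hφ' hu1 hu2)).trans
    (move_center_ex h3 hu hv' hu2 h')

theorem conj_ex (h3 : 2 < Fintype.card ι) {v φ v' φ' : ι → K} (hv : v ≠ 0) (hφ : φ ≠ 0)
    (h : φ ⬝ᵥ v = 0) (hv' : v' ≠ 0) (hφ' : φ' ≠ 0) (h' : φ' ⬝ᵥ v' = 0) :
    ∃ g : SpecialLinearGroup ι K, tv v' φ' = g * tv v φ * g⁻¹ := by
  obtain ⟨g, h1, h2⟩ := trans_ex h3 hv hφ h hv' hφ' h'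
  exact ⟨g, by rw [conj_tv g h, h1, h2]⟩

/-- the set of all (non-identity) transvections. -/
def Dset : Set (SpecialLinearGroup ι K) :=
  {t | ∃ v φ : ι → K, v ≠ 0 ∧ φ ≠ 0 ∧ φ ⬝ᵥ v = 0 ∧ t = tv v φ}

lemma tv_mem_Dset {v φ : ι → K} (hv : v ≠ 0) (hφ : φ ≠ 0) (h : φ ⬝ᵥ v = 0) :
    tv v φ ∈ (Dset : Set (SpecialLinearGroup ι K)) := ⟨v, φ, hv, hφ, h, rfl⟩

lemma conj_mem_Dset {d : SpecialLinearGroup ι K} (hd : d ∈ (Dset : Set (SpecialLinearGroup ι K)))
    (g : SpecialLinearGroup ι K) : g * d * g⁻¹ ∈ (Dset : Set (SpecialLinearGroup ι K)) := by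
  obtain ⟨v, φ, hv, hφ, h, rfl⟩ := hd
  rw [conj_tv g h]
  exact tv_mem_Dset (mulVec_ne_zero g hv) (vecMul_ne_zero _ hφ) (by rw [dot_conj, h])

lemma Dset_eq (h3 : 2 < Fintype.card ι) {i j : ι} (hij : i ≠ j) :
    {t : SpecialLinearGroup ι K | ∃ c : K, c ≠ 0 ∧ ∃ g : SpecialLinearGroup ι K,
      ((g⁻¹ * t * g : SpecialLinearGroup ι K) : Matrix ι ι K) = Matrix.transvection i j c} = Dset := by
  ext t
  constructor
  · rintro ⟨c, hc, g, hg⟩
    have h1 : g⁻¹ * t * g = tv (bv i) (c • bv j) := Subtype.ext (by rw [hg, tv_bv_val hij])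
    have h2 : t = g * tv (bv i) (c • bv j) * g⁻¹ := by rw [← h1]; group
    rw [h2]
    exact conj_mem_Dset (tv_mem_Dset (bv_ne_zero i) (smul_ne_zero hc (bv_ne_zero j))
      (smul_dot (bv_dot_bv hij.symm) c)) g
  · rintro ⟨v, φ, hv, hφ, h, rfl⟩
    obtain ⟨g, hg⟩ := conj_ex h3 (bv_ne_zero i) (bv_ne_zero j) (bv_dot_bv hij.symm) hv hφ h
    refine ⟨1, one_ne_zero, g, ?_⟩
    have h5 : g⁻¹ * (g * tv (bv i) (bv j) * g⁻¹) * g = tv (bv i) (bv j) := by group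
    rw [hg, h5]
    have := tv_bv_val hij (1 : K)
    rwa [one_smul] at this

theorem closure_Dset (h3 : 2 < Fintype.card ι) :
    Subgroup.closure (Dset : Set (SpecialLinearGroup ι K)) = ⊤ := by
  have : Nontrivial ι := Fintype.one_lt_card_iff_nontrivial.1 (by omega)
  rw [eq_top_iff]
  intro g _
  refine Cfsg.Agent.Lib.Helper5.SL_transvection_induction
    (fun g => g ∈ Subgroup.closure (Dset : Set (SpecialLinearGroup ι K))) ?_
    (fun _ _ => Subgroup.mul_mem _) g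
  intro i j hij c
  have h1 : Matrix.SpecialLinearGroup.transvection hij c = tv (bv i) (c • bv j) := by
    apply Subtype.ext
    rw [tv_bv_val hij, Matrix.SpecialLinearGroup.transvection_coe]
    rfl
  rw [h1]
  by_cases hc : c = 0
  · rw [hc, zero_smul, tv_zero_right]
    exact Subgroup.one_mem _
  · exact Subgroup.subset_closure (tv_mem_Dset (bv_ne_zero i) (smul_ne_zero hc (bv_ne_zero j))
      (smul_dot (bv_dot_bv hij.symm) c))

section char2

variable {F : Type*} [Field F]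

lemma ch2 (m : Matrix (Fin 2) (Fin 2) F) : m * m = m.trace • m - m.det • (1 : Matrix (Fin 2) (Fin 2) F) := by
  ext i j
  fin_cases i <;> fin_cases j <;>
    simp [Matrix.mul_apply, Fin.sum_univ_two, Matrix.trace, Matrix.det_fin_two] <;> ring

lemma pow_form (m : Matrix (Fin 2) (Fin 2) F) (hd : m.det = 1) (k : ℕ) :
    ∃ x y : F, m ^ k = x • (1 : Matrix (Fin 2) (Fin 2) F) + y • m := by
  induction k with
  | zero => exact ⟨1, 0, by simp⟩
  | succ k ih =>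
    obtain ⟨x, y, h⟩ := ih
    refine ⟨-y, x + y * m.trace, ?_⟩
    rw [pow_succ, h, add_mul, smul_mul_assoc, smul_mul_assoc, one_mul, ch2 m, hd]
    module

variable [CharP F 2]

lemma pow_eq_one_of_sq (m : Matrix (Fin 2) (Fin 2) F) (hd : m.det = 1) (ht : m.trace ≠ 0) (k : ℕ)
    (h : m ^ (2 * k) = 1) : m ^ k = 1 := by
  have hdu : (m ^ k).det = 1 := by rw [det_pow, hd, one_pow]
  have huu : m ^ k * m ^ k = 1 := by rw [← pow_add, ← two_mul, h]
  have h1 := ch2 (m ^ k)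
  rw [huu, hdu, one_smul] at h1
  have h2 : (m ^ k).trace • m ^ k = 0 := by
    have : (m ^ k).trace • m ^ k = 1 + 1 := by
      nth_rewrite 1 [h1]
      abel
    rw [this]
    ext i j
    simp only [Matrix.add_apply, Matrix.zero_apply]
    exact CharTwo.add_self_eq_zero _
  have h3 : (m ^ k).trace = 0 := by
    rcases smul_eq_zero.mp h2 with h0 | h0
    · exact h0
    · rw [h0] at hdu
      simp at hdu
  obtain ⟨x, y, hxy⟩ := pow_form m hd k
  rw [hxy, trace_add, trace_smul, trace_smul, trace_one, smul_eq_mul, smul_eq_mul] at h3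
  have h4 : y = 0 := by
    have h5 : ((Fintype.card (Fin 2) : ℕ) : F) = 0 := by
      simp [CharTwo.two_eq_zero]
    rw [h5, mul_zero, zero_add] at h3
    exact (mul_eq_zero.mp h3).resolve_right ht
  rw [h4, zero_smul, add_zero] at hxy
  rw [hxy, det_smul, det_one, mul_one, Fintype.card_fin] at hdu
  have h6 : (x + 1) * (x + 1) = 0 := by
    linear_combination hdu + (x + 1) * (CharTwo.two_eq_zero (R := F))
  have h7 : x + 1 = 0 := by
    rcases mul_eq_zero.mp h6 with h | h <;> exact h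
  have h8 : x = 1 := by
    have := eq_neg_of_add_eq_zero_left h7
    rwa [CharTwo.neg_eq] at this
  rw [hxy, h8, one_smul]

lemma odd_orderOf [Finite F] (m : SpecialLinearGroup (Fin 2) F)
    (ht : (m : Matrix (Fin 2) (Fin 2) F).trace ≠ 0) : Odd (orderOf m) := by
  by_contra hodd
  rw [Nat.not_odd_iff_even] at hodd
  obtain ⟨k, hk⟩ := hodd
  have hpos : 0 < orderOf m := orderOf_pos m
  have h1 : (m : Matrix (Fin 2) (Fin 2) F) ^ (2 * k) = 1 := by
    rw [← Matrix.SpecialLinearGroup.coe_pow, two_mul, ← hk, pow_orderOf_eq_one,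
      Matrix.SpecialLinearGroup.coe_one]
  have h2 := pow_eq_one_of_sq _ m.2 ht k h1
  have h3 : m ^ k = 1 := Subtype.ext (by rw [Matrix.SpecialLinearGroup.coe_pow, h2]; rfl)
  have h4 := Nat.le_of_dvd (by omega) (orderOf_dvd_of_pow_eq_one h3)
  omega

lemma cube_eq_one (m : SpecialLinearGroup (Fin 2) F)
    (ht : (m : Matrix (Fin 2) (Fin 2) F).trace = 1) : m ^ 3 = 1 := by
  apply Subtype.ext
  rw [Matrix.SpecialLinearGroup.coe_pow, Matrix.SpecialLinearGroup.coe_one, pow_succ, pow_two,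
    ch2, ht, m.2, one_smul, one_smul, sub_mul, one_mul, ch2, ht, m.2, one_smul, one_smul]
  have : (-1 : Matrix (Fin 2) (Fin 2) F) = 1 := by
    ext i j
    simp only [Matrix.neg_apply]
    exact CharTwo.neg_eq _
  calc (m : Matrix (Fin 2) (Fin 2) F) - 1 - m = -1 := by abel
    _ = 1 := this

end char2

end Cfsg.Agent.Lib.Helper57.RootSL
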