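import Mathlib
import Cfsg.Agent.Lib.Helper57.RootSLe

set_option autoImplicit false

/-! Transvections of `SL_n(F)`, `F` finite of characteristic 2, are a class of root involutions. -/

namespace Cfsg.Agent.Lib.Helper57.RootSL

open Matrix Cfsg

variable {ι : Type*} [Fintype ι] [DecidableEq ι] {F : Type*} [Field F] [CharP F 2]

variable {v φ w ψ : ι → F}

lemma tv_sq (h : φ ⬝ᵥ v = 0) : tv v φ * tv v φ = 1 := by
  have : φ + φ = 0 := by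
    ext i
    exact CharTwo.add_self_eq_zero _
  rw [tv_mul_center h h, this, tv_zero_right]

lemma tv_inv2 (h : φ ⬝ᵥ v = 0) : (tv v φ)⁻¹ = tv v φ := inv_eq_of_mul_eq_one_right (tv_sq h)

omit [CharP F 2] in
lemma tv_ne_one (hv : v ≠ 0) (hφ : φ ≠ 0) (h : φ ⬝ᵥ v = 0) : tv v φ ≠ 1 := by
  rw [Ne, tv_eq_one_iff h]
  exact fun hh => hh.elim hv hφ

lemma orderOf_tv (hv : v ≠ 0) (hφ : φ ≠ 0) (h : φ ⬝ᵥ v = 0) : orderOf (tv v φ) = 2 :=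
  orderOf_eq_prime (by rw [pow_two, tv_sq h]) (tv_ne_one hv hφ h)

lemma sq_formula (h : φ ⬝ᵥ v = 0) (h' : ψ ⬝ᵥ w = 0) (hβ : ψ ⬝ᵥ v = 0) :
    (tv v φ * tv w ψ) ^ 2 = tv ((φ ⬝ᵥ w) • v) ψ := by
  rw [← tv_comm h h' hβ, tv_inv2 h, tv_inv2 h', pow_two]
  simp only [mul_assoc]

lemma four_case (hv : v ≠ 0) (hψ : ψ ≠ 0) (h : φ ⬝ᵥ v = 0) (h' : ψ ⬝ᵥ w = 0) (hα : φ ⬝ᵥ w ≠ 0)
    (hβ : ψ ⬝ᵥ v = 0) :
    orderOf (tv v φ * tv w ψ) = 4 ∧ (tv v φ * tv w ψ) ^ 2 ∈ (Dset : Set (SpecialLinearGroup ι F)) := by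
  have h0 : ψ ⬝ᵥ ((φ ⬝ᵥ w) • v) = 0 := by rw [dotProduct_smul, hβ, smul_zero]
  have hv' : (φ ⬝ᵥ w) • v ≠ 0 := smul_ne_zero hα hv
  constructor
  · have := orderOf_eq_prime_pow (p := 2) (n := 1) (x := tv v φ * tv w ψ) ?_ ?_
    · simpa using this
    · rw [pow_one, sq_formula h h' hβ]
      exact tv_ne_one hv' hψ h0
    · have : (tv v φ * tv w ψ) ^ 2 ^ (1 + 1) = ((tv v φ * tv w ψ) ^ 2) ^ 2 := by
        rw [← pow_mul]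
        norm_num
      rw [this, sq_formula h h' hβ, pow_two, tv_sq h0]
  · rw [sq_formula h h' hβ]
    exact tv_mem_Dset hv' hψ h0

lemma four_case' (hw : w ≠ 0) (hφ : φ ≠ 0) (h : φ ⬝ᵥ v = 0) (h' : ψ ⬝ᵥ w = 0) (hα : φ ⬝ᵥ w = 0)
    (hβ : ψ ⬝ᵥ v ≠ 0) :
    orderOf (tv v φ * tv w ψ) = 4 ∧ (tv v φ * tv w ψ) ^ 2 ∈ (Dset : Set (SpecialLinearGroup ι F)) := by
  have e : tv v φ * tv w ψ = (tv w ψ * tv v φ)⁻¹ := by
    rw [_root_.mul_inv_rev, tv_inv2 h, tv_inv2 h']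
  obtain ⟨h1, h2⟩ := four_case hw hφ h' h hβ hα
  rw [e, orderOf_inv, inv_pow]
  refine ⟨h1, ?_⟩
  obtain ⟨x, χ, hx, hχ, hxχ, hd⟩ := h2
  rw [hd, tv_inv2 hxχ]
  exact tv_mem_Dset hx hχ hxχ

omit [CharP F 2] in
lemma prod_eq_rho (h : φ ⬝ᵥ v = 0) (h' : ψ ⬝ᵥ w = 0) (hα : φ ⬝ᵥ w ≠ 0) (hβ : ψ ⬝ᵥ v ≠ 0) :
    tv v φ * tv w ψ =
      rho h h' hα hβ (Cfsg.Agent.S5016.Up (φ ⬝ᵥ w) * Cfsg.Agent.S5016.Lo (ψ ⬝ᵥ v)) := by
  rw [map_mul, rho_Up, rho_Lo, mul_inv_cancel₀ hα, mul_inv_cancel₀ hβ, one_smul, one_smul]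

lemma trace_UpLo (a b : F) :
    ((Cfsg.Agent.S5016.Up a * Cfsg.Agent.S5016.Lo b : SpecialLinearGroup (Fin 2) F) :
      Matrix (Fin 2) (Fin 2) F).trace = a * b := by
  rw [Matrix.trace_fin_two]
  have h1 := Cfsg.Agent.S5016.mul00 (Cfsg.Agent.S5016.Up a) (Cfsg.Agent.S5016.Lo b)
  have h2 := Cfsg.Agent.S5016.mul11 (Cfsg.Agent.S5016.Up a) (Cfsg.Agent.S5016.Lo b)
  rw [Cfsg.Agent.S5016.Up00, Cfsg.Agent.S5016.Up01, Cfsg.Agent.S5016.Lo00, Cfsg.Agent.S5016.Lo10] at h1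
  rw [Cfsg.Agent.S5016.Up10, Cfsg.Agent.S5016.Up11, Cfsg.Agent.S5016.Lo01, Cfsg.Agent.S5016.Lo11] at h2
  rw [h1, h2]
  linear_combination (CharTwo.two_eq_zero (R := F))

lemma odd_case [Finite F] (h : φ ⬝ᵥ v = 0) (h' : ψ ⬝ᵥ w = 0) (hα : φ ⬝ᵥ w ≠ 0) (hβ : ψ ⬝ᵥ v ≠ 0) :
    Odd (orderOf (tv v φ * tv w ψ)) := by
  rw [prod_eq_rho h h' hα hβ, orderOf_injective _ (rho_injective h h' hα hβ)]
  apply odd_orderOf
  rw [trace_UpLo]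
  exact mul_ne_zero hα hβ

lemma three_case (h : φ ⬝ᵥ v = 0) (h' : ψ ⬝ᵥ w = 0) (hα : φ ⬝ᵥ w = 1) (hβ : ψ ⬝ᵥ v = 1) :
    orderOf (tv v φ * tv w ψ) = 1 ∨ orderOf (tv v φ * tv w ψ) = 3 := by
  have hα' : φ ⬝ᵥ w ≠ 0 := by rw [hα]; exact one_ne_zero
  have hβ' : ψ ⬝ᵥ v ≠ 0 := by rw [hβ]; exact one_ne_zero
  rw [prod_eq_rho h h' hα' hβ', orderOf_injective _ (rho_injective h h' hα' hβ')]
  have := cube_eq_one (Cfsg.Agent.S5016.Up (φ ⬝ᵥ w) * Cfsg.Agent.S5016.Lo (ψ ⬝ᵥ v))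
    (by rw [trace_UpLo, hα, hβ, mul_one])
  exact (Nat.dvd_prime Nat.prime_three).mp (orderOf_dvd_of_pow_eq_one this)

theorem rootInv_Dset [Finite F] (h3 : 2 < Fintype.card ι) :
    IsRootInvolutionSet (Dset : Set (SpecialLinearGroup ι F)) where
  orderOf_eq := by
    rintro _ ⟨v, φ, hv, hφ, h, rfl⟩
    exact orderOf_tv hv hφ h
  generates := closure_Dset h3
  conj_mem := fun d hd g => conj_mem_Dset hd g
  pair := by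
    rintro _ ⟨v, φ, hv, hφ, h, rfl⟩ _ ⟨w, ψ, hw, hψ, h', rfl⟩
    by_cases hα : φ ⬝ᵥ w = 0
    · by_cases hβ : ψ ⬝ᵥ v = 0
      · exact Or.inl (tv_commute h h' hβ hα)
      · exact Or.inr (Or.inr (four_case' hw hφ h h' hα hβ))
    · by_cases hβ : ψ ⬝ᵥ v = 0
      · exact Or.inr (Or.inr (four_case hv hψ h h' hα hβ))
      · exact Or.inr (Or.inl (odd_case h h' hα hβ))

theorem rootInvClass_Dset [Finite F] (h3 : 2 < Fintype.card ι) :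
    IsRootInvolutionClass (Dset : Set (SpecialLinearGroup ι F)) := by
  have : Nontrivial ι := Fintype.one_lt_card_iff_nontrivial.1 (by omega)
  obtain ⟨i, j, hij⟩ := exists_pair_ne ι
  refine ⟨rootInv_Dset h3, ⟨_, tv_mem_Dset (bv_ne_zero i) (bv_ne_zero j) (bv_dot_bv hij.symm)⟩, ?_⟩
  rintro _ ⟨v, φ, hv, hφ, h, rfl⟩ _ ⟨w, ψ, hw, hψ, h', rfl⟩
  exact conj_ex h3 hv hφ h hw hψ h'

theorem threeFour_Dset [Fintype F] (hF : Fintype.card F = 2) (h3 : 2 < Fintype.card ι) :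
    IsThreeFourPlusTranspositionSet (Dset : Set (SpecialLinearGroup ι F)) := by
  have h1 : ∀ x : F, x ≠ 0 → x = 1 := by
    intro x hx
    have := FiniteField.pow_card_sub_one_eq_one x hx
    rwa [hF, pow_one] at this
  refine ⟨rootInv_Dset h3, ?_⟩
  rintro _ ⟨v, φ, hv, hφ, h, rfl⟩ _ ⟨w, ψ, hw, hψ, h', rfl⟩ hodd
  by_cases hα : φ ⬝ᵥ w = 0
  · by_cases hβ : ψ ⬝ᵥ v = 0
    · left
      have hc := tv_commute h h' hβ hα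
      have h2 : (tv v φ * tv w ψ) ^ 2 = 1 := by
        rw [pow_two, mul_assoc, ← mul_assoc (tv w ψ), ← hc, mul_assoc, tv_sq h', mul_one, tv_sq h]
      rcases (Nat.dvd_prime Nat.prime_two).mp (orderOf_dvd_of_pow_eq_one h2) with h4 | h4
      · exact h4
      · rw [h4] at hodd
        exact absurd hodd (by decide)
    · rw [(four_case' hw hφ h h' hα hβ).1] at hodd
      exact absurd hodd (by decide)
  · by_cases hβ : ψ ⬝ᵥ v = 0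
    · rw [(four_case hv hψ h h' hα hβ).1] at hodd
      exact absurd hodd (by decide)
    · exact three_case h h' (h1 _ hα) (h1 _ hβ)

end Cfsg.Agent.Lib.Helper57.RootSL
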