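import Mathlib
import Cfsg.Agent.Lib.Helper57.RootSU

set_option autoImplicit false

/-! Rank one pairs of unitary transvection groups. -/

namespace Cfsg.Agent.Lib.Helper57.RootSU

open Matrix Cfsg
open Cfsg.Agent.Lib.Helper13
open Cfsg.Agent.Lib.Helper5
open Cfsg.Agent.Lib.Helper83 (mem_conjBy)

variable {F : Type*} [Field F] [Fintype F] {q n : ℕ}

local notation "H" => Cfsg.hermForm n F q
local notation "V" => (Fin n → F)
local notation "G" => Cfsg.SU n F q

variable (q) in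
/-- the covector `x ↦ h(x, p)`. -/
def cov (p : V) : V := fun j => (p j) ^ q

omit [Fintype F] in
lemma cov_dot (p x : V) : cov q p ⬝ᵥ x = H x p := by
  simp only [cov, dotProduct, Cfsg.hermForm]
  exact Finset.sum_congr rfl (fun i _ => mul_comm _ _)

omit [Fintype F] in
lemma skew_mul {ε s : F} (hε : ε + ε ^ q = 0) (hs : s ^ q = s) :
    ε * s + (ε * s) ^ q = 0 := by
  rw [mul_pow, hs]; linear_combination s * hε

lemma skew_div (hF : Fintype.card F = q ^ 2) {ε s : F} (p r : V) (hε0 : ε ≠ 0) (hε : ε + ε ^ q = 0)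
    (hs : s ^ q = s) :
    s * (ε * H r p * H p r)⁻¹ + (s * (ε * H r p * H p r)⁻¹) ^ q = 0 := by
  have h1 : ε ^ q = -ε := by linear_combination hε
  rw [mul_pow, inv_pow, mul_pow, mul_pow, hermForm_swap hF, hermForm_swap hF, hs, h1]
  by_cases h : H r p = 0
  · simp [h]
  · by_cases h' : H p r = 0
    · simp [h']
    · field_simp
      ring

section sl2

variable (hF : Fintype.card F = q ^ 2) {p r : Fin n → F} (hp : Cfsg.hermForm n F q p p = 0)
  (hr : Cfsg.hermForm n F q r r = 0) (hpr : Cfsg.hermForm n F q p r ≠ 0) {ε : F} (hε0 : ε ≠ 0)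
  (hε : ε + ε ^ q = 0)

include hF hpr in
lemma hrp : Cfsg.hermForm n F q r p ≠ 0 := fun h => hpr (hermForm_eq_zero_comm hF h)

omit [Fintype F] in
include hp in
lemma e1 : cov q p ⬝ᵥ ((ε * Cfsg.hermForm n F q r p) • p) = 0 := by
  rw [dotProduct_smul, cov_dot, hp, smul_zero]

omit [Fintype F] in
include hr in
lemma e2 : cov q r ⬝ᵥ r = 0 := by rw [cov_dot, hr]

include hF hpr in
lemma e3 : cov q p ⬝ᵥ r ≠ 0 := by rw [cov_dot]; exact hrp hF hpr

include hF hpr hε0 in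
lemma e4 : cov q r ⬝ᵥ ((ε * Cfsg.hermForm n F q r p) • p) ≠ 0 := by
  rw [dotProduct_smul, cov_dot, smul_eq_mul]
  exact mul_ne_zero (mul_ne_zero hε0 (hrp hF hpr)) hpr

/-- the copy of `SL₂(F)` in `SL_n(F)`. -/
noncomputable def rho0 : SpecialLinearGroup (Fin 2) F →* SpecialLinearGroup (Fin n) F :=
  RootSL.rho (e1 hp (ε := ε) (r := r)) (e2 hr) (e3 hF hpr) (e4 hF hpr hε0)

include hε in
lemma rho0_Up {s : F} (hs : s ^ q = s) :
    rho0 hF hp hr hpr hε0 (Cfsg.Agent.S5016.Up s) = (ut hF p (ε * s)).1 := by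
  apply Subtype.ext
  apply mat_ext_mulVec
  intro x
  have h3 := hrp hF hpr
  unfold rho0
  rw [RootSL.rho_Up, RootSL.tv_mulVec (RootSL.smul_dot (e1 hp) _), ut_mulVec hF hp (skew_mul hε hs),
    smul_dotProduct, cov_dot, cov_dot, smul_smul]
  congr 2
  simp only [smul_eq_mul]
  field_simp

include hε in
lemma rho0_Lo {s : F} (hs : s ^ q = s) :
    rho0 hF hp hr hpr hε0 (Cfsg.Agent.S5016.Lo s) =
      (ut hF r (s * (ε * Cfsg.hermForm n F q r p * Cfsg.hermForm n F q p r)⁻¹)).1 := by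
  apply Subtype.ext
  apply mat_ext_mulVec
  intro x
  unfold rho0
  rw [RootSL.rho_Lo, RootSL.tv_mulVec (RootSL.smul_dot (e2 hr) _),
    ut_mulVec hF hr (skew_div hF p r hε0 hε hs), smul_dotProduct, cov_dot, cov_dot,
    hermForm_smul_left]
  simp only [smul_eq_mul]

variable {L : Type*} [Field L] (ι : L →+* F) (hι : ∀ x : F, x ^ q = x ↔ ∃ t, ι t = x)

omit [Fintype F] in
lemma map_Up (t : L) : SpecialLinearGroup.map ι (Cfsg.Agent.S5016.Up t) = Cfsg.Agent.S5016.Up (ι t) := by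
  apply Cfsg.Agent.S5016.ext2 <;>
    simp only [SpecialLinearGroup.map_apply_coe, RingHom.mapMatrix_apply, Matrix.map_apply] <;>
    simp [Cfsg.Agent.S5016.Up]

omit [Fintype F] in
lemma map_Lo (t : L) : SpecialLinearGroup.map ι (Cfsg.Agent.S5016.Lo t) = Cfsg.Agent.S5016.Lo (ι t) := by
  apply Cfsg.Agent.S5016.ext2 <;>
    simp only [SpecialLinearGroup.map_apply_coe, RingHom.mapMatrix_apply, Matrix.map_apply] <;>
    simp [Cfsg.Agent.S5016.Lo]

omit [Fintype F] in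
lemma map_inj : Function.Injective (SpecialLinearGroup.map (n := Fin 2) ι) := by
  intro a b hab
  apply Matrix.SpecialLinearGroup.ext
  intro i j
  have := congrArg (fun m : SpecialLinearGroup (Fin 2) F => m i j) hab
  simp only [SpecialLinearGroup.map_apply_coe, RingHom.mapMatrix_apply, Matrix.map_apply] at this
  exact ι.injective this

include hε hι in
lemma mem_SU (m : SpecialLinearGroup (Fin 2) L) :
    (rho0 hF hp hr hpr hε0).comp (SpecialLinearGroup.map ι) m ∈ Cfsg.SU n F q := by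
  have : (Cfsg.SU n F q).comap ((rho0 hF hp hr hpr hε0).comp (SpecialLinearGroup.map ι)) = ⊤ := by
    rw [eq_top_iff, ← Cfsg.Agent.S5016.gen]
    apply sup_le
    · intro x hx
      rw [Cfsg.Agent.S5016.mem_lower' hx, Subgroup.mem_comap, MonoidHom.comp_apply, map_Lo,
        rho0_Lo hF hp hr hpr hε0 hε ((hι _).mpr ⟨_, rfl⟩)]
      exact (ut hF r _).2
    · intro x hx
      rw [Cfsg.Agent.S5016.mem_upper' hx, Subgroup.mem_comap, MonoidHom.comp_apply, map_Up,
        rho0_Up hF hp hr hpr hε0 hε ((hι _).mpr ⟨_, rfl⟩)]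
      exact (ut hF p _).2
  have h2 : m ∈ (Cfsg.SU n F q).comap ((rho0 hF hp hr hpr hε0).comp (SpecialLinearGroup.map ι)) := by
    rw [this]; trivial
  exact h2

/-- the copy of `SL₂(L)` in `SU_n(q)`. -/
noncomputable def rhoSU : SpecialLinearGroup (Fin 2) L →* Cfsg.SU n F q :=
  ((rho0 hF hp hr hpr hε0).comp (SpecialLinearGroup.map ι)).codRestrict (Cfsg.SU n F q)
    (mem_SU hF hp hr hpr hε0 hε ι hι)

lemma rhoSU_injective : Function.Injective (rhoSU hF hp hr hpr hε0 hε ι hι) := by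
  intro a b hab
  have h1 := congrArg Subtype.val hab
  exact map_inj ι (RootSL.rho_injective (e1 hp (ε := ε) (r := r)) (e2 hr) (e3 hF hpr)
    (e4 hF hpr hε0) h1)

lemma rhoSU_Up (t : L) :
    rhoSU hF hp hr hpr hε0 hε ι hι (Cfsg.Agent.S5016.Up t) = ut hF p (ε * ι t) := by
  apply Subtype.ext
  change (rho0 hF hp hr hpr hε0) (SpecialLinearGroup.map ι (Cfsg.Agent.S5016.Up t)) = _
  rw [map_Up, rho0_Up hF hp hr hpr hε0 hε ((hι _).mpr ⟨_, rfl⟩)]

lemma rhoSU_Lo (t : L) :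
    rhoSU hF hp hr hpr hε0 hε ι hι (Cfsg.Agent.S5016.Lo t) =
      ut hF r (ι t * (ε * Cfsg.hermForm n F q r p * Cfsg.hermForm n F q p r)⁻¹) := by
  apply Subtype.ext
  change (rho0 hF hp hr hpr hε0) (SpecialLinearGroup.map ι (Cfsg.Agent.S5016.Lo t)) = _
  rw [map_Lo, rho0_Lo hF hp hr hpr hε0 hε ((hι _).mpr ⟨_, rfl⟩)]

include hF hp hr hpr hι in
theorem opp_pair (hp0 : p ≠ 0) (hr0 : r ≠ 0) :
    IsPSL2PairOver L (TU q p) (TU q r) ∧ IsRankOnePair (TU q p) (TU q r) := by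
  obtain ⟨ε, hε0, hε⟩ := exists_skew_q hF
  have hεq : ε ^ q = -ε := by linear_combination hε
  have h3 := hrp hF hpr
  apply RootSL.pair_of_hom (rhoSU hF hp hr hpr hε0 hε ι hι) (rhoSU_injective hF hp hr hpr hε0 hε ι hι)
  · ext x
    rw [Subgroup.mem_map, mem_TU hF hp0 hp]
    constructor
    · rintro ⟨y, hy, rfl⟩
      rw [Cfsg.Agent.S5016.mem_upper' hy, rhoSU_Up]
      exact ⟨_, skew_mul hε ((hι _).mpr ⟨_, rfl⟩), rfl⟩
    · rintro ⟨c, hc, rfl⟩
      have hcq : c ^ q = -c := by linear_combination hc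
      obtain ⟨t, ht⟩ := (hι (c / ε)).mp (by rw [div_pow, hcq, hεq, neg_div_neg_eq])
      refine ⟨Cfsg.Agent.S5016.Up t, Cfsg.Agent.S5016.Up_mem _, ?_⟩
      rw [rhoSU_Up, ht, mul_div_cancel₀ _ hε0]
  · ext x
    rw [Subgroup.mem_map, mem_TU hF hr0 hr]
    constructor
    · rintro ⟨y, hy, rfl⟩
      rw [Cfsg.Agent.S5016.mem_lower' hy, rhoSU_Lo]
      exact ⟨_, skew_div hF p r hε0 hε ((hι _).mpr ⟨_, rfl⟩), rfl⟩
    · rintro ⟨c, hc, rfl⟩
      have hcq : c ^ q = -c := by linear_combination hc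
      obtain ⟨t, ht⟩ := (hι (c * (ε * Cfsg.hermForm n F q r p * Cfsg.hermForm n F q p r))).mp (by
        rw [mul_pow, mul_pow, mul_pow, hcq, hεq, hermForm_swap hF, hermForm_swap hF]; ring)
      refine ⟨Cfsg.Agent.S5016.Lo t, Cfsg.Agent.S5016.Lo_mem _, ?_⟩
      rw [rhoSU_Lo, ht, mul_assoc, mul_inv_cancel₀ (mul_ne_zero (mul_ne_zero hε0 h3) hpr), mul_one]

end sl2

end Cfsg.Agent.Lib.Helper57.RootSU
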