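import Mathlib
import Cfsg.Agent.Lib.Helper57.RootSUb

set_option autoImplicit false

/-! Connectivity, the field with `q` elements and the final statement for unitary transvection groups. -/

namespace Cfsg.Agent.Lib.Helper57.RootSU

open Matrix Cfsg
open Cfsg.Agent.Lib.Helper13
open Cfsg.Agent.Lib.Helper5

variable {F : Type*} [Field F] [Fintype F] {q n : ℕ}

local notation "H" => Cfsg.hermForm n F q
local notation "V" => (Fin n → F)
local notation "G" => Cfsg.SU n F q

lemma exists_iso (hF : Fintype.card F = q ^ 2) (k : ℕ) :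
    ∃ p : Fin (k + 2) → F, p ≠ 0 ∧ Cfsg.hermForm (k + 2) F q p p = 0 := by
  obtain ⟨b, -, hb⟩ := exists_norm_eq hF (-1) (neg_ne_zero.mpr one_ne_zero)
    (by rw [neg_pow_q hF, one_pow])
  have h01 : (0 : Fin (k + 2)) ≠ 1 := by
    intro h
    have := congrArg Fin.val h
    simp at this
  refine ⟨Pi.single 0 1 + b • Pi.single 1 1, ?_, ?_⟩
  · intro h
    have := congrFun h 0
    simp [h01] at this
  · rw [hermForm_add_left, hermForm_smul_left, hermForm_single_left, hermForm_single_left]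
    simp only [Pi.add_apply, Pi.smul_apply, Pi.single_eq_same, smul_eq_mul, mul_one]
    rw [Pi.single_eq_of_ne h01, Pi.single_eq_of_ne h01.symm, mul_zero, add_zero, zero_add, one_pow,
      ← pow_succ', hb]
    ring

lemma exists_common_opp (hF : Fintype.card F = q ^ 2) {p r : V} (hp0 : p ≠ 0) (hp : H p p = 0)
    (hr0 : r ≠ 0) (h : H p r = 0) : ∃ z : V, z ≠ 0 ∧ H z z = 0 ∧ H p z ≠ 0 ∧ H z r ≠ 0 := by
  obtain ⟨x, hx⟩ := exists_hermForm_ne_zero hF hp0
  obtain ⟨y, hy⟩ := exists_hermForm_ne_zero hF hr0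
  obtain ⟨u, -, hu1, hu2⟩ := RootSL.exists_both_ne (fun z => H z p) (fun z => H z r)
    (fun a b => hermForm_add_left _ _ _) (fun a b => hermForm_add_left _ _ _) (fun _ => True)
    (fun _ _ _ _ => trivial) (x := x) (y := y) trivial trivial hx hy
  have hu1' : H u p ≠ 0 := hu1
  have hu2' : H u r ≠ 0 := hu2
  have hpu : H p u ≠ 0 := fun h0 => hu1' (hermForm_eq_zero_comm hF h0)
  obtain ⟨b, hb⟩ := exists_tr hF (-H u u) (by rw [neg_pow_q hF, hermForm_self_pow hF])
  have hzp : H (u + (b / H p u) • p) p = H u p := by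
    rw [hermForm_add_left, hermForm_smul_left, hp, mul_zero, add_zero]
  refine ⟨u + (b / H p u) • p, ?_, ?_, ?_, ?_⟩
  · rintro h0
    rw [h0, hermForm_zero_left] at hzp
    exact hu1' hzp.symm
  · rw [hermForm_add_right hF, hermForm_smul_right, hzp, hermForm_add_left, hermForm_smul_left,
      div_pow, hermForm_swap hF]
    field_simp
    linear_combination hb
  · intro h0
    exact hu1' (by rw [← hzp]; exact hermForm_eq_zero_comm hF h0)
  · rw [hermForm_add_left, hermForm_smul_left, h, mul_zero, add_zero]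
    exact hu2'

variable (q n F) in
/-- the set of all unitary transvection subgroups. -/
def Sig : Set (Subgroup G) := {A | ∃ p : V, p ≠ 0 ∧ H p p = 0 ∧ A = TU q p}

section main

variable (hF : Fintype.card F = q ^ 2) {L : Type*} [Field L] (ι : L →+* F)
  (hι : ∀ x : F, x ^ q = x ↔ ∃ t, ι t = x)

include hF in
lemma hcomm : ∀ A ∈ Sig F q n, IsMulCommutative A := by
  rintro _ ⟨p, hp0, hp, rfl⟩
  exact TU_comm hF hp0 hp

include hF in
lemma hbot : ∀ A ∈ Sig F q n, A ≠ ⊥ := by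
  rintro _ ⟨p, hp0, hp, rfl⟩
  exact TU_ne_bot hF hp0 hp

include hF in
lemma hconj : ∀ A ∈ Sig F q n, ∀ g : G, conjBy A g ∈ Sig F q n := by
  rintro _ ⟨p, hp0, hp, rfl⟩ g
  exact ⟨g.1.1 *ᵥ p, su_mulVec_ne_zero g hp0, by rw [SU_preserves, hp], conjBy_TU hF g hp0 hp⟩

include hF hι in
lemma hpair : ∀ A ∈ Sig F q n, ∀ B ∈ Sig F q n, (∀ a ∈ A, ∀ b ∈ B, a * b = b * a) ∨
    (IsPSL2PairOver L A B ∧ IsRankOnePair A B) := by
  rintro _ ⟨p, hp0, hp, rfl⟩ _ ⟨r, hr0, hr, rfl⟩
  by_cases h : H p r = 0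
  · exact Or.inl (comm_pair hF hp0 hp hr0 hr h)
  · exact Or.inr (opp_pair hF hp hr h ι hι hp0 hr0)

include hF hι in
lemma hconn : IsConnectedFamily (FAdj (Sig F q n)) (Sig F q n) := by
  rintro _ ⟨p, hp0, hp, rfl⟩ _ ⟨r, hr0, hr, rfl⟩
  by_cases h : H p r = 0
  · obtain ⟨z, hz0, hz, h1, h2⟩ := exists_common_opp hF hp0 hp hr0 h
    exact Relation.ReflTransGen.head
      ⟨⟨p, hp0, hp, rfl⟩, ⟨z, hz0, hz, rfl⟩, (opp_pair hF hp hz h1 ι hι hp0 hz0).2⟩
      (Relation.ReflTransGen.single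
        ⟨⟨z, hz0, hz, rfl⟩, ⟨r, hr0, hr, rfl⟩, (opp_pair hF hz hr h2 ι hι hz0 hr0).2⟩)
  · exact Relation.ReflTransGen.single
      ⟨⟨p, hp0, hp, rfl⟩, ⟨r, hr0, hr, rfl⟩, (opp_pair hF hp hr h ι hι hp0 hr0).2⟩

end main

/-- a field of type `Type` with `q` elements embedded as the fixed field of `x ↦ x ^ q`. -/
theorem exists_field (hF : Fintype.card F = q ^ 2) :
    ∃ (L : Type) (_ : Field L) (_ : Fintype L) (ι : L →+* F), Fintype.card L = q ∧
      ∀ x : F, x ^ q = x ↔ ∃ t, ι t = x := by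
  classical
  let F₀ : Subfield F := (frobQ hF).eqLocusField (RingHom.id F)
  have hmem : ∀ x : F, x ∈ F₀ ↔ x ^ q = x := fun x => Iff.rfl
  have hq := two_le_of_card_sq hF
  have hcard : Nat.card F₀ = q := by
    have h1 := card_fixed_ne_zero hF
    have h2 : Nat.card F₀ = (Finset.univ.filter (fun c : F => c ^ q = c)).card := by
      rw [Nat.card_eq_fintype_card]
      exact Fintype.card_of_subtype _ (fun x => by simp [hmem])
    have h3 : (Finset.univ.erase (0 : F)).filter (fun c => c ^ q = c) =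
        (Finset.univ.filter (fun c : F => c ^ q = c)).erase 0 := by
      ext x
      simp only [Finset.mem_filter, Finset.mem_erase, Finset.mem_univ, true_and, and_true]
    have h4 : (0 : F) ∈ Finset.univ.filter (fun c : F => c ^ q = c) := by
      simp only [Finset.mem_filter, Finset.mem_univ, true_and]
      exact zero_pow (by omega)
    rw [h3, Finset.card_erase_of_mem h4] at h1
    have h5 : 0 < (Finset.univ.filter (fun c : F => c ^ q = c)).card := Finset.card_pos.mpr ⟨0, h4⟩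
    omega
  let e : Shrink.{0} F₀ ≃+* F₀ := Shrink.ringEquiv.{0} F₀
  refine ⟨Shrink.{0} F₀, inferInstance, Fintype.ofEquiv F₀ (equivShrink.{0} F₀),
    F₀.subtype.comp e.toRingHom, ?_, ?_⟩
  · rw [← Nat.card_eq_fintype_card, ← hcard]
    exact Nat.card_congr (equivShrink.{0} F₀).symm
  · intro x
    constructor
    · intro hx
      exact ⟨e.symm ⟨x, (hmem x).mpr hx⟩, by simp⟩
    · rintro ⟨t, rfl⟩
      exact (hmem _).mp (e t).2

theorem final (hF : Fintype.card F = q ^ 2) (k : ℕ) :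
    IsRootSubgroupClass (RootSL.inGen (Sig F q (k + 2))) ∧
    IsDegenerateRootSet (RootSL.inGen (Sig F q (k + 2))) ∧
    (∃ (L : Type) (_ : Field L) (_ : Fintype L), Fintype.card L = q ∧
      IsKRootSubgroupSet L (RootSL.inGen (Sig F q (k + 2)))) ∧
    IsConnectedFamily (FAdj (RootSL.inGen (Sig F q (k + 2)))) (RootSL.inGen (Sig F q (k + 2))) := by
  obtain ⟨L, iF, iT, ι, hL, hι⟩ := exists_field hF
  obtain ⟨p, hp0, hp⟩ := exists_iso hF k
  have hne : (Sig F q (k + 2)).Nonempty := ⟨_, p, hp0, hp, rfl⟩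
  exact ⟨⟨RootSL.isRootSubgroupSet_inGen (hcomm hF) (hbot hF) (hconj hF) (hpair hF ι hι),
    RootSL.isConjClass_inGen hne (hconn hF ι hι)⟩,
    RootSL.degenerate_inGen (hcomm hF) (hbot hF) (hconj hF) (hpair hF ι hι),
    ⟨L, iF, iT, hL, RootSL.isKRoot_inGen (hcomm hF) (hbot hF) (hconj hF) (hpair hF ι hι)⟩,
    RootSL.connected_inGen (hconn hF ι hι)⟩

end Cfsg.Agent.Lib.Helper57.RootSU
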