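import Mathlib
import Cfsg.Agent.Lib.Helper57.RootSLd
import Cfsg.Agent.Lib.Helper5.SpPerfect

set_option autoImplicit false

/-! The symplectic transvection subgroups form a degenerate class of abstract root subgroups. -/

namespace Cfsg.Agent.Lib.Helper57.RootSp

open Matrix Cfsg
open Cfsg.Agent.Lib.Helper13
open Cfsg.Agent.Lib.Helper5 (sp_ext sp_mul_mulVec tv_inv tv_mul_tv tv_conj tv_zero_left)
open Cfsg.Agent.Lib.Helper83 (mem_conjBy)

variable {F : Type*} [Field F] {m : ℕ}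

local notation "V" => (Fin m ⊕ Fin m → F)
local notation "Sp" => Matrix.symplecticGroup (Fin m) F
local notation "MM" => Matrix (Fin m ⊕ Fin m) (Fin m ⊕ Fin m) F

/-- the group of symplectic transvections with centre `p`. -/
def TS (p : V) : Subgroup Sp :=
  Subgroup.closure {g : Sp | ∃ c : F, ∀ v : V,
    (g : Matrix (Fin m ⊕ Fin m) (Fin m ⊕ Fin m) F) *ᵥ v =
      v + (c * (v ⬝ᵥ (Matrix.J (Fin m) F *ᵥ p))) • p}

lemma tv_zero_right (p : V) : tv p (0 : F) = 1 := by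
  apply sp_ext
  intro x
  rw [tv_mulVec]
  change _ = (1 : MM) *ᵥ x
  simp

lemma mem_TS {p : V} {g : Sp} : g ∈ TS p ↔ ∃ c : F, g = tv p c := by
  constructor
  · intro hg
    induction hg using Subgroup.closure_induction with
    | mem x hx =>
      obtain ⟨c, hc⟩ := hx
      exact ⟨c, sp_ext (fun v => by rw [tv_mulVec]; exact hc v)⟩
    | one => exact ⟨0, (tv_zero_right p).symm⟩
    | mul x y _ _ hx hy =>
      obtain ⟨c, rfl⟩ := hx
      obtain ⟨d, rfl⟩ := hy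
      exact ⟨c + d, tv_mul_tv p c d⟩
    | inv x _ hx =>
      obtain ⟨c, rfl⟩ := hx
      exact ⟨-c, tv_inv p c⟩
  · rintro ⟨c, rfl⟩
    exact Subgroup.subset_closure ⟨c, fun v => tv_mulVec p c v⟩

lemma tv_mem_TS (p : V) (c : F) : tv p c ∈ TS p := mem_TS.mpr ⟨c, rfl⟩

lemma exists_form_ne {p : V} (hp : p ≠ 0) : ∃ x : V, Cfsg.sympForm m F p x ≠ 0 := by
  by_contra hcon
  push Not at hcon
  exact hp (sympForm_nondeg p hcon)

lemma tv_ne_one {p : V} (hp : p ≠ 0) {c : F} (hc : c ≠ 0) : tv p c ≠ 1 := by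
  intro h
  obtain ⟨x, hx⟩ := exists_form_ne hp
  have h1 := tv_mulVec p c x
  rw [h] at h1
  change (1 : MM) *ᵥ x = _ at h1
  rw [Matrix.one_mulVec, left_eq_add, smul_eq_zero] at h1
  rcases h1 with h1 | h1
  · rcases mul_eq_zero.mp h1 with h2 | h2
    · exact hc h2
    · rw [sympForm_swap, neg_eq_zero] at h2
      exact hx h2
  · exact hp h1

lemma tv_commute {p r : V} (h : Cfsg.sympForm m F p r = 0) (c d : F) :
    tv p c * tv r d = tv r d * tv p c := by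
  have h' : Cfsg.sympForm m F r p = 0 := by rw [sympForm_swap, h, neg_zero]
  apply sp_ext
  intro x
  rw [sp_mul_mulVec, sp_mul_mulVec, tv_mulVec, tv_mulVec, tv_mulVec, tv_mulVec]
  simp only [sympForm_add_left, sympForm_smul_left, h, h']
  module

lemma comm_pair {p r : V} (h : Cfsg.sympForm m F p r = 0) :
    ∀ a ∈ TS p, ∀ b ∈ TS r, a * b = b * a := by
  intro a ha b hb
  obtain ⟨c, rfl⟩ := mem_TS.mp ha
  obtain ⟨d, rfl⟩ := mem_TS.mp hb
  exact tv_commute h c d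

lemma TS_comm (p : V) : IsMulCommutative (TS p) := by
  refine ⟨⟨?_⟩⟩
  rintro ⟨a, ha⟩ ⟨b, hb⟩
  exact Subtype.ext (comm_pair (sympForm_self p) a ha b hb)

lemma TS_ne_bot {p : V} (hp : p ≠ 0) : TS p ≠ ⊥ := by
  intro hb
  have h1 := tv_mem_TS p (1 : F)
  rw [hb, Subgroup.mem_bot] at h1
  exact tv_ne_one hp one_ne_zero h1

lemma conjBy_TS (g : Sp) (p : V) : conjBy (TS p) g = TS (g.1 *ᵥ p) := by
  ext x
  rw [mem_conjBy, mem_TS, mem_TS]
  constructor
  · rintro ⟨c, hc⟩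
    refine ⟨c, ?_⟩
    rw [← tv_conj, ← hc]; group
  · rintro ⟨c, hc⟩
    refine ⟨c, ?_⟩
    rw [hc, ← tv_conj]; group

lemma sp_mulVec_ne_zero (g : Sp) {p : V} (hp : p ≠ 0) : g.1 *ᵥ p ≠ 0 := by
  intro h0
  apply hp
  have := sp_inv_mulVec_mulVec g p
  rw [← this]
  change _ *ᵥ (g.1 *ᵥ p) = 0
  rw [h0, Matrix.mulVec_zero]

section sl2

/-- the covector `x ↦ f(x, p)`. -/
def cov (p : V) : V := Matrix.J (Fin m) F *ᵥ p

lemma cov_dot (p x : V) : cov p ⬝ᵥ x = Cfsg.sympForm m F x p := by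
  rw [dotProduct_comm]; rfl

lemma cov_self (p : V) : cov p ⬝ᵥ p = 0 := by rw [cov_dot, sympForm_self]

lemma sl_tv_val (p : V) (c : F) :
    ((RootSL.tv p (c • cov p) : SpecialLinearGroup (Fin m ⊕ Fin m) F) :
      Matrix (Fin m ⊕ Fin m) (Fin m ⊕ Fin m) F) = ((tv p c : Sp) : MM) := by
  rw [RootSL.tv_val (RootSL.smul_dot (cov_self p) c), vecMulVec_smul]
  rfl


lemma hα {p r : V} (h : Cfsg.sympForm m F p r ≠ 0) : cov p ⬝ᵥ r ≠ 0 := by
  rw [cov_dot, sympForm_swap, neg_ne_zero]; exact h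

lemma hβ {p r : V} (h : Cfsg.sympForm m F p r ≠ 0) : cov r ⬝ᵥ p ≠ 0 := by
  rw [cov_dot]; exact h

/-- the copy of `SL₂` inside `SL`. -/
noncomputable def rho0 {p r : V} (h : Cfsg.sympForm m F p r ≠ 0) :
    SpecialLinearGroup (Fin 2) F →* SpecialLinearGroup (Fin m ⊕ Fin m) F :=
  RootSL.rho (cov_self p) (cov_self r) (hα h) (hβ h)

/-- the elements of `SL₂` mapped to symplectic matrices. -/
noncomputable def good {p r : V} (h : Cfsg.sympForm m F p r ≠ 0) : Subgroup (SpecialLinearGroup (Fin 2) F) where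
  carrier := {x | ((rho0 h x : SpecialLinearGroup (Fin m ⊕ Fin m) F) : MM) ∈
    Matrix.symplecticGroup (Fin m) F}
  mul_mem' := by
    intro a b ha hb
    simp only [Set.mem_ofPred_eq, map_mul, Matrix.SpecialLinearGroup.coe_mul] at *
    exact mul_mem ha hb
  one_mem' := by
    simp only [Set.mem_ofPred_eq, map_one, Matrix.SpecialLinearGroup.coe_one]
    exact one_mem _
  inv_mem' := by
    intro x hx
    simp only [Set.mem_ofPred_eq] at *
    let A : Sp := ⟨_, hx⟩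
    have h1 : ((A⁻¹ : Sp) : MM) * (A : MM) = 1 := by
      have : ((A⁻¹ * A : Sp) : MM) = 1 := by rw [inv_mul_cancel]; rfl
      exact this
    have h2 : (A : MM) *
        ((rho0 h x⁻¹ : SpecialLinearGroup (Fin m ⊕ Fin m) F) : MM) = 1 := by
      change ((rho0 h x : SpecialLinearGroup (Fin m ⊕ Fin m) F) : MM) * _ = 1
      rw [← Matrix.SpecialLinearGroup.coe_mul, ← map_mul, mul_inv_cancel, map_one,
        Matrix.SpecialLinearGroup.coe_one]
    have h3 : ((rho0 h x⁻¹ : SpecialLinearGroup (Fin m ⊕ Fin m) F) : MM) =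
        ((A⁻¹ : Sp) : MM) := by
      calc ((rho0 h x⁻¹ : SpecialLinearGroup (Fin m ⊕ Fin m) F) : MM)
          = (((A⁻¹ : Sp) : MM) * (A : MM)) * _ := by rw [h1, Matrix.one_mul]
        _ = _ := by rw [Matrix.mul_assoc, h2, Matrix.mul_one]
    rw [h3]
    exact (A⁻¹).2

lemma good_eq_top {p r : V} (h : Cfsg.sympForm m F p r ≠ 0) : good h = ⊤ := by
  rw [eq_top_iff, ← Cfsg.Agent.S5016.gen]
  apply sup_le
  · intro x hx
    rw [Cfsg.Agent.S5016.mem_lower' hx]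
    change ((rho0 h _ : SpecialLinearGroup (Fin m ⊕ Fin m) F) : MM) ∈ Matrix.symplecticGroup (Fin m) F
    unfold rho0
    rw [RootSL.rho_Lo, sl_tv_val]
    exact (tv r _).2
  · intro x hx
    rw [Cfsg.Agent.S5016.mem_upper' hx]
    change ((rho0 h _ : SpecialLinearGroup (Fin m ⊕ Fin m) F) : MM) ∈ Matrix.symplecticGroup (Fin m) F
    unfold rho0
    rw [RootSL.rho_Up, sl_tv_val]
    exact (tv p _).2

/-- the copy of `SL₂` inside `Sp`. -/
noncomputable def rhoSp {p r : V} (h : Cfsg.sympForm m F p r ≠ 0) : SpecialLinearGroup (Fin 2) F →* Sp where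
  toFun x := ⟨((rho0 h x : SpecialLinearGroup (Fin m ⊕ Fin m) F) : MM), by
    have : x ∈ good h := by rw [good_eq_top]; trivial
    exact this⟩
  map_one' := by
    apply Subtype.ext
    simp only [map_one, Matrix.SpecialLinearGroup.coe_one]
    rfl
  map_mul' a b := by
    apply Subtype.ext
    simp only [map_mul, Matrix.SpecialLinearGroup.coe_mul]
    rfl

lemma rhoSp_injective {p r : V} (h : Cfsg.sympForm m F p r ≠ 0) : Function.Injective (rhoSp h) := by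
  intro a b hab
  have h1 := congrArg (fun x : Sp => (x : MM)) hab
  exact RootSL.rho_injective (cov_self p) (cov_self r) (hα h) (hβ h) (Subtype.ext h1)

lemma rhoSp_Up {p r : V} (h : Cfsg.sympForm m F p r ≠ 0) (t : F) :
    rhoSp h (Cfsg.Agent.S5016.Up t) = tv p (t * (cov p ⬝ᵥ r)⁻¹) := by
  apply Subtype.ext
  change ((rho0 h _ : SpecialLinearGroup (Fin m ⊕ Fin m) F) : MM) = _
  unfold rho0
  rw [RootSL.rho_Up, sl_tv_val]

lemma rhoSp_Lo {p r : V} (h : Cfsg.sympForm m F p r ≠ 0) (t : F) :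
    rhoSp h (Cfsg.Agent.S5016.Lo t) = tv r (t * (cov r ⬝ᵥ p)⁻¹) := by
  apply Subtype.ext
  change ((rho0 h _ : SpecialLinearGroup (Fin m ⊕ Fin m) F) : MM) = _
  unfold rho0
  rw [RootSL.rho_Lo, sl_tv_val]

theorem opp_pair {p r : V} (h : Cfsg.sympForm m F p r ≠ 0) :
    IsPSL2PairOver F (TS p) (TS r) ∧ IsRankOnePair (TS p) (TS r) := by
  apply RootSL.pair_of_hom (rhoSp h) (rhoSp_injective h)
  · ext x
    rw [Subgroup.mem_map, mem_TS]
    constructor
    · rintro ⟨y, hy, rfl⟩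
      rw [Cfsg.Agent.S5016.mem_upper' hy, rhoSp_Up]
      exact ⟨_, rfl⟩
    · rintro ⟨c, rfl⟩
      refine ⟨Cfsg.Agent.S5016.Up (c * (cov p ⬝ᵥ r)), Cfsg.Agent.S5016.Up_mem _, ?_⟩
      rw [rhoSp_Up, mul_assoc, mul_inv_cancel₀ (hα h), mul_one]
  · ext x
    rw [Subgroup.mem_map, mem_TS]
    constructor
    · rintro ⟨y, hy, rfl⟩
      rw [Cfsg.Agent.S5016.mem_lower' hy, rhoSp_Lo]
      exact ⟨_, rfl⟩
    · rintro ⟨c, rfl⟩
      refine ⟨Cfsg.Agent.S5016.Lo (c * (cov r ⬝ᵥ p)), Cfsg.Agent.S5016.Lo_mem _, ?_⟩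
      rw [rhoSp_Lo, mul_assoc, mul_inv_cancel₀ (hβ h), mul_one]

end sl2

/-- the set of all symplectic transvection subgroups. -/
def Sig : Set (Subgroup Sp) := {A | ∃ p : V, p ≠ 0 ∧ A = TS p}

lemma TS_mem_Sig {p : V} (hp : p ≠ 0) : TS p ∈ (Sig : Set (Subgroup Sp)) := ⟨p, hp, rfl⟩

theorem generates_Sig : (⨆ A ∈ (Sig : Set (Subgroup Sp)), A) = ⊤ := by
  rw [eq_top_iff, ← Cfsg.Agent.S0765.result m, Subgroup.closure_le]
  rintro A ⟨w, c, hA⟩
  have hA' : A = tv w c := Subtype.ext hA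
  rw [hA']
  by_cases hw : w = 0
  · rw [hw, tv_zero_left]
    exact Subgroup.one_mem _
  · have h2 : TS w ≤ ⨆ A ∈ (Sig : Set (Subgroup Sp)), A :=
      le_iSup₂_of_le (TS w) (TS_mem_Sig hw) le_rfl
    exact h2 (tv_mem_TS w c)

theorem isRootSubgroupSet_Sig : IsRootSubgroupSet (Sig : Set (Subgroup Sp)) where
  commutative := by
    rintro _ ⟨p, hp, rfl⟩
    exact TS_comm p
  ne_bot := by
    rintro _ ⟨p, hp, rfl⟩
    exact TS_ne_bot hp
  generates := generates_Sig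
  conj_mem := by
    rintro _ ⟨p, hp, rfl⟩ g
    rw [conjBy_TS]
    exact TS_mem_Sig (sp_mulVec_ne_zero g hp)
  pair := by
    rintro _ ⟨p, hp, rfl⟩ _ ⟨r, hr, rfl⟩
    by_cases h : Cfsg.sympForm m F p r = 0
    · exact Or.inl (Cfsg.Agent.Lib.Helper83.commutator_eq_bot_of_commute (comm_pair h))
    · exact Or.inr (Or.inl (opp_pair h).2)

theorem isConjClass_Sig (hm : 0 < m) : IsConjClassOfSubgroups (Sig : Set (Subgroup Sp)) := by
  refine ⟨⟨TS (Pi.single (Sum.inl ⟨0, hm⟩) 1), TS_mem_Sig ?_⟩, ?_⟩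
  · intro h
    have := congrFun h (Sum.inl ⟨0, hm⟩)
    simp at this
  · rintro _ ⟨p, hp, rfl⟩ _ ⟨r, hr, rfl⟩
    obtain ⟨A, -, hA⟩ := exists_tv_vec (⊤ : Submodule F V)
      (fun u _ hu => by
        obtain ⟨x, hx⟩ := exists_form_ne hu
        exact ⟨x, trivial, hx⟩) (u := p) (u' := r) trivial trivial hp hr
    exact ⟨A, by rw [conjBy_TS]; exact congrArg TS hA.symm⟩

theorem degenerate_Sig : IsDegenerateRootSet (Sig : Set (Subgroup Sp)) := by
  rintro _ ⟨p, hp, rfl⟩ _ ⟨r, hr, rfl⟩ hcc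
  by_cases h : Cfsg.sympForm m F p r = 0
  · have h1 := hcc.1
    rw [Cfsg.Agent.Lib.Helper83.commutator_eq_bot_of_commute (comm_pair h)] at h1
    exact isRootSubgroupSet_Sig.ne_bot _ h1 rfl
  · exact tv_ne_one hp one_ne_zero
      (Cfsg.Agent.Lib.Helper83.R1.eq_one_of_commutatorCase (opp_pair h).2 (TS_comm r) hcc
        (x := tv p 1) (z := 1) (tv_mem_TS p 1) (by simp) (by simpa using tv_mem_TS p 1))

theorem isKRoot_Sig : IsKRootSubgroupSet F (Sig : Set (Subgroup Sp)) := by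
  refine ⟨isRootSubgroupSet_Sig, ?_⟩
  rintro _ ⟨p, hp, rfl⟩ _ ⟨r, hr, rfl⟩ hro
  by_cases h : Cfsg.sympForm m F p r = 0
  · exact absurd (Cfsg.Agent.Lib.Helper83.R1.eq_one_of_commute hro (tv_mem_TS p 1)
      (comm_pair h _ (tv_mem_TS p 1))) (tv_ne_one hp one_ne_zero)
  · exact (opp_pair h).1

theorem connected_Sig : IsConnectedFamily (FAdj (Sig : Set (Subgroup Sp))) Sig := by
  rintro _ ⟨p, hp, rfl⟩ _ ⟨r, hr, rfl⟩
  obtain ⟨x, hx⟩ := exists_form_ne hp
  obtain ⟨y, hy⟩ := exists_form_ne hr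
  obtain ⟨z, -, h1, h2⟩ := RootSL.exists_both_ne (fun z => Cfsg.sympForm m F p z)
    (fun z => Cfsg.sympForm m F z r) (fun a b => sympForm_add_right _ _ _)
    (fun a b => sympForm_add_left _ _ _) (fun _ => True) (fun _ _ _ _ => trivial)
    (x := x) (y := y) trivial trivial hx (by
      change Cfsg.sympForm m F y r ≠ 0
      rw [sympForm_swap, neg_ne_zero]; exact hy)
  have hz : z ≠ 0 := by
    rintro rfl
    exact h1 (sympForm_zero_right p)
  exact Relation.ReflTransGen.head ⟨TS_mem_Sig hp, TS_mem_Sig hz, (opp_pair h1).2⟩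
    (Relation.ReflTransGen.single ⟨TS_mem_Sig hz, TS_mem_Sig hr, (opp_pair h2).2⟩)

end Cfsg.Agent.Lib.Helper57.RootSp
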