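import Mathlib

set_option autoImplicit false

/-! An abstract counting lemma (a TI-type subgroup with a class function separating cosets). -/

namespace Cfsg.Agent.Lib.Helper57.SUSub

open Finset

theorem count_lemma {𝔾 : Type*} [Group 𝔾] [Finite 𝔾] (D X A K₀ : Subgroup 𝔾) (U : Set 𝔾)
    (hXD : X ≤ D) (hAX : A ≤ X) (hKX : K₀ ≤ X) (hAK : ∀ a ∈ A, a ∈ K₀ → a = 1)
    (hconj : ∀ d ∈ D, ∀ x ∈ X, d * x * d⁻¹ ∈ U)
    (h1 : ∀ s ∈ D, s ∉ X → s ∈ U → ∀ a ∈ A, a * s ∈ U → a = 1)
    (h2 : ∀ e ∈ D, e ∉ X → ∀ x ∈ X, e * x * e⁻¹ ∈ X → x ∈ K₀)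
    (hA : 3 ≤ Nat.card A) : D ≤ X := by
  classical
  have := Fintype.ofFinite 𝔾
  by_contra hcon
  obtain ⟨d₁, hd₁D, hd₁X⟩ := SetLike.not_le_iff_exists.1 hcon
  set Xf : Finset 𝔾 := univ.filter (· ∈ X) with hXf
  set Af : Finset 𝔾 := univ.filter (· ∈ A) with hAf
  set Kf : Finset 𝔾 := univ.filter (· ∈ K₀) with hKf
  set Sf : Finset 𝔾 := univ.filter (fun s => s ∈ D ∧ s ∉ X ∧ s ∈ U) with hSf
  set DX : Finset 𝔾 := univ.filter (fun s => s ∈ D ∧ s ∉ X) with hDX
  set XK : Finset 𝔾 := univ.filter (fun s => s ∈ X ∧ s ∉ K₀) with hXK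
  have cA : Nat.card A = Af.card := by
    rw [Nat.card_eq_fintype_card, Fintype.card_subtype]
  have c1 : Af.card * Sf.card ≤ DX.card := by
    rw [← card_product]
    refine card_le_card_of_injOn (fun p => p.1 * p.2) ?_ ?_
    · rintro ⟨a, s⟩ hp
      simp only [coe_product, Set.mem_prod, hAf, hSf, coe_filter, mem_univ, true_and,
        Set.mem_setOf_eq] at hp
      simp only [hDX, coe_filter, mem_univ, true_and, Set.mem_setOf_eq]
      refine ⟨D.mul_mem (hXD (hAX hp.1)) hp.2.1, fun h => hp.2.2.1 ?_⟩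
      have : s = a⁻¹ * (a * s) := by group
      rw [this]
      exact X.mul_mem (X.inv_mem (hAX hp.1)) h
    · rintro ⟨a, s⟩ hp ⟨a', s'⟩ hp' heq
      simp only [coe_product, Set.mem_prod, hAf, hSf, coe_filter, mem_univ, true_and,
        Set.mem_setOf_eq] at hp hp'
      simp only at heq
      have e : (a'⁻¹ * a) * s = s' := by rw [mul_assoc, heq]; group
      have := h1 s hp.2.1 hp.2.2.1 hp.2.2.2 (a'⁻¹ * a) (A.mul_mem (A.inv_mem hp'.1) hp.1)
        (by rw [e]; exact hp'.2.2.2)
      have haa : a = a' := by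
        have h3 : a' * (a'⁻¹ * a) = a' * 1 := by rw [this]
        simpa using h3
      subst haa
      simp only [Prod.mk.injEq, true_and]
      exact mul_left_cancel heq
  have c2 : DX.card * XK.card ≤ Xf.card * Sf.card := by
    rw [← card_product]
    refine card_le_mul_card_image_of_maps_to (f := fun p : 𝔾 × 𝔾 => p.1 * p.2 * p.1⁻¹) ?_ _ ?_
    · rintro ⟨d, x⟩ hp
      simp only [mem_product, hDX, hXK, mem_filter, mem_univ, true_and] at hp
      simp only [hSf, mem_filter, mem_univ, true_and]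
      refine ⟨D.mul_mem (D.mul_mem hp.1.1 (hXD hp.2.1)) (D.inv_mem hp.1.1), fun h => hp.2.2 ?_,
        hconj d hp.1.1 x hp.2.1⟩
      exact h2 d hp.1.1 hp.1.2 x hp.2.1 h
    · intro b _
      by_cases hne : ((DX ×ˢ XK).filter (fun p : 𝔾 × 𝔾 => p.1 * p.2 * p.1⁻¹ = b)).Nonempty
      · obtain ⟨⟨d₀, x₀⟩, hp₀⟩ := hne
        simp only [mem_filter, mem_product, hDX, hXK, mem_univ, true_and] at hp₀
        refine card_le_card_of_injOn (fun p => p.1⁻¹ * d₀) ?_ ?_
        · rintro ⟨d, x⟩ hp
          simp only [coe_filter, mem_product, hDX, hXK, mem_filter, mem_univ, true_and,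
            Set.mem_setOf_eq] at hp
          simp only [hXf, coe_filter, mem_univ, true_and, Set.mem_setOf_eq]
          by_contra hnot
          apply hp₀.1.2.2
          refine h2 (d⁻¹ * d₀) (D.mul_mem (D.inv_mem hp.1.1.1) hp₀.1.1.1) hnot x₀ hp₀.1.2.1 ?_
          have : d⁻¹ * d₀ * x₀ * (d⁻¹ * d₀)⁻¹ = d⁻¹ * (d₀ * x₀ * d₀⁻¹) * d := by group
          rw [this, hp₀.2, ← hp.2]
          have : d⁻¹ * (d * x * d⁻¹) * d = x := by group
          rw [this]
          exact hp.1.2.1
        · rintro ⟨d, x⟩ hp ⟨d', x'⟩ hp' heq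
          simp only [coe_filter, mem_product, hDX, hXK, mem_filter, mem_univ, true_and,
            Set.mem_setOf_eq] at hp hp'
          simp only at heq
          have hdd : d = d' := by
            have := mul_right_cancel heq
            exact inv_injective this
          subst hdd
          simp only [Prod.mk.injEq, true_and]
          have h3 : d * x * d⁻¹ = d * x' * d⁻¹ := by rw [hp.2, hp'.2]
          exact mul_left_cancel (mul_right_cancel h3)
      · rw [not_nonempty_iff_eq_empty] at hne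
        rw [hne]
        simp
  have c3 : Af.card * Kf.card ≤ Xf.card := by
    rw [← card_product]
    refine card_le_card_of_injOn (fun p => p.1 * p.2) ?_ ?_
    · rintro ⟨a, s⟩ hp
      simp only [coe_product, Set.mem_prod, hAf, hKf, coe_filter, mem_univ, true_and,
        Set.mem_setOf_eq] at hp
      simp only [hXf, coe_filter, mem_univ, true_and, Set.mem_setOf_eq]
      exact X.mul_mem (hAX hp.1) (hKX hp.2)
    · rintro ⟨a, s⟩ hp ⟨a', s'⟩ hp' heq
      simp only [coe_product, Set.mem_prod, hAf, hKf, coe_filter, mem_univ, true_and,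
        Set.mem_setOf_eq] at hp hp'
      simp only at heq
      have e : a'⁻¹ * a = s' * s⁻¹ := by
        have : a'⁻¹ * a = a'⁻¹ * (a * s) * s⁻¹ := by group
        rw [this, heq]; group
      have := hAK (a'⁻¹ * a) (A.mul_mem (A.inv_mem hp'.1) hp.1)
        (by rw [e]; exact K₀.mul_mem hp'.2 (K₀.inv_mem hp.2))
      have haa : a = a' := by
        have h3 : a' * (a'⁻¹ * a) = a' * 1 := by rw [this]
        simpa using h3
      subst haa
      simp only [Prod.mk.injEq, true_and]
      exact mul_left_cancel heq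
  have c4 : XK.card + Kf.card = Xf.card := by
    have hdisj : Disjoint XK Kf := by
      rw [disjoint_left]
      intro x hx hx'
      simp only [hXK, hKf, mem_filter, mem_univ, true_and] at hx hx'
      exact hx.2 hx'
    rw [← card_union_of_disjoint hdisj]
    congr 1
    ext x
    simp only [hXK, hKf, hXf, mem_union, mem_filter, mem_univ, true_and]
    constructor
    · rintro (h | h)
      · exact h.1
      · exact hKX h
    · intro h
      by_cases hk : x ∈ K₀
      · exact Or.inr hk
      · exact Or.inl ⟨h, hk⟩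
  have c5 : 0 < DX.card := card_pos.2 ⟨d₁, by simp [hDX, hd₁D, hd₁X]⟩
  have c6 : 0 < Xf.card := card_pos.2 ⟨1, by simp [hXf, X.one_mem]⟩
  rw [cA] at hA
  -- arithmetic
  have s1 : DX.card * (Af.card * XK.card) ≤ DX.card * Xf.card := by
    calc DX.card * (Af.card * XK.card) = Af.card * (DX.card * XK.card) := by ring
      _ ≤ Af.card * (Xf.card * Sf.card) := Nat.mul_le_mul_left _ c2
      _ = Xf.card * (Af.card * Sf.card) := by ring
      _ ≤ Xf.card * DX.card := Nat.mul_le_mul_left _ c1
      _ = DX.card * Xf.card := by ring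
  have s2 : Af.card * XK.card ≤ Xf.card := Nat.le_of_mul_le_mul_left s1 c5
  have s3 : Af.card * Xf.card ≤ 2 * Xf.card := by
    calc Af.card * Xf.card = Af.card * XK.card + Af.card * Kf.card := by rw [← c4]; ring
      _ ≤ Xf.card + Xf.card := Nat.add_le_add s2 c3
      _ = 2 * Xf.card := by ring
  have s4 : Af.card ≤ 2 := Nat.le_of_mul_le_mul_right s3 c6
  omega

end Cfsg.Agent.Lib.Helper57.SUSub
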