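import Mathlib
import Cfsg.Agent.Lib.Helper94.HermLag

set_option autoImplicit false
set_option linter.unusedSimpArgs false
set_option linter.unusedVariables false

/-! Total versions of unitary transvections and Siegel elements, and formal computations. -/

namespace Cfsg.Agent.Lib.Helper57.SUSub

open Module Cfsg.Agent.Lib.Helper94 Cfsg.Agent.Lib.Helper94.U

variable {F V : Type*} [Field F] [AddCommGroup V] [Module F V]
variable {σ : F →+* F} {B : V →ₛₗ[σ] V →ₗ[F] F}

open Classical in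
/-- the unitary transvection `x ↦ x + (a * B u x) • u` (total version) -/
noncomputable def T (H : HForm σ B) (u : V) (a : F) : V ≃ₗ[F] V :=
  if h : a + σ a + a * σ a * B u u = 0 then ur H u a h else 1

lemma T_eq (H : HForm σ B) {u : V} {a : F} (h : a + σ a + a * σ a * B u u = 0) :
    T H u a = ur H u a h := dif_pos h

lemma T_cond {u : V} {a : F} (hu : B u u = 0) (ha : a + σ a = 0) :
    a + σ a + a * σ a * B u u = 0 := by rw [hu, ha]; ring

lemma T_apply (H : HForm σ B) {u : V} {a : F} (hu : B u u = 0) (ha : a + σ a = 0) (x : V) :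
    T H u a x = x + (a * B u x) • u := by
  rw [T_eq H (T_cond hu ha), ur_apply]

lemma T_isom (H : HForm σ B) (u : V) (a : F) : UIsom B (T H u a) := by
  unfold T
  split_ifs with h
  · exact ur_isom _ _ _ _
  · exact UIsom.one

lemma T_det [FiniteDimensional F V] (H : HForm σ B) {u : V} (hu : B u u = 0) (a : F) :
    LinearMap.det ((T H u a : V ≃ₗ[F] V) : V →ₗ[F] V) = 1 := by
  unfold T
  split_ifs with h
  · rw [ur_det, hu]; ring
  · exact LinearMap.det_id

lemma conj_T (H : HForm σ B) {g : V ≃ₗ[F] V} (hg : UIsom B g) (u : V) (a : F) :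
    g * T H u a * g⁻¹ = T H (g u) a := by
  by_cases h : a + σ a + a * σ a * B u u = 0
  · rw [T_eq H h, T_eq H (u := g u) (by rw [hg]; exact h), conj_ur H hg]
  · have h' : ¬ (a + σ a + a * σ a * B (g u) (g u) = 0) := by rw [hg]; exact h
    unfold T
    rw [dif_neg h, dif_neg h']
    group

lemma T_mem_conj (H : HForm σ B) {G : Subgroup (V ≃ₗ[F] V)} {g : V ≃ₗ[F] V} (hg : UIsom B g)
    (hgG : g ∈ G) {u : V} {a : F} (h : T H u a ∈ G) : T H (g u) a ∈ G := by
  rw [← conj_T H hg]
  exact G.mul_mem (G.mul_mem hgG h) (G.inv_mem hgG)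

open Classical in
/-- the Siegel element `x ↦ x + B b x • a - B a x • b` (total version) -/
noncomputable def S (B : V →ₛₗ[σ] V →ₗ[F] F) (a b : V) : V ≃ₗ[F] V :=
  if h : TI B a b then sr B a b h else 1

lemma S_eq {a b : V} (h : TI B a b) : S B a b = sr B a b h := dif_pos h

lemma S_apply {a b : V} (h : TI B a b) (x : V) : S B a b x = x + B b x • a - B a x • b := by
  rw [S_eq h, sr_apply]

lemma S_isom (H : HForm σ B) (a b : V) : UIsom B (S B a b) := by
  unfold S
  split_ifs with h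
  · exact sr_isom H h
  · exact UIsom.one

lemma S_det (a b : V) : LinearMap.det ((S B a b : V ≃ₗ[F] V) : V →ₗ[F] V) = 1 := by
  unfold S
  split_ifs with h
  · exact sr_det h
  · exact LinearMap.det_id

lemma TI_map_iff {g : V ≃ₗ[F] V} (hg : UIsom B g) (a b : V) : TI B (g a) (g b) ↔ TI B a b := by
  constructor
  · intro h
    exact ⟨by rw [← hg]; exact h.aa, by rw [← hg]; exact h.bb, by rw [← hg]; exact h.ab,
      by rw [← hg]; exact h.ba⟩
  · intro h; exact h.map hg

lemma conj_S {g : V ≃ₗ[F] V} (hg : UIsom B g) (a b : V) :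
    g * S B a b * g⁻¹ = S B (g a) (g b) := by
  by_cases h : TI B a b
  · rw [S_eq h, S_eq (h.map hg), conj_sr hg]
  · have h' : ¬ TI B (g a) (g b) := by rw [TI_map_iff hg]; exact h
    unfold S
    rw [dif_neg h, dif_neg h']
    group

lemma S_mem_conj {G : Subgroup (V ≃ₗ[F] V)} {g : V ≃ₗ[F] V} (hg : UIsom B g)
    (hgG : g ∈ G) {a b : V} (h : S B a b ∈ G) : S B (g a) (g b) ∈ G := by
  rw [← conj_S hg]
  exact G.mul_mem (G.mul_mem hgG h) (G.inv_mem hgG)

lemma TI_symm {a b : V} (h : TI B a b) : TI B b a := ⟨h.bb, h.aa, h.ba, h.ab⟩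

lemma TI_add_left {a a' b : V} (h : TI B a b) (h' : TI B a' b) (haa : TI B a a') : TI B (a + a') b :=
  ⟨by simp [h.aa, h'.aa, haa.ab, haa.ba], h.bb, by simp [h.ab, h'.ab], by simp [h.ba, h'.ba]⟩

lemma TI_neg_left {a b : V} (h : TI B a b) : TI B (-a) b :=
  ⟨by simp [h.aa], h.bb, by simp [h.ab], by simp [h.ba]⟩

lemma TI_zero_left {b : V} (h : B b b = 0) : TI B 0 b := ⟨by simp, h, by simp, by simp⟩

lemma S_inv {a b : V} (h : TI B a b) : (S B a b)⁻¹ = S B (-a) b := by
  rw [inv_eq_iff_mul_eq_one]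
  ext x
  simp only [LinearEquiv.mul_apply, S_apply h, S_apply (TI_neg_left h), map_add, map_sub, map_smul, map_neg,
    LinearMap.neg_apply, smul_eq_mul, h.aa, h.bb, h.ab, h.ba, LinearEquiv.coe_one, id_eq]
  module

lemma S_swap {a b : V} (h : TI B a b) : S B b a = S B (-a) b := by
  ext x
  simp only [S_apply (TI_symm h), S_apply (TI_neg_left h), map_neg, LinearMap.neg_apply]
  module

lemma S_smul (H : HForm σ B) {a b : V} (h : TI B a b) (c : F) : S B (c • a) b = S B a (σ c • b) := by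
  ext x
  simp only [S_apply (h.smul_left c), S_apply (h.smul_right (σ c)), map_smulₛₗ, LinearMap.smul_apply,
    smul_eq_mul, H.invol]
  module

lemma S_add_left {a a' b : V} (h : TI B a b) (h' : TI B a' b) (haa : TI B a a') :
    S B (a + a') b = S B a b * S B a' b := by
  ext x
  simp only [LinearEquiv.mul_apply, S_apply h, S_apply h', S_apply (TI_add_left h h' haa), map_add, map_sub,
    map_smul, LinearMap.add_apply, smul_eq_mul, h.aa, h.bb, h.ab, h.ba, h'.aa, h'.ab, h'.ba, haa.ab, haa.ba]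
  module

lemma S_zero (b : V) : S B 0 b = 1 := by
  by_cases h : TI B 0 b
  · ext x
    simp [S_apply h]
  · unfold S; rw [dif_neg h]

/-- commutator lemma -/
lemma comm_S {G : Subgroup (V ≃ₗ[F] V)} (H : HForm σ B) {α β γ δ : V} (h1 : TI B α β) (h2 : TI B γ δ)
    (h3 : TI B α δ) (h4 : B β δ = 0) (h5 : TI B γ α) (hg : S B α β ∈ G) (hh : S B γ δ ∈ G) :
    S B (B β γ • α) δ ∈ G := by
  have e1 : S B α β γ = γ + B β γ • α := by
    rw [S_apply h1, h5.ba]; simp
  have e2 : S B α β δ = δ := by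
    rw [S_apply h1, h3.ab, h4]; simp
  have key : S B α β * S B γ δ * (S B α β)⁻¹ = S B γ δ * S B (B β γ • α) δ := by
    rw [conj_S (S_isom H _ _), e1, e2, S_add_left h2 (h3.smul_left _) (h5.smul_right _)]
  have : S B (B β γ • α) δ = (S B γ δ)⁻¹ * (S B α β * S B γ δ * (S B α β)⁻¹) := by
    rw [key]; group
  rw [this]
  exact G.mul_mem (G.inv_mem hh) (G.mul_mem (G.mul_mem hg hh) (G.inv_mem hg))

lemma T_add (H : HForm σ B) {u w : V} (h : TI B u w) {a : F} (ha : a + σ a = 0) :
    T H (u + w) a = T H u a * T H w a * S B (a • u) w := by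
  have hs : σ a = -a := by linear_combination ha
  have huw : B (u + w) (u + w) = 0 := by simp [h.aa, h.bb, h.ab, h.ba]
  ext x
  simp only [LinearEquiv.mul_apply, T_apply H huw ha, T_apply H h.aa ha, T_apply H h.bb ha,
    S_apply (h.smul_left a), map_add, map_sub, map_smul, map_smulₛₗ, LinearMap.add_apply,
    LinearMap.smul_apply, smul_eq_mul, h.aa, h.bb, h.ab, h.ba, hs]
  module

lemma T_mul (H : HForm σ B) {u : V} (hu : B u u = 0) {a b : F} (ha : a + σ a = 0) (hb : b + σ b = 0) :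
    T H u a * T H u b = T H u (a + b) := by
  have hab : (a + b) + σ (a + b) = 0 := by rw [map_add]; linear_combination ha + hb
  ext x
  simp only [LinearEquiv.mul_apply, T_apply H hu ha, T_apply H hu hb, T_apply H hu hab, map_add, map_smul,
    smul_eq_mul, hu]
  module

lemma T_zero (H : HForm σ B) (u : V) : T H u 0 = 1 := by
  rw [T_eq H (by simp), ur_zero]

lemma T_inv (H : HForm σ B) {u : V} (hu : B u u = 0) {a : F} (ha : a + σ a = 0) :
    (T H u a)⁻¹ = T H u (-a) := by
  have hna : -a + σ (-a) = 0 := by rw [map_neg]; linear_combination -ha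
  rw [inv_eq_iff_mul_eq_one, T_mul H hu ha hna, add_neg_cancel, T_zero]

lemma T_smul (H : HForm σ B) {u : V} (hu : B u u = 0) {a : F} (ha : a + σ a = 0) (c : F) :
    T H (c • u) a = T H u (a * (c * σ c)) := by
  have h1 : B (c • u) (c • u) = 0 := by rw [H.norm_smul, hu, mul_zero]
  have h2 : a * (c * σ c) + σ (a * (c * σ c)) = 0 := by
    rw [map_mul, map_mul, H.invol]; linear_combination (c * σ c) * ha
  ext x
  simp only [T_apply H h1 ha, T_apply H hu h2, map_smulₛₗ, LinearMap.smul_apply, smul_eq_mul, smul_smul]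
  congr 2
  ring

/-- the chain of commutators: from a transvection of `G` to a Siegel element. -/
lemma chainU {G : Subgroup (V ≃ₗ[F] V)} (H : HForm σ B) {u y₂ y₃ : V} {a α γ : F} (ha : a + σ a = 0)
    (hT : T H u a ∈ G) {φ₁ φ : V ≃ₗ[F] V} (hφ₁ : φ₁ ∈ G) (hφ₁I : UIsom B φ₁) (hφ : φ ∈ G)
    (hφI : UIsom B φ) (h1 : φ₁ u = u + α • y₂) (h2 : φ y₂ = y₂) (h3 : φ u = u + γ • y₃)
    (t12 : TI B u y₂) (t13 : TI B u y₃) (t23 : TI B y₃ y₂) :
    S B ((σ α * (a * γ)) • y₃) y₂ ∈ G := by
  have A0 : T H (u + α • y₂) a ∈ G := by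
    rw [← h1]; exact T_mem_conj H hφ₁I hφ₁ hT
  rw [T_add H (t12.smul_right α) ha] at A0
  set Z := T H (α • y₂) a * S B (a • u) (α • y₂) with hZ
  have hZG : Z ∈ G := by
    have : Z = (T H u a)⁻¹ * (T H u a * T H (α • y₂) a * S B (a • u) (α • y₂)) := by
      rw [hZ]; group
    rw [this]
    exact G.mul_mem (G.inv_mem hT) A0
  have hconj : φ * Z * φ⁻¹ = Z * S B ((a * γ) • y₃) (α • y₂) := by
    have e1 : φ * Z * φ⁻¹ = (φ * T H (α • y₂) a * φ⁻¹) * (φ * S B (a • u) (α • y₂) * φ⁻¹) := by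
      rw [hZ]; group
    rw [e1, conj_T H hφI, conj_S hφI, map_smul, map_smul, h2, h3, smul_add, smul_smul,
      S_add_left ((t12.smul_left a).smul_right α) ((t23.smul_left _).smul_right α)
        ((t13.smul_left a).smul_right _), hZ, mul_assoc]
  have : S B ((σ α * (a * γ)) • y₃) y₂ = Z⁻¹ * (φ * Z * φ⁻¹) := by
    rw [hconj, ← smul_smul, S_smul H (t23.smul_left _), H.invol]
    group
  rw [this]
  exact G.mul_mem (G.inv_mem hZG) (G.mul_mem (G.mul_mem hφ hZG) (G.inv_mem hφ))

end Cfsg.Agent.Lib.Helper57.SUSub
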