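import Mathlib
import Cfsg.Agent.Lib.Helper94.HermPar
import Cfsg.Agent.Lib.Helper57.SUa

set_option autoImplicit false
set_option linter.unusedSimpArgs false
set_option linter.unusedVariables false

/-! Rational structures on a unitary space, and the ring of multipliers of Siegel elements. -/

namespace Cfsg.Agent.Lib.Helper57.SUSub

open Module Cfsg.Agent.Lib.Helper94 Cfsg.Agent.Lib.Helper94.U

variable {F V : Type*} [Field F] [AddCommGroup V] [Module F V]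
variable {F₀ : Subfield F} {V₀ : Type*} [AddCommGroup V₀] [Module F₀ V₀]
variable {σ : F →+* F} {B : V →ₛₗ[σ] V →ₗ[F] F}
variable {σ₀ : F₀ →+* F₀} {B₀ : V₀ →ₛₗ[σ₀] V₀ →ₗ[F₀] F₀} {E : V₀ → V}

/-- a rational structure on a unitary space -/
structure RatU (B : V →ₛₗ[σ] V →ₗ[F] F) (B₀ : V₀ →ₛₗ[σ₀] V₀ →ₗ[F₀] F₀) (E : V₀ → V) : Prop where
  H : HForm σ B
  H₀ : HForm σ₀ B₀
  sig : ∀ a : F₀, σ (a : F) = (σ₀ a : F)
  add : ∀ x y, E (x + y) = E x + E y
  smul : ∀ (a : F₀) x, E (a • x) = (a : F) • E x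
  form : ∀ x y, B (E x) (E y) = (B₀ x y : F)
  span : Submodule.span F (Set.range E) = ⊤
  dim : 13 ≤ finrank F₀ V₀

/-- `G` contains all rational isometries of determinant one -/
def HG (B : V →ₛₗ[σ] V →ₗ[F] F) (E : V₀ → V) (G : Subgroup (V ≃ₗ[F] V)) : Prop :=
  ∀ φ : V ≃ₗ[F] V, UIsom B φ → LinearMap.det (φ : V →ₗ[F] V) = 1 → (∀ x, ∃ y, φ (E x) = E y) → φ ∈ G

lemma mkTI (H : HForm σ B) {a b : V} (ha : B a a = 0) (hb : B b b = 0) (hab : B a b = 0) : TI B a b :=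
  ⟨ha, hb, hab, H.eq_zero_comm.1 hab⟩

namespace RatU

lemma E_zero (R : RatU B B₀ E) : E 0 = 0 := by
  have := R.smul 0 0
  simpa using this

lemma E_neg (R : RatU B B₀ E) (x : V₀) : E (-x) = - E x := by
  have := R.smul (-1) x
  simpa using this

lemma E_sub (R : RatU B B₀ E) (x y : V₀) : E (x - y) = E x - E y := by
  rw [sub_eq_add_neg, R.add, R.E_neg, sub_eq_add_neg]

lemma perp (R : RatU B B₀ E) {x y : V₀} (h : B₀ x y = 0) : B (E x) (E y) = 0 := by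
  rw [R.form, h]; rfl

lemma ti (R : RatU B B₀ E) {x y : V₀} (h : TI B₀ x y) : TI B (E x) (E y) :=
  ⟨R.perp h.aa, R.perp h.bb, R.perp h.ab, R.perp h.ba⟩

lemma eq_zero_of_perp (R : RatU B B₀ E) (v : V) (h : ∀ x, B v (E x) = 0) : v = 0 := by
  apply R.H.nondeg
  intro y
  have hy : y ∈ Submodule.span F (Set.range E) := R.span ▸ Submodule.mem_top
  induction hy using Submodule.span_induction with
  | mem x hx => obtain ⟨x, rfl⟩ := hx; exact h x
  | zero => simp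
  | add x y _ _ hx hy => rw [map_add, hx, hy, add_zero]
  | smul a x _ hx => rw [map_smul, hx, smul_zero]

lemma exists_hyp [Finite F₀] [FiniteDimensional F₀ V₀] (R : RatU B B₀ E) (s : Finset V₀)
    (hs : s.card ≤ 5) :
    ∃ e f, (∀ x ∈ s, B₀ x e = 0 ∧ B₀ x f = 0) ∧ B₀ e e = 0 ∧ B₀ f f = 0 ∧ B₀ e f = 1 := by
  classical
  set U := Submodule.span F₀ (s : Set V₀) with hU
  have hU5 : finrank F₀ U ≤ 5 := (finrank_span_finset_le_card s).trans hs
  have hdim := R.dim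
  obtain ⟨z, hz, hzz, p, hp, hzp⟩ := exists_norm_perp_witness R.H₀ U (by omega) 0 (map_zero _)
  have hpz : B₀ p z ≠ 0 := fun h => hzp (R.H₀.eq_zero_comm.1 h)
  obtain ⟨c, hc⟩ := exists_isotropic_add R.H₀ hzz hpz
  have hne : B₀ z (p + c • z) ≠ 0 := by
    rw [map_add, map_smul, hzz, smul_zero, add_zero]; exact hzp
  refine ⟨z, (B₀ z (p + c • z))⁻¹ • (p + c • z), ?_, hzz, ?_, ?_⟩
  · intro x hx
    have hxU : x ∈ U := Submodule.subset_span hx
    have h1 : B₀ x z = 0 := hz x hxU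
    have h2 : B₀ x p = 0 := hp x hxU
    refine ⟨h1, ?_⟩
    simp only [map_smul, map_add, h1, h2]
    simp
  · rw [R.H₀.norm_smul, hc, mul_zero]
  · rw [map_smul, smul_eq_mul, inv_mul_cancel₀ hne]

lemma exists_dual [Finite F₀] [FiniteDimensional F₀ V₀] (R : RatU B B₀ E) (U : Submodule F₀ V₀)
    {x : V₀} (hx : B₀ x x = 0) (hxU : x ∉ U) (hperp : ∀ u ∈ U, B₀ u x = 0) :
    ∃ x', (∀ u ∈ U, B₀ u x' = 0) ∧ B₀ x' x' = 0 ∧ B₀ x x' = 1 := by
  obtain ⟨y, hy, hxy⟩ := exists_perp_ne R.H₀ U hxU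
  have hyx : B₀ y x ≠ 0 := fun h => hxy (R.H₀.eq_zero_comm.1 h)
  obtain ⟨c, hc⟩ := exists_isotropic_add R.H₀ hx hyx
  have hne : B₀ x (y + c • x) ≠ 0 := by
    rw [map_add, map_smul, hx, smul_zero, add_zero]; exact hxy
  refine ⟨(B₀ x (y + c • x))⁻¹ • (y + c • x), ?_, ?_, ?_⟩
  · intro u hu
    have h1 : B₀ u y = 0 := hy u hu
    have h2 : B₀ u x = 0 := hperp u hu
    simp only [map_smul, map_add, h1, h2]
    simp
  · rw [R.H₀.norm_smul, hc, mul_zero]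
  · rw [map_smul, smul_eq_mul, inv_mul_cancel₀ hne]

end RatU

/-- a hyperbolic frame -/
structure Fr (B₀ : V₀ →ₛₗ[σ₀] V₀ →ₗ[F₀] F₀) (w₁ w₂ f₁ f₂ : V₀) : Prop where
  ww : TI B₀ w₁ w₂
  ff : TI B₀ f₁ f₂
  h11 : B₀ w₁ f₁ = 1
  h22 : B₀ w₂ f₂ = 1
  h12 : B₀ w₁ f₂ = 0
  h21 : B₀ w₂ f₁ = 0

namespace RatU

lemma exists_frame [Finite F₀] [FiniteDimensional F₀ V₀] (R : RatU B B₀ E) {x u : V₀} (hxu : TI B₀ x u)
    (h1 : x ∉ Submodule.span F₀ {u}) (h2 : u ∉ Submodule.span F₀ {x}) :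
    ∃ x' u', Fr B₀ x u x' u' := by
  obtain ⟨x', hx'U, hx'x', hxx'⟩ := R.exists_dual (Submodule.span F₀ {u}) hxu.aa h1 (by
    intro y hy
    obtain ⟨t, rfl⟩ := Submodule.mem_span_singleton.1 hy
    simp [hxu.ba])
  have hux' : B₀ u x' = 0 := hx'U u (Submodule.mem_span_singleton_self u)
  have hx'u : B₀ x' u = 0 := R.H₀.eq_zero_comm.1 hux'
  obtain ⟨u', hu'U, hu'u', huu'⟩ := R.exists_dual (Submodule.span F₀ {x, x'}) hxu.bb (by
    intro hu
    obtain ⟨s, t, rfl⟩ := Submodule.mem_span_pair.1 hu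
    have h3 := hxu.ab
    rw [map_add, map_smul, map_smul, hxu.aa, hxx'] at h3
    have ht : t = 0 := by simpa using h3
    apply h2
    rw [ht, zero_smul, add_zero]
    exact Submodule.smul_mem _ _ (Submodule.mem_span_singleton_self x)) (by
    intro y hy
    obtain ⟨s, t, rfl⟩ := Submodule.mem_span_pair.1 hy
    simp [hxu.ab, hx'u])
  have hxu' : B₀ x u' = 0 := hu'U x (Submodule.subset_span (by simp))
  have hx'u' : B₀ x' u' = 0 := hu'U x' (Submodule.subset_span (by simp))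
  exact ⟨x', u', hxu, mkTI R.H₀ hx'x' hu'u' hx'u', hxx', huu', hxu', hux'⟩

variable {G : Subgroup (V ≃ₗ[F] V)}

lemma T_rat [FiniteDimensional F V] (R : RatU B B₀ E) (hG : HG B E G) {x : V₀} (hx : B₀ x x = 0) {a : F}
    (ha : a ∈ F₀) (hs : a + σ a = 0) : T R.H (E x) a ∈ G := by
  apply hG _ (T_isom _ _ _) (T_det _ (R.perp hx) _)
  intro y
  refine ⟨y + ((⟨a, ha⟩ : F₀) * B₀ x y) • x, ?_⟩
  rw [T_apply R.H (R.perp hx) hs, R.add, R.smul, R.form]
  rfl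

lemma S_rat (R : RatU B B₀ E) (hG : HG B E G) {x y : V₀} (h : TI B₀ x y) : S B (E x) (E y) ∈ G := by
  apply hG _ (S_isom R.H _ _) (S_det _ _)
  intro z
  refine ⟨z + B₀ y z • x - B₀ x z • y, ?_⟩
  rw [S_apply (R.ti h), R.E_sub, R.add, R.smul, R.smul, R.form, R.form]

/-- the multipliers `l` such that all Siegel elements with rational directions and multiplier
`l` lie in `G`. -/
def Good (R : RatU B B₀ E) (G : Subgroup (V ≃ₗ[F] V)) (l : F) : Prop :=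
  ∀ y y' : V₀, TI B₀ y y' → S B (l • E y) (E y') ∈ G

lemma good_add (R : RatU B B₀ E) {l m : F} (hl : R.Good G l) (hm : R.Good G m) : R.Good G (l + m) := by
  intro y y' h
  have ht := R.ti h
  have hyy : TI B (E y) (E y) := ⟨ht.aa, ht.aa, ht.aa, ht.aa⟩
  rw [add_smul, S_add_left (ht.smul_left l) (ht.smul_left m) ((hyy.smul_left l).smul_right m)]
  exact G.mul_mem (hl y y' h) (hm y y' h)

lemma good_neg (R : RatU B B₀ E) {l : F} (hl : R.Good G l) : R.Good G (-l) := by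
  intro y y' h
  rw [neg_smul, ← S_inv ((R.ti h).smul_left l)]
  exact G.inv_mem (hl y y' h)

lemma good_coe (R : RatU B B₀ E) (hG : HG B E G) {l : F} (hl : l ∈ F₀) : R.Good G l := by
  intro y y' h
  have : l • E y = E ((⟨l, hl⟩ : F₀) • y) := by rw [R.smul]
  rw [this]
  exact R.S_rat hG (h.smul_left _)

lemma S_symm (R : RatU B B₀ E) {a b : V₀} (h : TI B₀ a b) (l : F) :
    S B (σ l • E b) (E a) = (S B (l • E a) (E b))⁻¹ := by
  have ht := R.ti h
  rw [S_smul R.H (TI_symm ht), R.H.invol, S_swap (ht.smul_left l), S_inv (ht.smul_left l)]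

lemma move (R : RatU B B₀ E) (hG : HG B E G) {l : F} {a b c d : V₀} (hab : TI B₀ a b) (hcd : TI B₀ c d)
    (had : TI B₀ a d) (hbd : B₀ b d = 0) (hca : TI B₀ c a) (hbc : B₀ b c = 1)
    (hP : S B (l • E a) (E b) ∈ G) : S B (l • E a) (E d) ∈ G := by
  have := comm_S R.H (α := l • E a) (β := E b) (γ := E c) (δ := E d) ((R.ti hab).smul_left l)
    (R.ti hcd) ((R.ti had).smul_left l) (R.perp hbd) ((R.ti hca).smul_right l) hP (R.S_rat hG hcd)
  rw [R.form, hbc] at this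
  simpa using this

lemma good_mul [Finite F₀] [FiniteDimensional F₀ V₀] (R : RatU B B₀ E) {l m : F} (hl : R.Good G l)
    (hm : R.Good G m) : R.Good G (l * m) := by
  classical
  intro y y' h
  obtain ⟨e, f, hef, hee, hff, hef1⟩ := R.exists_hyp {y, y'} (Finset.card_le_two.trans (by norm_num))
  obtain ⟨hye, hyf⟩ := hef y (by simp)
  obtain ⟨hy'e, hy'f⟩ := hef y' (by simp)
  have hfe1 : B₀ f e = 1 := by rw [← R.H₀.symm, hef1, map_one]
  have t1 : TI B₀ y f := mkTI R.H₀ h.aa hff hyf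
  have t2 : TI B₀ e y' := TI_symm (mkTI R.H₀ h.bb hee hy'e)
  have t3 : TI B₀ e y := TI_symm (mkTI R.H₀ h.aa hee hye)
  have := comm_S R.H (α := l • E y) (β := E f) (γ := m • E e) (δ := E y') ((R.ti t1).smul_left l)
    ((R.ti t2).smul_left m) ((R.ti h).smul_left l) (R.perp (R.H₀.eq_zero_comm.1 hy'f))
    (((R.ti t3).smul_left m).smul_right l) (hl y f t1) (hm e y' t2)
  rw [map_smul, R.form, hfe1, smul_smul] at this
  simpa [mul_comm] using this

/-- one Siegel element with multiplier `l` along a pair which is part of a frame suffices -/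
lemma good_of_frame [Finite F₀] [FiniteDimensional F₀ V₀] (R : RatU B B₀ E) (hG : HG B E G) {l : F}
    {a b fa fb : V₀} (hF : Fr B₀ a b fa fb) (hP : S B (l • E a) (E b) ∈ G) : R.Good G l := by
  classical
  intro y y' hyy
  have H₀ := R.H₀
  obtain ⟨e, f, hef, hee, hff, hef1⟩ := R.exists_hyp {a, b, fa, fb, y} Finset.card_le_five
  obtain ⟨e', f', hef', hee', hff', hef1'⟩ := R.exists_hyp {e, f, a, fa, y} Finset.card_le_five
  obtain ⟨e₂, f₂, hef₂, hee₂, hff₂, hef1₂⟩ := R.exists_hyp {y, y', e, f}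
    (Finset.card_le_four.trans (by norm_num))
  obtain ⟨hae, haf⟩ := hef a (by simp)
  obtain ⟨hbe, hbf⟩ := hef b (by simp)
  obtain ⟨hfae, hfaf⟩ := hef fa (by simp)
  obtain ⟨hfbe, hfbf⟩ := hef fb (by simp)
  obtain ⟨hye, hyf⟩ := hef y (by simp)
  obtain ⟨hee'0, hef'0⟩ := hef' e (by simp)
  obtain ⟨hae', haf'⟩ := hef' a (by simp)
  obtain ⟨hfae', hfaf'⟩ := hef' fa (by simp)
  obtain ⟨hye', hyf'⟩ := hef' y (by simp)
  obtain ⟨hye₂, hyf₂⟩ := hef₂ y (by simp)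
  obtain ⟨hy'e₂, hy'f₂⟩ := hef₂ y' (by simp)
  obtain ⟨hee₂0, hef₂0⟩ := hef₂ e (by simp)
  obtain ⟨hfe₂, hff₂0⟩ := hef₂ f (by simp)
  -- move 1
  have m1 : S B (l • E a) (E e) ∈ G :=
    R.move hG (c := fb) hF.ww (mkTI H₀ hF.ff.bb hee hfbe) (mkTI H₀ hF.ww.aa hee hae) hbe
      (TI_symm (mkTI H₀ hF.ww.aa hF.ff.bb hF.h12)) hF.h22 hP
  have m1' : S B (σ l • E e) (E a) ∈ G := by
    rw [R.S_symm (mkTI H₀ hF.ww.aa hee hae)]; exact G.inv_mem m1
  -- move 2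
  have m2 : S B (σ l • E e) (E e') ∈ G :=
    R.move hG (c := fa) (TI_symm (mkTI H₀ hF.ww.aa hee hae)) (mkTI H₀ hF.ff.aa hee' hfae')
      (mkTI H₀ hee hee' hee'0) hae' (mkTI H₀ hF.ff.aa hee hfae) hF.h11 m1'
  -- move 3
  have m3 : S B (σ l • E e) (E y) ∈ G :=
    R.move hG (c := f') (mkTI H₀ hee hee' hee'0) (TI_symm (mkTI H₀ hyy.aa hff' hyf'))
      (TI_symm (mkTI H₀ hyy.aa hee hye)) (H₀.eq_zero_comm.1 hye') (TI_symm (mkTI H₀ hee hff' hef'0))
      hef1' m2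
  have m3' : S B (l • E y) (E e) ∈ G := by
    have := R.S_symm (TI_symm (mkTI H₀ hyy.aa hee hye)) (σ l)
    rw [R.H.invol] at this
    rw [this]; exact G.inv_mem m3
  -- move 4
  have m4 : S B (l • E y) (E e₂) ∈ G :=
    R.move hG (c := f) (mkTI H₀ hyy.aa hee hye) (mkTI H₀ hff hee₂ hfe₂) (mkTI H₀ hyy.aa hee₂ hye₂) hee₂0
      (TI_symm (mkTI H₀ hyy.aa hff hyf)) hef1 m3'
  -- move 5
  exact R.move hG (c := f₂) (mkTI H₀ hyy.aa hee₂ hye₂) (TI_symm (mkTI H₀ hyy.bb hff₂ hy'f₂)) hyy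
    (H₀.eq_zero_comm.1 hy'e₂) (TI_symm (mkTI H₀ hyy.aa hff₂ hyf₂)) hef1₂ m4

/-- the subalgebra of multipliers -/
noncomputable def K [Finite F₀] [FiniteDimensional F₀ V₀] (R : RatU B B₀ E) (hG : HG B E G) :
    Subalgebra F₀ F where
  carrier := {l | R.Good G l}
  mul_mem' := fun h h' => R.good_mul h h'
  add_mem' := fun h h' => R.good_add h h'
  algebraMap_mem' := fun a => R.good_coe hG a.2

lemma dichotomy [Finite F₀] [FiniteDimensional F₀ V₀] (R : RatU B B₀ E) (hG : HG B E G)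
    (hprime : ∀ S : Subalgebra F₀ F, S = ⊥ ∨ S = ⊤) :
    (∀ l, R.Good G l → l ∈ F₀) ∨ (∀ l, R.Good G l) := by
  rcases hprime (R.K hG) with h | h
  · left
    intro l hl
    have : l ∈ R.K hG := hl
    rw [h, Algebra.mem_bot] at this
    obtain ⟨a, rfl⟩ := this
    exact a.2
  · right
    intro l
    have : l ∈ R.K hG := by rw [h]; exact Algebra.mem_top
    exact this

end RatU

end Cfsg.Agent.Lib.Helper57.SUSub
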