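import Mathlib
import Cfsg.Agent.Lib.Helper57.SUb

set_option autoImplicit false
set_option linter.unusedSimpArgs false
set_option linter.unusedVariables false

/-! The case where all multipliers are good: `G` contains the special unitary group. -/

namespace Cfsg.Agent.Lib.Helper57.SUSub

open Module Cfsg.Agent.Lib.Helper94 Cfsg.Agent.Lib.Helper94.U

variable {F V : Type*} [Field F] [AddCommGroup V] [Module F V]
variable {F₀ : Subfield F} {V₀ : Type*} [AddCommGroup V₀] [Module F₀ V₀]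
variable {σ : F →+* F} {B : V →ₛₗ[σ] V →ₗ[F] F}
variable {σ₀ : F₀ →+* F₀} {B₀ : V₀ →ₛₗ[σ₀] V₀ →ₗ[F₀] F₀} {E : V₀ → V}
variable {G : Subgroup (V ≃ₗ[F] V)}

lemma S_comm_T (H : HForm σ B) {c y y' : V} (h : TI B c y) (h' : TI B c y') :
    S B c y * S B c y' * (S B c y)⁻¹ * (S B c y')⁻¹ = T H c (B y' y - B y y') := by
  rw [S_eq h, S_eq h', sr_comm H h h', T_eq H (sr_comm_cond H h.aa y y')]

/-- every vector orthogonal to a small subspace is a combination of two isotropic such vectors -/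
lemma exists_two_isotropic [Finite F] [FiniteDimensional F V] (H : HForm σ B) (U : Submodule F V)
    (hU : 2 * finrank F U + 2 < finrank F V) {x : V} (hx : x ∈ perp B U) :
    ∃ z₁ ∈ perp B U, ∃ z₂ ∈ perp B U, ∃ s₁ s₂ : F, B z₁ z₁ = 0 ∧ B z₂ z₂ = 0 ∧ x = s₁ • z₁ + s₂ • z₂ := by
  by_cases hxx : B x x = 0
  · exact ⟨x, hx, 0, Submodule.zero_mem _, 1, 0, hxx, by simp, by simp⟩
  have hfr := finrank_sup_span_singleton_le U x
  obtain ⟨p, hp, hpp, -⟩ := exists_norm_perp H (U ⊔ Submodule.span F {x}) (by omega) (-(B x x))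
    (by rw [map_neg, H.norm_fixed])
  rw [mem_perp_sup, mem_perp_span_singleton] at hp
  obtain ⟨l, hl1, hl⟩ := H.exists_norm_one
  have h1l : 1 - l ≠ 0 := fun h => hl1 (by linear_combination -h)
  refine ⟨x + p, Submodule.add_mem _ hx hp.1, x + l • p,
    Submodule.add_mem _ hx (Submodule.smul_mem _ _ hp.1), -l / (1 - l), 1 / (1 - l), ?_, ?_, ?_⟩
  · rw [H.norm_add, hpp, hp.2]; simp
  · rw [H.norm_add, H.norm_smul, hl, hpp, map_smul, hp.2]; simp
  · have e1 : -l / (1 - l) + 1 / (1 - l) = 1 := by field_simp; ring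
    have e2 : -l / (1 - l) + 1 / (1 - l) * l = 0 := by field_simp; ring
    calc x = (1 : F) • x + (0 : F) • p := by simp
      _ = (-l / (1 - l) + 1 / (1 - l)) • x + (-l / (1 - l) + 1 / (1 - l) * l) • p := by rw [e1, e2]
      _ = _ := by module

namespace RatU

lemma T_all [Finite F₀] [FiniteDimensional F₀ V₀] (R : RatU B B₀ E) (hK : ∀ l, R.Good G l) {w : V₀}
    (hw : B₀ w w = 0) {a : F} (ha : a + σ a = 0) : T R.H (E w) a ∈ G := by
  classical
  obtain ⟨e, f, hef, hee, hff, hef1⟩ := R.exists_hyp {w} (by simp)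
  obtain ⟨hwe, hwf⟩ := hef w (by simp)
  have hfe1 : B₀ f e = 1 := by rw [← R.H₀.symm, hef1, map_one]
  obtain ⟨e₀, he₀⟩ := R.H.exists_trace 1 (map_one σ)
  have t1 : TI B₀ w e := mkTI R.H₀ hw hee hwe
  have t2 : TI B₀ w f := mkTI R.H₀ hw hff hwf
  set l := e₀ * a with hl
  have g1 : S B (E w) (l • E e) ∈ G := by
    have := hK (σ l) w e t1
    rwa [S_smul R.H (R.ti t1), R.H.invol] at this
  have g2 : S B (E w) (E f) ∈ G := by
    have := hK 1 w f t2
    rwa [one_smul] at this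
  have key := S_comm_T R.H ((R.ti t1).smul_right l) (R.ti t2)
  have e1 : B (E f) (l • E e) - B (l • E e) (E f) = a := by
    rw [map_smul, map_smulₛₗ, LinearMap.smul_apply, R.form, R.form, hfe1, hef1, hl, map_mul]
    simp only [smul_eq_mul, OneMemClass.coe_one, mul_one]
    have hs : σ a = -a := by linear_combination ha
    rw [hs]
    linear_combination a * he₀
  rw [e1] at key
  rw [← key]
  exact G.mul_mem (G.mul_mem (G.mul_mem g1 g2) (G.inv_mem g1)) (G.inv_mem g2)

lemma mem_tvX [Finite F₀] [FiniteDimensional F₀ V₀] (R : RatU B B₀ E) (hK : ∀ l, R.Good G l) {w : V₀}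
    (hw : B₀ w w = 0) : E w ∈ tvX R.H G := by
  refine ⟨R.perp hw, fun k hk => ?_⟩
  rw [← T_eq R.H hk]
  apply R.T_all hK hw
  rw [R.perp hw] at hk
  simpa using hk

lemma tv_step (R : RatU B B₀ E) (hK : ∀ l, R.Good G l) {w₁ z : V₀} (hz : TI B₀ z w₁) {t : V}
    (ht : t ∈ tvX R.H G) (ht1 : B (E w₁) t = 1) (c : F) :
    ∃ β : F, t + c • E z + β • E w₁ ∈ tvX R.H G := by
  have := tvX_map R.H ht (hK c z w₁ hz) (S_isom R.H _ _)
  rw [S_apply ((R.ti hz).smul_left c), ht1, one_smul, sub_eq_add_neg, ← neg_smul] at this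
  exact ⟨_, this⟩

lemma tv_all [Finite F] [Finite F₀] [FiniteDimensional F₀ V₀] (R : RatU B B₀ E) (hK : ∀ l, R.Good G l)
    {v : V} (hv : B v v = 0) : v ∈ tvX R.H G := by
  classical
  have hdim := R.dim
  by_cases hv0 : v = 0
  · subst hv0
    have := R.mem_tvX hK (w := 0) (by simp)
    rwa [R.E_zero] at this
  -- a rational isotropic vector not orthogonal to `v`
  obtain ⟨w₁, hw₁, hw₁v⟩ : ∃ w₁ : V₀, B₀ w₁ w₁ = 0 ∧ B (E w₁) v ≠ 0 := by
    by_contra hcon
    push Not at hcon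
    apply hv0
    apply R.eq_zero_of_perp
    intro x
    obtain ⟨z₁, -, z₂, -, s₁, s₂, h1, h2, rfl⟩ := exists_two_isotropic R.H₀ ⊥ (by simp; omega)
      (x := x) (by intro u hu; rw [(Submodule.mem_bot _).1 hu]; simp)
    rw [R.add, R.smul, R.smul, map_add, map_smul, map_smul, R.H.eq_zero_comm.1 (hcon z₁ h1),
      R.H.eq_zero_comm.1 (hcon z₂ h2)]
    simp
  have hw₁0 : w₁ ≠ 0 := by
    rintro rfl
    rw [R.E_zero] at hw₁v
    simp at hw₁v
  obtain ⟨w₁', -, hw₁', hww⟩ := R.exists_dual ⊥ hw₁ (by simpa using hw₁0)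
    (by intro u hu; rw [(Submodule.mem_bot _).1 hu]; simp)
  have hww' : B₀ w₁' w₁ = 1 := by rw [← R.H₀.symm, hww, map_one]
  have hWW : B (E w₁) (E w₁') = 1 := by rw [R.form, hww]; rfl
  have hWW' : B (E w₁') (E w₁) = 1 := by rw [R.form, hww']; rfl
  have hW1 : B (E w₁) (E w₁) = 0 := R.perp hw₁
  have hW1' : B (E w₁') (E w₁') = 0 := R.perp hw₁'
  set U : Submodule F₀ V₀ := Submodule.span F₀ {w₁, w₁'} with hU
  have hU2 : finrank F₀ U ≤ 2 := by
    have := finrank_span_finset_le_card (R := F₀) ({w₁, w₁'} : Finset V₀)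
    have h2 : ({w₁, w₁'} : Finset V₀).card ≤ 2 := Finset.card_le_two
    simp only [Finset.coe_insert, Finset.coe_singleton] at this
    exact this.trans h2
  -- the projection
  let π : V → V := fun u => u - B (E w₁') u • E w₁ - B (E w₁) u • E w₁'
  have hπ1 : ∀ u, B (E w₁) (π u) = 0 := by
    intro u
    simp only [π, map_sub, map_smul, hW1, hWW, smul_eq_mul]
    ring
  have key : ∀ u : V, ∀ t ∈ tvX R.H G, B (E w₁) t = 1 → ∃ β : F, t + π u + β • E w₁ ∈ tvX R.H G := by
    intro u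
    have hu : u ∈ Submodule.span F (Set.range E) := R.span ▸ Submodule.mem_top
    induction hu using Submodule.closure_induction with
    | zero =>
      intro t ht _
      exact ⟨0, by simpa [π] using ht⟩
    | add x y _ _ hx hy =>
      intro t ht ht1
      obtain ⟨β, hβ⟩ := hx t ht ht1
      obtain ⟨β', hβ'⟩ := hy _ hβ (by
        rw [map_add, map_add, ht1, hπ1, map_smul, hW1]; simp)
      refine ⟨β + β', ?_⟩
      have : t + π (x + y) + (β + β') • E w₁ = t + π x + β • E w₁ + π y + β' • E w₁ := by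
        simp only [π, map_add]
        module
      rw [this]; exact hβ'
    | smul_mem r x hx =>
      obtain ⟨x, rfl⟩ := hx
      intro t ht ht1
      set x' : V₀ := x - B₀ w₁' x • w₁ - B₀ w₁ x • w₁' with hx'
      have hx'U : x' ∈ Cfsg.Agent.Lib.Helper94.U.perp B₀ U := by
        intro u hu
        obtain ⟨a, b, rfl⟩ := Submodule.mem_span_pair.1 hu
        simp only [hx', map_add, map_sub, map_smul, map_smulₛₗ, LinearMap.add_apply, LinearMap.smul_apply,
          smul_eq_mul, hw₁, hw₁', hww, hww']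
        ring
      obtain ⟨z₁, hz₁, z₂, hz₂, s₁, s₂, h1, h2, hxz⟩ := exists_two_isotropic R.H₀ U (by omega) hx'U
      have hπx : π (r • E x) = (r * s₁) • E z₁ + (r * s₂) • E z₂ := by
        have : π (r • E x) = r • E x' := by
          simp only [π, hx', R.E_sub, R.smul, map_smul, R.form, smul_eq_mul]
          module
        rw [this, hxz, R.add, R.smul, R.smul]
        module
      have hz₁w : B₀ w₁ z₁ = 0 := hz₁ w₁ (Submodule.subset_span (by simp))
      have hz₂w : B₀ w₁ z₂ = 0 := hz₂ w₁ (Submodule.subset_span (by simp))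
      obtain ⟨β, hβ⟩ := R.tv_step hK (TI_symm (mkTI R.H₀ hw₁ h1 hz₁w)) ht ht1 (r * s₁)
      obtain ⟨β', hβ'⟩ := R.tv_step hK (TI_symm (mkTI R.H₀ hw₁ h2 hz₂w)) hβ (by
        rw [map_add, map_add, ht1, map_smul, map_smul, hW1, R.perp hz₁w]; simp) (r * s₂)
      refine ⟨β + β', ?_⟩
      rw [hπx]
      have : t + ((r * ↑s₁) • E z₁ + (r * ↑s₂) • E z₂) + (β + β') • E w₁ =
          t + (r * ↑s₁) • E z₁ + β • E w₁ + (r * ↑s₂) • E z₂ + β' • E w₁ := by module
      rw [this]; exact hβ'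
  -- conclusion
  set v' := (B (E w₁) v)⁻¹ • v with hv'
  have hv'1 : B (E w₁) v' = 1 := by rw [hv', map_smul, smul_eq_mul, inv_mul_cancel₀ hw₁v]
  have hv'v' : B v' v' = 0 := by rw [hv', R.H.norm_smul, hv, mul_zero]
  obtain ⟨β, hβ⟩ := key v' (E w₁') (R.mem_tvX hK hw₁') hWW
  have e : v' = E w₁' + π v' + β • E w₁ + (B (E w₁') v' - β) • E w₁ := by
    simp only [π, hv'1]
    module
  have h3 : v' ∈ tvX R.H G := by
    rw [e]
    refine tvX_line R.H (R.mem_tvX hK hw₁) hβ ?_ _ ?_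
    · rw [map_add, map_add, hWW, hπ1, map_smul, hW1]; simp
    · rw [← e]; exact hv'v'
  have := tvX_smul R.H h3 (B (E w₁) v)
  rwa [hv', smul_smul, mul_inv_cancel₀ hw₁v, one_smul] at this

end RatU

end Cfsg.Agent.Lib.Helper57.SUSub
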