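import Mathlib
import Cfsg.Agent.Lib.Helper57.SUc

set_option autoImplicit false
set_option linter.unusedSimpArgs false
set_option linter.unusedVariables false

/-! The case where only rational multipliers are good: incidence lemmas. -/

namespace Cfsg.Agent.Lib.Helper57.SUSub

open Module Cfsg.Agent.Lib.Helper94 Cfsg.Agent.Lib.Helper94.U

variable {F V : Type*} [Field F] [AddCommGroup V] [Module F V]
variable {F₀ : Subfield F} {V₀ : Type*} [AddCommGroup V₀] [Module F₀ V₀]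
variable {σ : F →+* F} {B : V →ₛₗ[σ] V →ₗ[F] F}
variable {σ₀ : F₀ →+* F₀} {B₀ : V₀ →ₛₗ[σ₀] V₀ →ₗ[F₀] F₀} {E : V₀ → V}
variable {G : Subgroup (V ≃ₗ[F] V)}

namespace RatU

lemma sig_mem (R : RatU B B₀ E) {a : F} (ha : a ∈ F₀) : σ a ∈ F₀ := by
  have := R.sig ⟨a, ha⟩
  rw [this]
  exact (σ₀ ⟨a, ha⟩).2

lemma rat_of_vals [Finite F₀] [FiniteDimensional F₀ V₀] (R : RatU B B₀ E) (v : V)
    (h : ∀ x, B v (E x) ∈ F₀) : ∃ y, v = E y := by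
  let φ : V₀ →ₗ[F₀] F₀ :=
    { toFun := fun x => ⟨B v (E x), h x⟩
      map_add' := by intro x y; apply Subtype.ext; simp [R.add]
      map_smul' := by intro a x; apply Subtype.ext; simp [R.smul] }
  obtain ⟨b, hb⟩ := exists_repr R.H₀ φ
  refine ⟨b, ?_⟩
  rw [← sub_eq_zero]
  apply R.eq_zero_of_perp
  intro x
  rw [map_sub, LinearMap.sub_apply, R.form, ← hb]
  simp [φ]

lemma rat_of_vals_iso [Finite F₀] [FiniteDimensional F₀ V₀] (R : RatU B B₀ E) (v : V)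
    (h : ∀ x, B₀ x x = 0 → B v (E x) ∈ F₀) : ∃ y, v = E y := by
  have hdim := R.dim
  apply R.rat_of_vals
  intro x
  obtain ⟨z₁, -, z₂, -, s₁, s₂, h1, h2, rfl⟩ := exists_two_isotropic R.H₀ ⊥ (by simp; omega)
    (x := x) (by intro u hu; rw [(Submodule.mem_bot _).1 hu]; simp)
  rw [R.add, R.smul, R.smul, map_add, map_smul, map_smul]
  exact F₀.add_mem (F₀.mul_mem s₁.2 (h z₁ h1)) (F₀.mul_mem s₂.2 (h z₂ h2))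

end RatU

lemma Fr.h11' (H₀ : HForm σ₀ B₀) {w₁ w₂ f₁ f₂ : V₀} (h : Fr B₀ w₁ w₂ f₁ f₂) : B₀ f₁ w₁ = 1 := by
  rw [← H₀.symm, h.h11, map_one]

lemma Fr.h22' (H₀ : HForm σ₀ B₀) {w₁ w₂ f₁ f₂ : V₀} (h : Fr B₀ w₁ w₂ f₁ f₂) : B₀ f₂ w₂ = 1 := by
  rw [← H₀.symm, h.h22, map_one]

lemma Fr.h12' (H₀ : HForm σ₀ B₀) {w₁ w₂ f₁ f₂ : V₀} (h : Fr B₀ w₁ w₂ f₁ f₂) : B₀ f₂ w₁ = 0 :=
  H₀.eq_zero_comm.1 h.h12

lemma Fr.h21' (H₀ : HForm σ₀ B₀) {w₁ w₂ f₁ f₂ : V₀} (h : Fr B₀ w₁ w₂ f₁ f₂) : B₀ f₁ w₂ = 0 :=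
  H₀.eq_zero_comm.1 h.h21

lemma Fr.swap {w₁ w₂ f₁ f₂ : V₀} (h : Fr B₀ w₁ w₂ f₁ f₂) : Fr B₀ w₂ w₁ f₂ f₁ :=
  ⟨TI_symm h.ww, TI_symm h.ff, h.h22, h.h11, h.h21, h.h12⟩

namespace RatU

/-- a transvection of `G` whose centre lies on a rational totally isotropic line has a rational
centre (up to a scalar): coordinate form. -/
lemma line_vals [Finite F₀] [FiniteDimensional F₀ V₀] (R : RatU B B₀ E) (hG : HG B E G)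
    (hK : ∀ l, R.Good G l → l ∈ F₀) {w₁ w₂ f₁ f₂ : V₀} (hF : Fr B₀ w₁ w₂ f₁ f₂) {α β a : F}
    (ha : a + σ a = 0) (hT : T R.H (α • E w₁ + β • E w₂) a ∈ G) :
    σ α * (a * β) ∈ F₀ ∧ σ α * (a * α) ∈ F₀ := by
  classical
  have H₀ := R.H₀
  obtain ⟨y₂, g₂, h2, hy₂, hg₂, hyg₂⟩ := R.exists_hyp {w₁, w₂, f₁, f₂}
    (Finset.card_le_four.trans (by norm_num))
  obtain ⟨y₃, g₃, h3, hy₃, hg₃, hyg₃⟩ := R.exists_hyp {w₁, w₂, f₂, y₂, g₂} Finset.card_le_five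
  obtain ⟨y₄, g₄, h4, hy₄, hg₄, hyg₄⟩ := R.exists_hyp {w₁, w₂, f₁, y₂, g₂} Finset.card_le_five
  obtain ⟨a1, -⟩ := h2 w₁ (by simp)
  obtain ⟨a2, -⟩ := h2 w₂ (by simp)
  obtain ⟨a3, -⟩ := h2 f₁ (by simp)
  obtain ⟨a4, -⟩ := h2 f₂ (by simp)
  obtain ⟨b1, -⟩ := h3 w₁ (by simp)
  obtain ⟨b2, -⟩ := h3 w₂ (by simp)
  obtain ⟨b3, -⟩ := h3 f₂ (by simp)
  obtain ⟨b4, b4'⟩ := h3 y₂ (by simp)
  obtain ⟨b5, b5'⟩ := h3 g₂ (by simp)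
  obtain ⟨c1, -⟩ := h4 w₁ (by simp)
  obtain ⟨c2, -⟩ := h4 w₂ (by simp)
  obtain ⟨c3, -⟩ := h4 f₁ (by simp)
  obtain ⟨c4, c4'⟩ := h4 y₂ (by simp)
  obtain ⟨c5, c5'⟩ := h4 g₂ (by simp)
  set u := α • E w₁ + β • E w₂ with hu
  have tu : ∀ y : V₀, B₀ y y = 0 → B₀ w₁ y = 0 → B₀ w₂ y = 0 → TI B u (E y) := by
    intro y hy h1 h2
    exact TI_add_left ((R.ti (mkTI H₀ hF.ww.aa hy h1)).smul_left α)
      ((R.ti (mkTI H₀ hF.ww.bb hy h2)).smul_left β) (((R.ti hF.ww).smul_left α).smul_right β)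
  have e1 : ∀ y : V₀, B₀ y y = 0 → B₀ w₁ y = 0 → B₀ w₂ y = 0 → B₀ f₁ y = 0 →
      S B (E y) (E f₁) u = u + α • E y := by
    intro y hy h1 h2 h3
    rw [S_apply (R.ti (TI_symm (mkTI H₀ hF.ff.aa hy h3)))]
    simp only [hu, map_add, map_smul, R.form, hF.h11' H₀, hF.h21' H₀, H₀.eq_zero_comm.1 h1,
      H₀.eq_zero_comm.1 h2]
    simp
  have e2 : S B (E y₃) (E f₂) u = u + β • E y₃ := by
    rw [S_apply (R.ti (TI_symm (mkTI H₀ hF.ff.bb hy₃ b3)))]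
    simp only [hu, map_add, map_smul, R.form, hF.h22' H₀, hF.h12' H₀, H₀.eq_zero_comm.1 b1,
      H₀.eq_zero_comm.1 b2]
    simp
  have e3 : S B (E y₃) (E f₂) (E y₂) = E y₂ := by
    rw [S_apply (R.ti (TI_symm (mkTI H₀ hF.ff.bb hy₃ b3))), R.perp a4, R.perp (H₀.eq_zero_comm.1 b4)]
    simp
  have e4 : S B (E y₄) (E f₁) (E y₂) = E y₂ := by
    rw [S_apply (R.ti (TI_symm (mkTI H₀ hF.ff.aa hy₄ c3))), R.perp a3, R.perp (H₀.eq_zero_comm.1 c4)]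
    simp
  have k1 := chainU R.H ha hT (R.S_rat hG (TI_symm (mkTI H₀ hF.ff.aa hy₂ a3))) (S_isom R.H _ _)
    (R.S_rat hG (TI_symm (mkTI H₀ hF.ff.bb hy₃ b3))) (S_isom R.H _ _) (e1 y₂ hy₂ a1 a2 a3) e3 e2
    (tu y₂ hy₂ a1 a2) (tu y₃ hy₃ b1 b2) (R.ti (TI_symm (mkTI H₀ hy₂ hy₃ b4)))
  have k2 := chainU R.H ha hT (R.S_rat hG (TI_symm (mkTI H₀ hF.ff.aa hy₂ a3))) (S_isom R.H _ _)
    (R.S_rat hG (TI_symm (mkTI H₀ hF.ff.aa hy₄ c3))) (S_isom R.H _ _) (e1 y₂ hy₂ a1 a2 a3) e4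
    (e1 y₄ hy₄ c1 c2 c3) (tu y₂ hy₂ a1 a2) (tu y₄ hy₄ c1 c2) (R.ti (TI_symm (mkTI H₀ hy₂ hy₄ c4)))
  have m1 := hK _ (R.good_of_frame hG (a := y₃) (b := y₂) (fa := g₃) (fb := g₂)
    ⟨TI_symm (mkTI H₀ hy₂ hy₃ b4), TI_symm (mkTI H₀ hg₂ hg₃ b5'), hyg₃, hyg₂, H₀.eq_zero_comm.1 b5, b4'⟩ k1)
  have m2 := hK _ (R.good_of_frame hG (a := y₄) (b := y₂) (fa := g₄) (fb := g₂)
    ⟨TI_symm (mkTI H₀ hy₂ hy₄ c4), TI_symm (mkTI H₀ hg₂ hg₄ c5'), hyg₄, hyg₂, H₀.eq_zero_comm.1 c5, c4'⟩ k2)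
  exact ⟨m1, m2⟩

end RatU

end Cfsg.Agent.Lib.Helper57.SUSub
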