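import Mathlib
import Cfsg.Agent.Lib.Helper57.SUd

set_option autoImplicit false
set_option linter.unusedSimpArgs false
set_option linter.unusedVariables false

/-! Elements of `G` stabilising a rational totally isotropic line and fixing a non-rational point. -/

namespace Cfsg.Agent.Lib.Helper57.SUSub

open Module Cfsg.Agent.Lib.Helper94 Cfsg.Agent.Lib.Helper94.U

variable {F V : Type*} [Field F] [AddCommGroup V] [Module F V]
variable {F₀ : Subfield F} {V₀ : Type*} [AddCommGroup V₀] [Module F₀ V₀]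
variable {σ : F →+* F} {B : V →ₛₗ[σ] V →ₗ[F] F}
variable {σ₀ : F₀ →+* F₀} {B₀ : V₀ →ₛₗ[σ₀] V₀ →ₗ[F₀] F₀} {E : V₀ → V}
variable {G : Subgroup (V ≃ₗ[F] V)}

/-- no element outside `F₀` is quadratic over `F₀` -/
def NoQuad (F₀ : Subfield F) : Prop :=
  ∀ θ : F, θ ∉ F₀ → ∀ b e c : F, b ∈ F₀ → e ∈ F₀ → c ∈ F₀ → b * θ ^ 2 + e * θ + c = 0 →
    b = 0 ∧ e = 0 ∧ c = 0

namespace RatU

/-- the `ω`-trick -/
lemma mem_of_two (R : RatU B B₀ E) {P P' : F} (h1 : P + P' ∈ F₀)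
    (h2 : ∀ w : F, w ∈ F₀ → w * P + σ w * P' ∈ F₀) : P ∈ F₀ ∧ P' ∈ F₀ := by
  obtain ⟨ω, hω⟩ := R.H₀.exists_not_fixed
  have hw := h2 ω ω.2
  have hsw : σ (ω : F) ∈ F₀ := R.sig_mem ω.2
  have hne : (ω : F) - σ (ω : F) ≠ 0 := by
    intro h
    apply hω
    apply Subtype.ext
    rw [← R.sig]
    exact (sub_eq_zero.1 h).symm
  have h3 : ((ω : F) - σ (ω : F)) * P ∈ F₀ := by
    have : ((ω : F) - σ (ω : F)) * P = ((ω : F) * P + σ (ω : F) * P') - σ (ω : F) * (P + P') := by ring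
    rw [this]
    exact F₀.sub_mem hw (F₀.mul_mem hsw h1)
  have hP : P ∈ F₀ := by
    have : P = ((ω : F) - σ (ω : F))⁻¹ * (((ω : F) - σ (ω : F)) * P) := by
      field_simp
    rw [this]
    exact F₀.mul_mem (F₀.inv_mem (F₀.sub_mem ω.2 hsw)) h3
  refine ⟨hP, ?_⟩
  have : P' = (P + P') - P := by ring
  rw [this]
  exact F₀.sub_mem h1 hP

lemma pol (R : RatU B B₀ E) {p₁ p₂ q₁ q₂ : F}
    (h : ∀ x : F, x ∈ F₀ → σ (p₁ + x * p₂) * (q₁ + x * q₂) ∈ F₀) (h2 : σ p₂ * q₂ ∈ F₀) :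
    σ p₁ * q₂ ∈ F₀ ∧ σ p₂ * q₁ ∈ F₀ := by
  have h0 : σ p₁ * q₁ ∈ F₀ := by
    have := h 0 F₀.zero_mem
    simpa using this
  have key : ∀ w : F, w ∈ F₀ → w * (σ p₁ * q₂) + σ w * (σ p₂ * q₁) ∈ F₀ := by
    intro w hw
    have := h w hw
    have e : w * (σ p₁ * q₂) + σ w * (σ p₂ * q₁) =
        σ (p₁ + w * p₂) * (q₁ + w * q₂) - σ p₁ * q₁ - σ w * w * (σ p₂ * q₂) := by
      rw [map_add, map_mul]; ring
    rw [e]
    exact F₀.sub_mem (F₀.sub_mem this h0) (F₀.mul_mem (F₀.mul_mem (R.sig_mem hw) hw) h2)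
  refine R.mem_of_two ?_ key
  have := key 1 F₀.one_mem
  simpa using this

lemma exists_eps (R : RatU B B₀ E) : ∃ ε : F, ε ∈ F₀ ∧ ε ≠ 0 ∧ ε + σ ε = 0 := by
  obtain ⟨ε, h0, h1⟩ := R.H₀.exists_skew
  refine ⟨ε, ε.2, fun h => h0 (Subtype.ext h), ?_⟩
  rw [R.sig]
  exact congrArg Subtype.val h1

lemma fix_line [FiniteDimensional F V] [Finite F₀] [FiniteDimensional F₀ V₀] (R : RatU B B₀ E)
    (hG : HG B E G)
    (hK : ∀ l, R.Good G l → l ∈ F₀) (hQ : NoQuad F₀) {w₁ w₂ f₁ f₂ : V₀} (hF : Fr B₀ w₁ w₂ f₁ f₂)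
    {m : V ≃ₗ[F] V} (hm : m ∈ G) (hmI : UIsom B m) {α₁ β₁ α₂ β₂ θ : F}
    (h1 : m (E w₁) = α₁ • E w₁ + β₁ • E w₂) (h2 : m (E w₂) = α₂ • E w₁ + β₂ • E w₂) (hθ : θ ∉ F₀)
    (hz : m (E w₁ + θ • E w₂) = E w₁ + θ • E w₂) : m (E w₁) = E w₁ ∧ m (E w₂) = E w₂ := by
  have H₀ := R.H₀
  obtain ⟨ε, hε, hε0, hεs⟩ := R.exists_eps
  -- values
  have vals : ∀ α β : F, T R.H (α • E w₁ + β • E w₂) ε ∈ G →
      σ α * α ∈ F₀ ∧ σ α * β ∈ F₀ ∧ σ β * α ∈ F₀ ∧ σ β * β ∈ F₀ := by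
    intro α β hT
    obtain ⟨k1, k2⟩ := R.line_vals hG hK hF hεs hT
    rw [add_comm] at hT
    obtain ⟨k3, k4⟩ := R.line_vals hG hK hF.swap hεs hT
    have hdiv : ∀ t : F, ε * t ∈ F₀ → t ∈ F₀ := by
      intro t ht
      have : t = ε⁻¹ * (ε * t) := by field_simp
      rw [this]
      exact F₀.mul_mem (F₀.inv_mem hε) ht
    refine ⟨hdiv _ ?_, hdiv _ ?_, hdiv _ ?_, hdiv _ ?_⟩
    · convert k2 using 1; ring
    · convert k1 using 1; ring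
    · convert k3 using 1; ring
    · convert k4 using 1; ring
  have hx : ∀ x : F, x ∈ F₀ → T R.H ((α₁ + x * α₂) • E w₁ + (β₁ + x * β₂) • E w₂) ε ∈ G := by
    intro x hx
    have hiso : B₀ (w₁ + (⟨x, hx⟩ : F₀) • w₂) (w₁ + (⟨x, hx⟩ : F₀) • w₂) = 0 := by
      simp [hF.ww.aa, hF.ww.bb, hF.ww.ab, hF.ww.ba]
    have := T_mem_conj R.H hmI hm (R.T_rat hG hiso hε hεs)
    rw [R.add, R.smul, map_add, map_smul, h1, h2] at this
    convert this using 2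
    simp only [smul_add, smul_smul, add_smul]
    abel
  have v2 : T R.H (α₂ • E w₁ + β₂ • E w₂) ε ∈ G := by
    have := T_mem_conj R.H hmI hm (R.T_rat hG hF.ww.bb hε hεs)
    rwa [h2] at this
  obtain ⟨a22, ab22, ba22, b22⟩ := vals _ _ v2
  have pαα := R.pol (p₁ := α₁) (p₂ := α₂) (q₁ := α₁) (q₂ := α₂) (fun x hxx => (vals _ _ (hx x hxx)).1) a22
  have pαβ := R.pol (p₁ := α₁) (p₂ := α₂) (q₁ := β₁) (q₂ := β₂) (fun x hxx => (vals _ _ (hx x hxx)).2.1) ab22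
  have pβα := R.pol (p₁ := β₁) (p₂ := β₂) (q₁ := α₁) (q₂ := α₂) (fun x hxx => (vals _ _ (hx x hxx)).2.2.1) ba22
  have pββ := R.pol (p₁ := β₁) (p₂ := β₂) (q₁ := β₁) (q₂ := β₂) (fun x hxx => (vals _ _ (hx x hxx)).2.2.2) b22
  obtain ⟨-, -, ba11, b11⟩ := vals α₁ β₁ (by
    have := hx 0 F₀.zero_mem
    simpa using this)
  -- coordinates of the fixed vector
  rw [map_add, map_smul, h1, h2] at hz
  have c1 : α₁ + θ * α₂ = 1 := by
    have := congrArg (fun t => B (E f₁) t) hz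
    simp only [map_add, map_smul, R.form, hF.h11' H₀, hF.h21' H₀, smul_eq_mul] at this
    simpa using this
  have c2 : β₁ + θ * β₂ = θ := by
    have := congrArg (fun t => B (E f₂) t) hz
    simp only [map_add, map_smul, R.form, hF.h22' H₀, hF.h12' H₀, smul_eq_mul] at this
    simpa using this
  have quad : ∀ e : F, (σ e * α₂) * θ ^ 2 + (σ e * α₁ - σ e * β₂) * θ + (-(σ e * β₁)) = 0 := by
    intro e
    linear_combination (σ e * θ) * c1 - σ e * c2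
  have q1 := hQ θ hθ _ _ _ a22 (F₀.sub_mem pαα.2 ab22) (F₀.neg_mem pαβ.2) (quad α₂)
  have q2 := hQ θ hθ _ _ _ pβα.1 (F₀.sub_mem ba11 pββ.1) (F₀.neg_mem b11) (quad β₁)
  have hα₂ : α₂ = 0 := by
    by_contra h
    exact (mul_ne_zero (R.H.sigma_ne_zero h) h) q1.1
  have hβ₁ : β₁ = 0 := by
    by_contra h
    exact (mul_ne_zero (R.H.sigma_ne_zero h) h) (neg_eq_zero.1 q2.2.2)
  have hθ0 : θ ≠ 0 := by
    rintro rfl
    exact hθ F₀.zero_mem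
  have hα₁ : α₁ = 1 := by rw [hα₂] at c1; simpa using c1
  have hβ₂ : β₂ = 1 := by
    rw [hβ₁, zero_add] at c2
    exact mul_left_cancel₀ hθ0 (by rw [c2, mul_one])
  constructor
  · rw [h1, hα₁, hβ₁]; simp
  · rw [h2, hα₂, hβ₂]; simp

end RatU

end Cfsg.Agent.Lib.Helper57.SUSub
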