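import Mathlib
import Cfsg.Agent.Lib.Helper57.SUe
import Cfsg.Agent.Lib.Helper57.SUf

set_option autoImplicit false
set_option linter.unusedSimpArgs false
set_option linter.unusedVariables false

/-! The counting argument: the general position case. -/

namespace Cfsg.Agent.Lib.Helper57.SUSub

open Module Cfsg.Agent.Lib.Helper94 Cfsg.Agent.Lib.Helper94.U

variable {F V : Type*} [Field F] [AddCommGroup V] [Module F V]
variable {F₀ : Subfield F} {V₀ : Type*} [AddCommGroup V₀] [Module F₀ V₀]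
variable {σ : F →+* F} {B : V →ₛₗ[σ] V →ₗ[F] F}
variable {σ₀ : F₀ →+* F₀} {B₀ : V₀ →ₛₗ[σ₀] V₀ →ₗ[F₀] F₀} {E : V₀ → V}
variable {G : Subgroup (V ≃ₗ[F] V)}

/-- elements of `G` acting trivially on `V / W` -/
def Dg (G : Subgroup (V ≃ₗ[F] V)) (W : Submodule F V) : Subgroup (V ≃ₗ[F] V) where
  carrier := {m | m ∈ G ∧ ∀ x, m x - x ∈ W}
  mul_mem' := by
    rintro m m' ⟨hm, hm'⟩ ⟨hn, hn'⟩
    refine ⟨G.mul_mem hm hn, fun x => ?_⟩
    have : (m * m') x - x = (m (m' x) - m' x) + (m' x - x) := by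
      rw [LinearEquiv.mul_apply]; abel
    rw [this]
    exact W.add_mem (hm' _) (hn' _)
  one_mem' := ⟨G.one_mem, fun x => by simp⟩
  inv_mem' := by
    rintro m ⟨hm, hm'⟩
    refine ⟨G.inv_mem hm, fun x => ?_⟩
    have : m⁻¹ x - x = -(m (m⁻¹ x) - m⁻¹ x) := by
      rw [apply_inv_self']; abel
    rw [this]
    exact W.neg_mem (hm' _)

/-- those fixing two vectors -/
def Xg (G : Subgroup (V ≃ₗ[F] V)) (W : Submodule F V) (a b : V) : Subgroup (V ≃ₗ[F] V) where
  carrier := {m | m ∈ Dg G W ∧ m a = a ∧ m b = b}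
  mul_mem' := by
    rintro m m' ⟨hm, h1, h2⟩ ⟨hn, h3, h4⟩
    exact ⟨(Dg G W).mul_mem hm hn, by rw [LinearEquiv.mul_apply, h3, h1],
      by rw [LinearEquiv.mul_apply, h4, h2]⟩
  one_mem' := ⟨(Dg G W).one_mem, rfl, rfl⟩
  inv_mem' := by
    rintro m ⟨hm, h1, h2⟩
    refine ⟨(Dg G W).inv_mem hm, ?_, ?_⟩
    · conv_lhs => rw [← h1]
      exact inv_apply_self' _ _
    · conv_lhs => rw [← h2]
      exact inv_apply_self' _ _

/-- those fixing a third vector -/
def Kg (G : Subgroup (V ≃ₗ[F] V)) (W : Submodule F V) (a b v : V) : Subgroup (V ≃ₗ[F] V) where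
  carrier := {m | m ∈ Xg G W a b ∧ m v = v}
  mul_mem' := by
    rintro m m' ⟨hm, h1⟩ ⟨hn, h3⟩
    exact ⟨(Xg G W a b).mul_mem hm hn, by rw [LinearEquiv.mul_apply, h3, h1]⟩
  one_mem' := ⟨(Xg G W a b).one_mem, rfl⟩
  inv_mem' := by
    rintro m ⟨hm, h1⟩
    refine ⟨(Xg G W a b).inv_mem hm, ?_⟩
    conv_lhs => rw [← h1]
    exact inv_apply_self' _ _

/-- products of rational transvections with centres `a`, `b` -/
def Ag (F₀ : Subfield F) {a b : V} (h : TI B a b) : Subgroup (V ≃ₗ[F] V) where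
  carrier := {m | ∃ a₁ a₂ : F, a₁ ∈ F₀ ∧ a₂ ∈ F₀ ∧ a₁ + σ a₁ = 0 ∧ a₂ + σ a₂ = 0 ∧
    ∀ x, m x = x + (a₁ * B a x) • a + (a₂ * B b x) • b}
  mul_mem' := by
    rintro m m' ⟨a₁, a₂, h1, h2, h3, h4, h5⟩ ⟨b₁, b₂, k1, k2, k3, k4, k5⟩
    refine ⟨a₁ + b₁, a₂ + b₂, F₀.add_mem h1 k1, F₀.add_mem h2 k2, by rw [map_add]; linear_combination h3 + k3,
      by rw [map_add]; linear_combination h4 + k4, fun x => ?_⟩
    rw [LinearEquiv.mul_apply, h5, k5]
    simp only [map_add, map_smul, smul_eq_mul, h.aa, h.bb, h.ab, h.ba]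
    module
  one_mem' := ⟨0, 0, F₀.zero_mem, F₀.zero_mem, by simp, by simp, fun x => by simp⟩
  inv_mem' := by
    rintro m ⟨a₁, a₂, h1, h2, h3, h4, h5⟩
    refine ⟨-a₁, -a₂, F₀.neg_mem h1, F₀.neg_mem h2, by rw [map_neg]; linear_combination -h3,
      by rw [map_neg]; linear_combination -h4, fun x => ?_⟩
    apply m.injective
    rw [apply_inv_self', h5]
    simp only [map_add, map_smul, smul_eq_mul, h.aa, h.bb, h.ab, h.ba]
    module

/-- trace of a linear equivalence -/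
noncomputable def tr' (m : V ≃ₗ[F] V) : F := LinearMap.trace F V (m : V →ₗ[F] V)

lemma tr'_conj (d x : V ≃ₗ[F] V) : tr' (d * x * d⁻¹) = tr' x := by
  unfold tr'
  have : ((d * x * d⁻¹ : V ≃ₗ[F] V) : V →ₗ[F] V) = d.conj (x : V →ₗ[F] V) := by
    ext y
    rw [LinearEquiv.conj_apply]
    rfl
  rw [this, LinearMap.trace_conj']

/-- the configuration to be refuted -/
structure Ctx (R : RatU B B₀ E) (G : Subgroup (V ≃ₗ[F] V)) (w₁ w₂ f₁ f₂ : V₀) (v : V) : Prop where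
  hG : HG B E G
  hGI : ∀ g ∈ G, UIsom B g
  hK : ∀ l, R.Good G l → l ∈ F₀
  hQ : NoQuad F₀
  hF : Fr B₀ w₁ w₂ f₁ f₂
  hv : B v v = 0
  hl2 : B (E w₂) v ≠ 0
  hcon : (B (E w₁) v * σ (B (E w₁) v)) / (B (E w₂) v * σ (B (E w₂) v)) ∉ F₀

namespace Ctx

variable {R : RatU B B₀ E} {w₁ w₂ f₁ f₂ : V₀} {v : V}

lemma hl1 (C : Ctx R G w₁ w₂ f₁ f₂ v) : B (E w₁) v ≠ 0 := by
  intro h
  apply C.hcon
  rw [h]
  simp

lemma fix_z (C : Ctx R G w₁ w₂ f₁ f₂ v) {m : V ≃ₗ[F] V}
    (hm : m ∈ Dg G (Submodule.span F {E w₁, E w₂, v})) :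
    m (σ (B (E w₂) v) • E w₁ - σ (B (E w₁) v) • E w₂) =
      σ (B (E w₂) v) • E w₁ - σ (B (E w₁) v) • E w₂ := by
  set z := σ (B (E w₂) v) • E w₁ - σ (B (E w₁) v) • E w₂ with hz
  have hI := C.hGI m hm.1
  have ht := R.ti C.hF.ww
  have hzW : ∀ t ∈ Submodule.span F {E w₁, E w₂, v}, B z t = 0 := by
    intro t ht'
    obtain ⟨a, b, c, rfl⟩ := Submodule.mem_span_triple.1 ht'
    simp only [hz, map_add, map_sub, map_smul, map_smulₛₗ, LinearMap.sub_apply, LinearMap.smul_apply,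
      smul_eq_mul, ht.aa, ht.bb, ht.ab, ht.ba, R.H.invol]
    ring
  rw [← sub_eq_zero]
  apply R.H.nondeg
  intro y
  have hy : y = m (m⁻¹ y) := (apply_inv_self' _ _).symm
  rw [map_sub, LinearMap.sub_apply]
  conv_lhs => rw [hy]
  rw [hI, ← map_sub, ← neg_sub, map_neg, hzW _ (hm.2 _), neg_zero]

lemma theta_not_mem (C : Ctx R G w₁ w₂ f₁ f₂ v) : -(σ (B (E w₁) v) / σ (B (E w₂) v)) ∉ F₀ := by
  intro h
  apply C.hcon
  have h2 := F₀.mul_mem h (R.sig_mem h)
  have hs := R.H.sigma_ne_zero C.hl2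
  have : (B (E w₁) v * σ (B (E w₁) v)) / (B (E w₂) v * σ (B (E w₂) v)) =
      -(σ (B (E w₁) v) / σ (B (E w₂) v)) * σ (-(σ (B (E w₁) v) / σ (B (E w₂) v))) := by
    rw [map_neg, map_div₀, R.H.invol, R.H.invol]
    have := C.hl2
    field_simp
  rw [this]
  exact h2

lemma D_form [FiniteDimensional F V] [Finite F₀] [FiniteDimensional F₀ V₀]
    (C : Ctx R G w₁ w₂ f₁ f₂ v) {m : V ≃ₗ[F] V}
    (hm : m ∈ Dg G (Submodule.span F {E w₁, E w₂, v})) :
    ∃ γ p₁ q₁ p₂ q₂ : F, m (E w₁) = p₁ • E w₁ + q₁ • E w₂ + (γ * σ (B (E w₁) v)) • v ∧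
      m (E w₂) = p₂ • E w₁ + q₂ • E w₂ + (γ * σ (B (E w₂) v)) • v ∧
      (γ = 0 → m (E w₁) = E w₁ ∧ m (E w₂) = E w₂) := by
  have ht := R.ti C.hF.ww
  have hs := R.H.sigma_ne_zero C.hl2
  obtain ⟨a, b, c, h1⟩ := Submodule.mem_span_triple.1 (hm.2 (E w₁))
  obtain ⟨a', b', c', h2⟩ := Submodule.mem_span_triple.1 (hm.2 (E w₂))
  have e1 : m (E w₁) = (1 + a) • E w₁ + b • E w₂ + c • v := by
    have : m (E w₁) = (m (E w₁) - E w₁) + E w₁ := by abel
    rw [this, ← h1]; module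
  have e2 : m (E w₂) = a' • E w₁ + (1 + b') • E w₂ + c' • v := by
    have : m (E w₂) = (m (E w₂) - E w₂) + E w₂ := by abel
    rw [this, ← h2]; module
  have hz := C.fix_z hm
  have hcc : σ (B (E w₂) v) * c = σ (B (E w₁) v) * c' := by
    have h3 := congrArg (fun t => B (E w₂) t) hz
    simp only [map_sub, map_smul, e1, e2, map_add, ht.aa, ht.bb, ht.ab, ht.ba, smul_eq_mul] at h3
    have h4 : (σ (B (E w₂) v) * c - σ (B (E w₁) v) * c') * B (E w₂) v = 0 := by
      linear_combination h3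
    exact sub_eq_zero.1 ((mul_eq_zero.1 h4).resolve_right C.hl2)
  refine ⟨c' / σ (B (E w₂) v), 1 + a, b, a', 1 + b', ?_, ?_, ?_⟩
  · rw [e1]
    congr 2
    field_simp
    linear_combination hcc
  · rw [e2]
    congr 2
    field_simp
  · intro hγ
    have hc' : c' = 0 := by
      rcases div_eq_zero_iff.1 hγ with h | h
      · exact h
      · exact absurd h hs
    have hc : c = 0 := by
      rw [hc', mul_zero] at hcc
      exact (mul_eq_zero.1 hcc).resolve_left hs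
    rw [hc, zero_smul, add_zero] at e1
    rw [hc', zero_smul, add_zero] at e2
    refine R.fix_line C.hG C.hK C.hQ C.hF hm.1 (C.hGI m hm.1) e1 e2 C.theta_not_mem ?_
    have h5 : E w₁ + -(σ (B (E w₁) v) / σ (B (E w₂) v)) • E w₂ =
        (σ (B (E w₂) v))⁻¹ • (σ (B (E w₂) v) • E w₁ - σ (B (E w₁) v) • E w₂) := by
      rw [smul_sub, smul_smul, smul_smul, inv_mul_cancel₀ hs, one_smul, neg_smul, sub_eq_add_neg]
      congr 3
      field_simp
    rw [h5, map_smul, hz]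

lemma X_tr [FiniteDimensional F V] (C : Ctx R G w₁ w₂ f₁ f₂ v) {x : V ≃ₗ[F] V}
    (hx : x ∈ Xg G (Submodule.span F {E w₁, E w₂, v}) (E w₁) (E w₂)) : tr' x = (finrank F V : F) := by
  have ht := R.ti C.hF.ww
  have hI := C.hGI x hx.1.1
  set N : V →ₗ[F] V := (x : V →ₗ[F] V) - LinearMap.id with hN
  have hNy : ∀ y, ∃ a b : F, N y = a • E w₁ + b • E w₂ := by
    intro y
    obtain ⟨a, b, c, h1⟩ := Submodule.mem_span_triple.1 (hx.1.2 y)
    have h2 : B (E w₂) (x y - y) = 0 := by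
      rw [map_sub]
      conv_lhs => rw [← hx.2.2]
      rw [hI, hx.2.2, sub_self]
    rw [← h1] at h2
    simp only [map_add, map_smul, ht.bb, ht.ba, smul_eq_mul] at h2
    have hc : c = 0 := by
      have : c * B (E w₂) v = 0 := by linear_combination h2
      exact (mul_eq_zero.1 this).resolve_right C.hl2
    refine ⟨a, b, ?_⟩
    have : N y = x y - y := rfl
    rw [this, ← h1, hc]; simp
  have hN1 : N (E w₁) = 0 := by
    have : N (E w₁) = x (E w₁) - E w₁ := rfl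
    rw [this, hx.2.1, sub_self]
  have hN2 : N (E w₂) = 0 := by
    have : N (E w₂) = x (E w₂) - E w₂ := rfl
    rw [this, hx.2.2, sub_self]
  have hnil : IsNilpotent N := by
    refine ⟨2, ?_⟩
    ext y
    obtain ⟨a, b, hab⟩ := hNy y
    rw [pow_two, Module.End.mul_apply, hab, map_add, map_smul, map_smul, hN1, hN2]
    simp
  have h0 : LinearMap.trace F V N = 0 := (LinearMap.isNilpotent_trace_of_isNilpotent hnil).eq_zero
  unfold tr'
  have : (x : V →ₗ[F] V) = N + LinearMap.id := by rw [hN]; abel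
  rw [this, map_add, h0, LinearMap.trace_id, zero_add]

end Ctx

lemma tr'_A [FiniteDimensional F V] {a b : V} {m s : V ≃ₗ[F] V} {a₁ a₂ : F}
    (h : ∀ x, m x = x + (a₁ * B a x) • a + (a₂ * B b x) • b) :
    tr' (m * s) = tr' s + a₁ * B a (s a) + a₂ * B b (s b) := by
  unfold tr'
  have : ((m * s : V ≃ₗ[F] V) : V →ₗ[F] V) = (s : V →ₗ[F] V) +
      (a₁ • (B a).comp (s : V →ₗ[F] V)).smulRight a + (a₂ • (B b).comp (s : V →ₗ[F] V)).smulRight b := by
    ext x
    have : (m * s) x = m (s x) := rfl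
    simp [this, h]
  rw [this, map_add, map_add, LinearMap.trace_smulRight, LinearMap.trace_smulRight]
  simp

namespace Ctx

variable {R : RatU B B₀ E} {w₁ w₂ f₁ f₂ : V₀} {v : V}

/-- the configuration is impossible -/
theorem absurd [Finite F] [FiniteDimensional F V] [Finite F₀] [FiniteDimensional F₀ V₀]
    (C : Ctx R G w₁ w₂ f₁ f₂ v) {a₀ : F} (ha₀ : a₀ + σ a₀ = 0) (ha₀0 : a₀ ≠ 0)
    (hT : T R.H v a₀ ∈ G) : False := by
  classical
  have H₀ := R.H₀
  have ht := R.ti C.hF.ww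
  have hs2 := R.H.sigma_ne_zero C.hl2
  have : Finite V := Module.finite_of_finite F
  have : Finite (V ≃ₗ[F] V) := Finite.of_injective (fun f => (f : V → V)) DFunLike.coe_injective
  set W : Submodule F V := Submodule.span F {E w₁, E w₂, v} with hW
  have hW1 : E w₁ ∈ W := Submodule.subset_span (by simp)
  have hW2 : E w₂ ∈ W := Submodule.subset_span (by simp)
  have hWv : v ∈ W := Submodule.subset_span (by simp)
  obtain ⟨ε, hε, hε0, hεs⟩ := R.exists_eps
  have hAX : Ag F₀ ht ≤ Xg G W (E w₁) (E w₂) := by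
    rintro m ⟨a₁, a₂, h1, h2, h3, h4, h5⟩
    have hmG : m ∈ G := by
      have : m = T R.H (E w₁) a₁ * T R.H (E w₂) a₂ := by
        ext x
        rw [LinearEquiv.mul_apply, T_apply R.H ht.aa h3, T_apply R.H ht.bb h4, h5]
        simp only [map_add, map_smul, smul_eq_mul, ht.ab]
        module
      rw [this]
      exact G.mul_mem (R.T_rat C.hG C.hF.ww.aa h1 h3) (R.T_rat C.hG C.hF.ww.bb h2 h4)
    refine ⟨⟨hmG, fun x => ?_⟩, ?_, ?_⟩
    · rw [h5]
      have : x + (a₁ * B (E w₁) x) • E w₁ + (a₂ * B (E w₂) x) • E w₂ - x =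
          (a₁ * B (E w₁) x) • E w₁ + (a₂ * B (E w₂) x) • E w₂ := by abel
      rw [this]
      exact W.add_mem (W.smul_mem _ hW1) (W.smul_mem _ hW2)
    · rw [h5, ht.aa, ht.ba]; simp
    · rw [h5, ht.ab, ht.bb]; simp
  have hle := count_lemma (Dg G W) (Xg G W (E w₁) (E w₂)) (Ag F₀ ht) (Kg G W (E w₁) (E w₂) v)
    {m | tr' m = (finrank F V : F)} (fun m hm => hm.1) hAX (fun m hm => hm.1) ?_ ?_ ?_ ?_ ?_
  · -- the transvection with centre `v`
    have hTD : T R.H v a₀ ∈ Dg G W := by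
      refine ⟨hT, fun x => ?_⟩
      rw [T_apply R.H C.hv ha₀, add_sub_cancel_left]
      exact W.smul_mem _ hWv
    have h2 := (hle hTD).2.2
    rw [T_apply R.H C.hv ha₀, add_eq_left, smul_eq_zero] at h2
    rcases h2 with h2 | h2
    · rcases mul_eq_zero.1 h2 with h3 | h3
      · exact ha₀0 h3
      · exact C.hl2 (R.H.eq_zero_comm.1 h3)
    · apply C.hl2
      rw [h2, map_zero]
  · -- A ∩ K₀ = 1
    rintro m ⟨a₁, a₂, h1, h2, h3, h4, h5⟩ hK
    have hv := hK.2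
    rw [h5, add_assoc, add_eq_left] at hv
    have c1 := congrArg (fun t => B (E f₁) t) hv
    have c2 := congrArg (fun t => B (E f₂) t) hv
    simp only [map_add, map_smul, R.form, C.hF.h11' H₀, C.hF.h21' H₀, C.hF.h22' H₀, C.hF.h12' H₀,
      smul_eq_mul, map_zero] at c1 c2
    have ha1 : a₁ = 0 := by
      have : a₁ * B (E w₁) v = 0 := by simpa using c1
      exact (mul_eq_zero.1 this).resolve_right C.hl1
    have ha2 : a₂ = 0 := by
      have : a₂ * B (E w₂) v = 0 := by simpa using c2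
      exact (mul_eq_zero.1 this).resolve_right C.hl2
    ext x
    rw [h5, ha1, ha2]; simp
  · -- conjugates of X have trace n
    intro d _ x hx
    change tr' (d * x * d⁻¹) = _
    rw [tr'_conj]
    exact C.X_tr hx
  · -- cosets of A
    rintro s hs hsX hsU m ⟨a₁, a₂, h1, h2, h3, h4, h5⟩ hmU
    obtain ⟨γ, p₁, q₁, p₂, q₂, e1, e2, e3⟩ := C.D_form hs
    have hγ : γ ≠ 0 := fun h => hsX ⟨hs, e3 h⟩
    have hsU' : tr' s = (finrank F V : F) := hsU
    have hmU' : tr' (m * s) = (finrank F V : F) := hmU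
    rw [tr'_A h5, hsU', e1, e2] at hmU'
    simp only [map_add, map_smul, ht.aa, ht.bb, ht.ab, ht.ba, smul_eq_mul] at hmU'
    have h6 : γ * (a₁ * (B (E w₁) v * σ (B (E w₁) v)) + a₂ * (B (E w₂) v * σ (B (E w₂) v))) = 0 := by
      linear_combination hmU'
    have h7 := (mul_eq_zero.1 h6).resolve_left hγ
    have hN2 : B (E w₂) v * σ (B (E w₂) v) ≠ 0 := mul_ne_zero C.hl2 hs2
    have ha1 : a₁ = 0 := by
      by_contra hne
      apply C.hcon
      have : (B (E w₁) v * σ (B (E w₁) v)) / (B (E w₂) v * σ (B (E w₂) v)) = -a₂ / a₁ := by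
        rw [div_eq_div_iff hN2 hne]
        linear_combination h7
      rw [this]
      exact F₀.div_mem (F₀.neg_mem h2) h1
    have ha2 : a₂ = 0 := by
      rw [ha1, zero_mul, zero_add] at h7
      exact (mul_eq_zero.1 h7).resolve_right hN2
    ext x
    rw [h5, ha1, ha2]; simp
  · -- intersections of conjugates of X
    intro e he heX x hx hexe
    refine ⟨hx, ?_⟩
    have he' : e⁻¹ ∈ Dg G W := (Dg G W).inv_mem he
    obtain ⟨γ, p₁, q₁, p₂, q₂, e1, e2, e3⟩ := C.D_form he'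
    have hγ : γ ≠ 0 := by
      intro h
      apply heX
      have : e⁻¹ ∈ Xg G W (E w₁) (E w₂) := ⟨he', e3 h⟩
      have h2 := (Xg G W (E w₁) (E w₂)).inv_mem this
      rwa [inv_inv] at h2
    have h8 : x (e⁻¹ (E w₂)) = e⁻¹ (E w₂) := by
      have := hexe.2.2
      rw [LinearEquiv.mul_apply, LinearEquiv.mul_apply] at this
      have h9 := congrArg (fun t => e⁻¹ t) this
      simpa [inv_apply_self'] using h9
    rw [e2, map_add, map_add, map_smul, map_smul, map_smul, hx.2.1, hx.2.2, add_right_inj] at h8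
    exact smul_right_injective V (mul_ne_zero hγ hs2) h8
  · -- |A| ≥ 3
    have := Fintype.ofFinite (Ag F₀ ht)
    rw [Nat.card_eq_fintype_card]
    have m1 : T R.H (E w₁) ε ∈ Ag F₀ ht := by
      refine ⟨ε, 0, hε, F₀.zero_mem, hεs, by simp, fun x => ?_⟩
      rw [T_apply R.H ht.aa hεs]; simp
    have m2 : T R.H (E w₂) ε ∈ Ag F₀ ht := by
      refine ⟨0, ε, F₀.zero_mem, hε, by simp, hεs, fun x => ?_⟩
      rw [T_apply R.H ht.bb hεs]; simp
    have n1 : T R.H (E w₁) ε v = v + (ε * B (E w₁) v) • E w₁ := T_apply R.H ht.aa hεs v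
    have n2 : T R.H (E w₂) ε v = v + (ε * B (E w₂) v) • E w₂ := T_apply R.H ht.bb hεs v
    have hE1 : B (E f₁) (E w₁) = 1 := by rw [R.form, C.hF.h11' H₀]; rfl
    have hE2 : B (E f₂) (E w₂) = 1 := by rw [R.form, C.hF.h22' H₀]; rfl
    have hE12 : B (E f₁) (E w₂) = 0 := R.perp (C.hF.h21' H₀)
    apply Nat.succ_le_of_lt
    rw [Fintype.two_lt_card_iff]
    refine ⟨1, ⟨_, m1⟩, ⟨_, m2⟩, ?_, ?_, ?_⟩
    · intro h
      have h2 := congrArg (fun t : Ag F₀ ht => B (E f₁) ((t : V ≃ₗ[F] V) v)) h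
      simp only [n1, OneMemClass.coe_one, LinearEquiv.coe_one, id_eq, map_add, map_smul, hE1,
        smul_eq_mul, mul_one] at h2
      have : ε * B (E w₁) v = 0 := by linear_combination -h2
      exact (mul_ne_zero hε0 C.hl1) this
    · intro h
      have h2 := congrArg (fun t : Ag F₀ ht => B (E f₂) ((t : V ≃ₗ[F] V) v)) h
      simp only [n2, OneMemClass.coe_one, LinearEquiv.coe_one, id_eq, map_add, map_smul, hE2,
        smul_eq_mul, mul_one] at h2
      have : ε * B (E w₂) v = 0 := by linear_combination -h2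
      exact (mul_ne_zero hε0 C.hl2) this
    · intro h
      have h2 := congrArg (fun t : Ag F₀ ht => B (E f₁) ((t : V ≃ₗ[F] V) v)) h
      simp only [n1, n2, map_add, map_smul, hE1, hE12, smul_eq_mul, mul_one, mul_zero, add_zero] at h2
      have : ε * B (E w₁) v = 0 := by linear_combination h2
      exact (mul_ne_zero hε0 C.hl1) this

end Ctx

end Cfsg.Agent.Lib.Helper57.SUSub
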