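import Mathlib
import Cfsg.Agent.Lib.Helper57.SUg
import Cfsg.Agent.Lib.Helper45.SpSubD

set_option autoImplicit false
set_option linter.unusedSimpArgs false
set_option linter.unusedVariables false

/-! Centres of transvections of `G` are rational; the core of the maximality proof. -/

namespace Cfsg.Agent.Lib.Helper57.SUSub

open Module Cfsg.Agent.Lib.Helper94 Cfsg.Agent.Lib.Helper94.U
open Cfsg.Agent.Lib.Helper45.SpSub (Stab)

variable {F V : Type*} [Field F] [AddCommGroup V] [Module F V]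
variable {F₀ : Subfield F} {V₀ : Type*} [AddCommGroup V₀] [Module F₀ V₀]
variable {σ : F →+* F} {B : V →ₛₗ[σ] V →ₗ[F] F}
variable {σ₀ : F₀ →+* F₀} {B₀ : V₀ →ₛₗ[σ₀] V₀ →ₗ[F₀] F₀} {E : V₀ → V}
variable {G : Subgroup (V ≃ₗ[F] V)}

/-- the standing hypotheses in the "small" case -/
structure Small (R : RatU B B₀ E) (G : Subgroup (V ≃ₗ[F] V)) : Prop where
  hG : HG B E G
  hGI : ∀ g ∈ G, UIsom B g
  hK : ∀ l, R.Good G l → l ∈ F₀
  hQ : NoQuad F₀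

lemma not_mem_span_of_pair' {a c f : V₀} (h1 : B₀ f a ≠ 0) (h2 : B₀ f c = 0) :
    a ∉ Submodule.span F₀ {c} := by
  intro h
  obtain ⟨t, rfl⟩ := Submodule.mem_span_singleton.1 h
  apply h1
  simp [h2]

namespace Small

variable {R : RatU B B₀ E}

lemma norm_ratio [Finite F] [FiniteDimensional F V] [Finite F₀] [FiniteDimensional F₀ V₀]
    (S : Small R G) {v : V} (hv : B v v = 0) {a₀ : F} (ha₀ : a₀ + σ a₀ = 0) (ha₀0 : a₀ ≠ 0)
    (hT : T R.H v a₀ ∈ G) {w₁ w₂ f₁ f₂ : V₀} (hF : Fr B₀ w₁ w₂ f₁ f₂) (hl2 : B (E w₂) v ≠ 0) :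
    (B (E w₁) v * σ (B (E w₁) v)) / (B (E w₂) v * σ (B (E w₂) v)) ∈ F₀ := by
  by_contra hcon
  exact Ctx.absurd (R := R) ⟨S.hG, S.hGI, S.hK, S.hQ, hF, hv, hl2, hcon⟩ ha₀ ha₀0 hT

lemma ratio [Finite F] [FiniteDimensional F V] [Finite F₀] [FiniteDimensional F₀ V₀]
    (S : Small R G) {v : V} (hv : B v v = 0) {a₀ : F} (ha₀ : a₀ + σ a₀ = 0) (ha₀0 : a₀ ≠ 0)
    (hT : T R.H v a₀ ∈ G) {w₁ w₂ f₁ f₂ : V₀} (hF : Fr B₀ w₁ w₂ f₁ f₂) (hl2 : B (E w₂) v ≠ 0) :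
    B (E w₁) v / B (E w₂) v ∈ F₀ := by
  have H₀ := R.H₀
  have hs2 := R.H.sigma_ne_zero hl2
  set ρ := B (E w₁) v / B (E w₂) v with hρ
  have key : ∀ c : F, c ∈ F₀ → (ρ + σ c) * (σ ρ + c) ∈ F₀ := by
    intro c hc
    have hF' : Fr B₀ (w₁ + (⟨c, hc⟩ : F₀) • w₂) w₂ f₁ (f₂ - σ₀ ⟨c, hc⟩ • f₁) := by
      refine ⟨⟨?_, hF.ww.bb, ?_, ?_⟩, ⟨hF.ff.aa, ?_, ?_, ?_⟩, ?_, ?_, ?_, hF.h21⟩
      · simp [hF.ww.aa, hF.ww.bb, hF.ww.ab, hF.ww.ba]
      · simp [hF.ww.bb, hF.ww.ab]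
      · simp [hF.ww.bb, hF.ww.ba]
      · simp [hF.ff.aa, hF.ff.bb, hF.ff.ab, hF.ff.ba]
      · simp [hF.ff.aa, hF.ff.ab]
      · simp [hF.ff.aa, hF.ff.ba]
      · simp [hF.h11, hF.h21]
      · simp [hF.h22, hF.h21]
      · simp [hF.h11, hF.h21, hF.h12, hF.h22]
    have := S.norm_ratio hv ha₀ ha₀0 hT hF' hl2
    rw [R.add, R.smul, map_add, map_smulₛₗ, LinearMap.add_apply, LinearMap.smul_apply] at this
    convert this using 1
    simp only [hρ, map_div₀, map_add, smul_eq_mul, map_mul, R.H.invol]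
    field_simp
  have h0 : ρ * σ ρ ∈ F₀ := by
    have := key 0 F₀.zero_mem
    simpa using this
  have k2 : ∀ w : F, w ∈ F₀ → w * ρ + σ w * σ ρ ∈ F₀ := by
    intro w hw
    have e : w * ρ + σ w * σ ρ = (ρ + σ w) * (σ ρ + w) - ρ * σ ρ - σ w * w := by ring
    rw [e]
    exact F₀.sub_mem (F₀.sub_mem (key w hw) h0) (F₀.mul_mem (R.sig_mem hw) hw)
  refine (R.mem_of_two ?_ k2).1
  have := k2 1 F₀.one_mem
  simpa using this

/-- values on vectors orthogonal to the reference vector -/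
lemma vals_perp [Finite F] [FiniteDimensional F V] [Finite F₀] [FiniteDimensional F₀ V₀]
    (S : Small R G) {v : V} (hv : B v v = 0) {a₀ : F} (ha₀ : a₀ + σ a₀ = 0) (ha₀0 : a₀ ≠ 0)
    (hT : T R.H v a₀ ∈ G) {w₀ : V₀} (hw₀ : B₀ w₀ w₀ = 0) (hl : B (E w₀) v ≠ 0) {x : V₀}
    (hx : B₀ x x = 0) (hxw : B₀ w₀ x = 0) : B (E x) v / B (E w₀) v ∈ F₀ := by
  have H₀ := R.H₀
  by_cases hxs : x ∈ Submodule.span F₀ {w₀}
  · obtain ⟨t, rfl⟩ := Submodule.mem_span_singleton.1 hxs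
    rw [R.smul, map_smulₛₗ, LinearMap.smul_apply, smul_eq_mul, mul_div_assoc, div_self hl, mul_one]
    exact R.sig_mem t.2
  · have hw₀s : w₀ ∉ Submodule.span F₀ {x} := by
      intro h
      obtain ⟨t, rfl⟩ := Submodule.mem_span_singleton.1 h
      have ht : t ≠ 0 := by
        rintro rfl
        rw [zero_smul, R.E_zero] at hl
        simp at hl
      apply hxs
      rw [Submodule.mem_span_singleton]
      exact ⟨t⁻¹, by rw [smul_smul, inv_mul_cancel₀ ht, one_smul]⟩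
    obtain ⟨x', w', hF⟩ := R.exists_frame (TI_symm (mkTI H₀ hw₀ hx hxw)) hxs hw₀s
    exact S.ratio hv ha₀ ha₀0 hT hF hl

lemma vals_all [Finite F] [FiniteDimensional F V] [Finite F₀] [FiniteDimensional F₀ V₀]
    (S : Small R G) {v : V} (hv : B v v = 0) {a₀ : F} (ha₀ : a₀ + σ a₀ = 0) (ha₀0 : a₀ ≠ 0)
    (hT : T R.H v a₀ ∈ G) {w₀ : V₀} (hw₀ : B₀ w₀ w₀ = 0) (hl : B (E w₀) v ≠ 0) {x : V₀}
    (hx : B₀ x x = 0) : B (E x) v / B (E w₀) v ∈ F₀ := by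
  classical
  have H₀ := R.H₀
  by_cases hxw : B₀ w₀ x = 0
  · exact S.vals_perp hv ha₀ ha₀0 hT hw₀ hl hx hxw
  set t := B₀ w₀ x with ht
  obtain ⟨y, y', hyy, hy, hy', hyy1⟩ := R.exists_hyp {w₀, x} (Finset.card_le_two.trans (by norm_num))
  obtain ⟨h1, h1'⟩ := hyy w₀ (by simp)
  obtain ⟨h2, h2'⟩ := hyy x (by simp)
  have hy'y : B₀ y' y = 1 := by rw [← H₀.symm, hyy1, map_one]
  have ky := S.vals_perp hv ha₀ ha₀0 hT hw₀ hl hy h1
  have ky' := S.vals_perp hv ha₀ ha₀0 hT hw₀ hl hy' h1'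
  set κ := B (E y) v / B (E w₀) v with hκ
  set κ' := B (E y') v / B (E w₀) v with hκ'
  have eκ : B (E y) v = κ * B (E w₀) v := by rw [hκ]; field_simp
  have eκ' : B (E y') v = κ' * B (E w₀) v := by rw [hκ']; field_simp
  -- choice of the scaling
  obtain ⟨s, hs0, hs⟩ : ∃ s : F₀, s ≠ 0 ∧ (s : F) - (t : F) * κ' ≠ 0 := by
    by_cases h : (1 : F) - (t : F) * κ' = 0
    · obtain ⟨l, hl1, hlN⟩ := H₀.exists_norm_one
      refine ⟨l, ?_, ?_⟩
      · rintro rfl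
        simp at hlN
      · intro h'
        apply hl1
        apply Subtype.ext
        have : (l : F) = 1 := by linear_combination h' - h
        exact this
    · exact ⟨1, one_ne_zero, h⟩
  set c : F₀ := σ₀ (-t / s) with hc
  have hσc : σ₀ c = -t / s := by rw [hc, H₀.invol]
  have hc0 : c ≠ 0 := by
    rw [hc]
    exact H₀.sigma_ne_zero (div_ne_zero (neg_ne_zero.2 hxw) hs0)
  set x₁ := x + s • y with hx₁
  set w₂ := w₀ + c • y' with hw₂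
  have i1 : B₀ x₁ x₁ = 0 := by
    simp [hx₁, hx, hy, h2, H₀.eq_zero_comm.1 h2]
  have i2 : B₀ w₂ w₂ = 0 := by
    simp [hw₂, hw₀, hy', h1', H₀.eq_zero_comm.1 h1']
  have i3 : B₀ w₂ x₁ = 0 := by
    simp only [hw₂, hx₁, map_add, map_smul, map_smulₛₗ, LinearMap.add_apply, LinearMap.smul_apply,
      smul_eq_mul, h1, H₀.eq_zero_comm.1 h2', hy'y, hσc, ← ht]
    field_simp
    ring
  have n1 : x₁ ∉ Submodule.span F₀ {w₂} := by
    apply not_mem_span_of_pair' (B₀ := B₀) (f := y')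
    · simp [hx₁, H₀.eq_zero_comm.1 h2', hy'y, hs0]
    · simp [hw₂, H₀.eq_zero_comm.1 h1', hy']
  have n2 : w₂ ∉ Submodule.span F₀ {x₁} := by
    apply not_mem_span_of_pair' (B₀ := B₀) (f := y)
    · simp [hw₂, H₀.eq_zero_comm.1 h1, hyy1, hc0]
    · simp [hx₁, H₀.eq_zero_comm.1 h2, hy]
  obtain ⟨f₁, f₂, hF⟩ := R.exists_frame (TI_symm (mkTI H₀ i2 i1 i3)) n1 n2
  have hs0' : (s : F) ≠ 0 := fun h => hs0 (Subtype.ext h)
  have eσc : σ (c : F) = -(t : F) / (s : F) := by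
    rw [R.sig, hσc]; push_cast; rfl
  have lw₂ : B (E w₂) v = (((s : F) - (t : F) * κ') / (s : F)) * B (E w₀) v := by
    rw [hw₂, R.add, R.smul, map_add, map_smulₛₗ, LinearMap.add_apply, LinearMap.smul_apply, eκ', eσc,
      smul_eq_mul]
    field_simp
    ring
  have lw₂0 : B (E w₂) v ≠ 0 := by
    rw [lw₂]
    exact mul_ne_zero (div_ne_zero hs hs0') hl
  have hr := S.ratio hv ha₀ ha₀0 hT hF lw₂0
  have lx₁ : B (E x₁) v = B (E x) v + σ (s : F) * (κ * B (E w₀) v) := by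
    rw [hx₁, R.add, R.smul, map_add, map_smulₛₗ, LinearMap.add_apply, LinearMap.smul_apply, eκ, smul_eq_mul]
  have hfin : B (E x) v / B (E w₀) v =
      (B (E x₁) v / B (E w₂) v) * (((s : F) - (t : F) * κ') / (s : F)) - σ (s : F) * κ := by
    rw [lw₂, lx₁]
    field_simp
    ring
  rw [hfin]
  exact F₀.sub_mem (F₀.mul_mem hr (F₀.div_mem (F₀.sub_mem s.2 (F₀.mul_mem t.2 ky')) s.2))
    (F₀.mul_mem (R.sig_mem s.2) ky)

lemma proj_rat [Finite F] [FiniteDimensional F V] [Finite F₀] [FiniteDimensional F₀ V₀]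
    (S : Small R G) {v : V} (hv : B v v = 0) {a₀ : F} (ha₀ : a₀ + σ a₀ = 0) (ha₀0 : a₀ ≠ 0)
    (hT : T R.H v a₀ ∈ G) : ∃ (c : F) (y : V₀), v = c • E y := by
  have hdim := R.dim
  by_cases hv0 : v = 0
  · exact ⟨0, 0, by simp [hv0]⟩
  obtain ⟨w₀, hw₀, hl⟩ : ∃ w₁ : V₀, B₀ w₁ w₁ = 0 ∧ B (E w₁) v ≠ 0 := by
    by_contra hcon
    push Not at hcon
    apply hv0
    apply R.eq_zero_of_perp
    intro x
    obtain ⟨z₁, -, z₂, -, s₁, s₂, h1, h2, rfl⟩ := exists_two_isotropic R.H₀ ⊥ (by simp; omega)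
      (x := x) (by intro u hu; rw [(Submodule.mem_bot _).1 hu]; simp)
    rw [R.add, R.smul, R.smul, map_add, map_smul, map_smul, R.H.eq_zero_comm.1 (hcon z₁ h1),
      R.H.eq_zero_comm.1 (hcon z₂ h2)]
    simp
  obtain ⟨y, hy⟩ := R.rat_of_vals_iso ((B (E w₀) v)⁻¹ • v) (by
    intro x hx
    have := R.sig_mem (S.vals_all hv ha₀ ha₀0 hT hw₀ hl hx)
    rw [map_div₀, R.H.symm] at this
    rw [map_smulₛₗ, LinearMap.smul_apply, smul_eq_mul, map_inv₀]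
    convert this using 1
    rw [div_eq_mul_inv, mul_comm])
  refine ⟨B (E w₀) v, y, ?_⟩
  rw [← hy, smul_smul, mul_inv_cancel₀ hl, one_smul]

end Small

end Cfsg.Agent.Lib.Helper57.SUSub
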