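import Mathlib
import Cfsg.Agent.Lib.Helper57.SUh

set_option autoImplicit false
set_option linter.unusedSimpArgs false
set_option linter.unusedVariables false

/-! The core of the maximality proof for subfield subgroups of special unitary groups. -/

namespace Cfsg.Agent.Lib.Helper57.SUSub

open Module Cfsg.Agent.Lib.Helper94 Cfsg.Agent.Lib.Helper94.U
open Cfsg.Agent.Lib.Helper45.SpSub (Stab)

variable {F V : Type*} [Field F] [AddCommGroup V] [Module F V]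
variable {F₀ : Subfield F} {V₀ : Type*} [AddCommGroup V₀] [Module F₀ V₀]
variable {σ : F →+* F} {B : V →ₛₗ[σ] V →ₗ[F] F}
variable {σ₀ : F₀ →+* F₀} {B₀ : V₀ →ₛₗ[σ₀] V₀ →ₗ[F₀] F₀} {E : V₀ → V}
variable {G : Subgroup (V ≃ₗ[F] V)}

/-- an isotropic vector not orthogonal to a given non-zero vector -/
lemma exists_iso_ne [Finite F] [FiniteDimensional F V] (H : HForm σ B) (hdim : 2 < finrank F V) {x : V}
    (hx : x ≠ 0) : ∃ z, B z z = 0 ∧ B x z ≠ 0 := by
  obtain ⟨y, hy⟩ := H.exists_ne hx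
  obtain ⟨z₁, -, z₂, -, s₁, s₂, h1, h2, rfl⟩ := exists_two_isotropic H ⊥ (by simp; omega)
    (x := y) (by intro u hu; rw [(Submodule.mem_bot _).1 hu]; simp)
  by_cases h : B x z₁ = 0
  · refine ⟨z₂, h2, fun h' => hy ?_⟩
    simp [h, h']
  · exact ⟨z₁, h1, h⟩

/-- an isotropic vector not orthogonal to two given non-zero vectors -/
lemma exists_iso_ne_two [Finite F] [FiniteDimensional F V] (H : HForm σ B) (hdim : 2 < finrank F V)
    {x₁ x₂ : V} (hx₁ : x₁ ≠ 0) (hx₂ : x₂ ≠ 0) : ∃ z, B z z = 0 ∧ B x₁ z ≠ 0 ∧ B x₂ z ≠ 0 := by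
  obtain ⟨z₁, h1, h1'⟩ := exists_iso_ne H hdim hx₁
  obtain ⟨z₂, h2, h2'⟩ := exists_iso_ne H hdim hx₂
  by_cases a1 : B x₂ z₁ = 0
  · by_cases a2 : B x₁ z₂ = 0
    · by_cases a3 : B z₁ z₂ = 0
      · refine ⟨z₁ + z₂, ?_, ?_, ?_⟩
        · rw [H.norm_add, h1, h2, a3]; simp
        · rw [map_add, a2, add_zero]; exact h1'
        · rw [map_add, a1, zero_add]; exact h2'
      · obtain ⟨ε, hε0, hε⟩ := H.exists_skew
        refine ⟨z₁ + (ε / B z₁ z₂) • z₂, ?_, ?_, ?_⟩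
        · rw [H.norm_add, H.norm_smul, h1, h2, map_smul, smul_eq_mul, div_mul_cancel₀ _ a3, hε]; simp
        · rw [map_add, map_smul, a2]; simpa using h1'
        · rw [map_add, map_smul, a1, zero_add, smul_eq_mul]
          exact mul_ne_zero (div_ne_zero hε0 a3) h2'
    · exact ⟨z₂, h2, a2, h2'⟩
  · exact ⟨z₁, h1, h1', a1⟩

namespace RatU

lemma stab_of_proj [Finite F₀] [FiniteDimensional F₀ V₀] (R : RatU B B₀ E) {φ : V ≃ₗ[F] V}
    (hφ : UIsom B φ) (h : ∀ x, B₀ x x = 0 → ∃ (c : F) (y : V₀), φ (E x) = c • E y) : Stab E φ := by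
  classical
  have hdim := R.dim
  have H₀ := R.H₀
  choose! c y hcy using h
  have hprod : ∀ x x', B₀ x x = 0 → B₀ x' x' = 0 → B₀ x x' ≠ 0 →
      σ (c x) * c x' ∈ F₀ ∧ σ (c x) * c x' ≠ 0 := by
    intro x x' hx hx' hxx'
    have h1 := hφ (E x) (E x')
    rw [hcy x hx, hcy x' hx', R.form] at h1
    simp only [map_smul, map_smulₛₗ, LinearMap.smul_apply, smul_eq_mul, R.form] at h1
    have hne : ((B₀ x x' : F₀) : F) ≠ 0 := by
      intro h0
      exact hxx' (Subtype.ext h0)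
    have h2 : σ (c x) * c x' * (B₀ (y x) (y x') : F₀) = (B₀ x x' : F₀) := by rw [← h1]; ring
    have h3 : σ (c x) * c x' ≠ 0 := by
      intro h0
      rw [h0, zero_mul] at h2
      exact hne h2.symm
    have h4 : ((B₀ (y x) (y x') : F₀) : F) ≠ 0 := by
      intro h0
      rw [h0, mul_zero] at h2
      exact hne h2.symm
    refine ⟨?_, h3⟩
    have : σ (c x) * c x' = (B₀ x x' : F₀) / (B₀ (y x) (y x') : F₀) := by
      field_simp
      exact h2
    rw [this]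
    exact F₀.div_mem (B₀ x x').2 (B₀ (y x) (y x')).2
  obtain ⟨x₀, f₀, -, hx₀, -, hxf⟩ := R.exists_hyp ∅ (by simp)
  have hx₀0 : x₀ ≠ 0 := by
    rintro rfl
    simp at hxf
  -- isotropic vectors
  have hiso : ∀ x, B₀ x x = 0 → ∃ y', φ (E x) = c x₀ • E y' := by
    intro x hx
    by_cases hx0 : x = 0
    · exact ⟨0, by rw [hx0, R.E_zero]; simp⟩
    obtain ⟨x', hx', h1, h2⟩ := exists_iso_ne_two H₀ (by omega) hx₀0 hx0
    obtain ⟨m1, n1⟩ := hprod x₀ x' hx₀ hx' h1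
    obtain ⟨m2, n2⟩ := hprod x x' hx hx' h2
    have a1 : σ (c x₀) ≠ 0 := left_ne_zero_of_mul n1
    have a2 : c x' ≠ 0 := right_ne_zero_of_mul n1
    have a3 : c x₀ ≠ 0 := by
      intro h0
      rw [h0, map_zero] at a1
      exact a1 rfl
    have hq : c x / c x₀ ∈ F₀ := by
      have h3 : σ (c x) / σ (c x₀) ∈ F₀ := by
        have : σ (c x) / σ (c x₀) = (σ (c x) * c x') / (σ (c x₀) * c x') := by
          field_simp
        rw [this]
        exact F₀.div_mem m2 m1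
      have := R.sig_mem h3
      rwa [map_div₀, R.H.invol, R.H.invol] at this
    refine ⟨(⟨_, hq⟩ : F₀) • y x, ?_⟩
    rw [hcy x hx, R.smul, smul_smul]
    congr 1
    change c x = c x₀ * (c x / c x₀)
    field_simp
  refine ⟨c x₀, fun x => ?_⟩
  obtain ⟨z₁, -, z₂, -, s₁, s₂, h1, h2, rfl⟩ := exists_two_isotropic H₀ ⊥ (by simp; omega)
    (x := x) (by intro u hu; rw [(Submodule.mem_bot _).1 hu]; simp)
  obtain ⟨y₁, hy₁⟩ := hiso z₁ h1
  obtain ⟨y₂, hy₂⟩ := hiso z₂ h2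
  refine ⟨s₁ • y₁ + s₂ • y₂, ?_⟩
  rw [R.add, R.smul, R.smul, map_add, map_smul, map_smul, hy₁, hy₂, R.add, R.smul, R.smul]
  module

/-- **the core of the maximality proof** -/
theorem core [Finite F] [FiniteDimensional F V] [FiniteDimensional F₀ V₀] (R : RatU B B₀ E)
    (hdim : 6 < finrank F V)
    (hprime : ∀ S : Subalgebra F₀ F, S = ⊥ ∨ S = ⊤) (hQ : NoQuad F₀) (G : Subgroup (V ≃ₗ[F] V))
    (hG : ∀ φ, UIsom B φ → LinearMap.det (φ : V →ₗ[F] V) = 1 → Stab E φ → φ ∈ G)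
    (φ0 : V ≃ₗ[F] V) (hφ0 : φ0 ∈ G) (hφ0I : UIsom B φ0) (hns : ¬ Stab E φ0) :
    ∀ φ, UIsom B φ → LinearMap.det (φ : V →ₗ[F] V) = 1 → φ ∈ G := by
  have : Finite F₀ := Finite.of_injective (fun a : F₀ => (a : F)) Subtype.val_injective
  set G' : Subgroup (V ≃ₗ[F] V) := G ⊓ isomGroup B with hG'def
  have hG' : HG B E G' := by
    intro φ hφ hdet h
    refine ⟨hG φ hφ hdet ?_, hφ⟩
    refine ⟨1, fun x => ?_⟩
    obtain ⟨y, hy⟩ := h x
    exact ⟨y, by rw [hy, one_smul]⟩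
  have hGI : ∀ g ∈ G', UIsom B g := fun g hg => hg.2
  rcases R.dichotomy hG' hprime with hK | hK
  · exfalso
    apply hns
    apply R.stab_of_proj hφ0I
    intro x hx
    obtain ⟨ε, hε, hε0, hεs⟩ := R.exists_eps
    have S : Small R G' := ⟨hG', hGI, hK, hQ⟩
    refine S.proj_rat (by rw [hφ0I]; exact R.perp hx) hεs hε0 ?_
    exact T_mem_conj R.H hφ0I (show φ0 ∈ G' from Subgroup.mem_inf.2 ⟨hφ0, hφ0I⟩) (R.T_rat hG' hx hε hεs)
  · intro φ hφ hdet
    exact (mem_of_sisom R.H hdim G' (fun v k hk hv => (R.tv_all hK hv).2 k hk) φ hφ hdet).1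

/-- a non-rational Siegel element does not stabilise the rational structure -/
lemma not_stab [Finite F₀] [FiniteDimensional F₀ V₀] (R : RatU B B₀ E) {θ : F} (hθ : θ ∉ F₀) :
    ∃ φ, UIsom B φ ∧ LinearMap.det (φ : V →ₗ[F] V) = 1 ∧ ¬ Stab E φ := by
  classical
  have H₀ := R.H₀
  obtain ⟨u, u', -, hu, hu', huu'⟩ := R.exists_hyp ∅ (by simp)
  obtain ⟨w, w', hw, hww, hw'w', hww'⟩ := R.exists_hyp {u, u'} (Finset.card_le_two.trans (by norm_num))
  obtain ⟨huw, huw'⟩ := hw u (by simp)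
  obtain ⟨hu'w, hu'w'⟩ := hw u' (by simp)
  have hu'u : B₀ u' u = 1 := by rw [← H₀.symm, huu', map_one]
  have ht : TI B₀ u w := mkTI H₀ hu hww huw
  refine ⟨S B (θ • E u) (E w), S_isom R.H _ _, S_det _ _, ?_⟩
  rintro ⟨c, hc⟩
  obtain ⟨y, hy⟩ := hc u
  rw [S_apply ((R.ti ht).smul_left θ)] at hy
  simp only [map_smulₛₗ, LinearMap.smul_apply, R.perp ht.ba, R.perp hu, smul_zero, zero_smul, add_zero,
    sub_zero] at hy
  have h1 : (1 : F) = c * (B₀ u' y : F₀) := by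
    have := congrArg (fun t => B (E u') t) hy
    simp only [map_smul, smul_eq_mul, R.form, hu'u] at this
    exact this
  have hne : ((B₀ u' y : F₀) : F) ≠ 0 := by
    intro h0
    rw [h0, mul_zero] at h1
    exact one_ne_zero h1
  have hcF : c ∈ F₀ := by
    have : c = ((B₀ u' y : F₀) : F)⁻¹ := by
      field_simp
      exact h1.symm
    rw [this]
    exact F₀.inv_mem (B₀ u' y).2
  obtain ⟨y', hy'⟩ := hc w'
  rw [S_apply ((R.ti ht).smul_left θ)] at hy'
  have h2 := congrArg (fun t => B (E u') t) hy'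
  simp only [map_add, map_sub, map_smul, map_smulₛₗ, LinearMap.smul_apply, smul_eq_mul, R.form, hww',
    hu'u, hu'w, hu'w', huw'] at h2
  apply hθ
  have : θ = c * (B₀ u' y' : F₀) := by
    rw [← h2]
    push_cast
    ring
  rw [this]
  exact F₀.mul_mem hcF (B₀ u' y').2

end RatU

end Cfsg.Agent.Lib.Helper57.SUSub
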