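import Mathlib
import Cfsg.Prelude.Def_GeometricClasses
import Cfsg.Agent.Lib.Helper94.HermStd
import Cfsg.Agent.Lib.Helper45.SpSubWrap
import Cfsg.Agent.Lib.Helper57.SUi

set_option autoImplicit false
set_option linter.unusedSimpArgs false
set_option linter.unusedVariables false

/-! Wrapper: the subfield subgroup of `SU_n(q)` for an odd prime degree is maximal. -/

namespace Cfsg.Agent.Lib.Helper57.SUSub

open Module Matrix Cfsg.Agent.Lib.Helper94 Cfsg.Agent.Lib.Helper94.U
open Cfsg.Agent.Lib.Helper45.SpSub (Stab EE EE_add EE_smul EE_injective span_EE mem_subfield_iff_stab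
  finrank_of_card subalgebra_dichotomy exists_not_mem_subfield)
open Cfsg.Agent.Lib.Helper13 (frobQ frobQ_apply frobQ_ne_id pow_q_pow_q)

variable {F : Type*} [Field F] [Fintype F] {n q : ℕ}

/-- the restriction of the `q`-Frobenius to a subfield -/
def sig0 (hF : Fintype.card F = q ^ 2) (F₀ : Subfield F) : F₀ →+* F₀ :=
  (frobQ hF).restrict F₀ F₀ (fun x hx => by rw [frobQ_apply]; exact pow_mem hx q)

lemma sig0_coe (hF : Fintype.card F = q ^ 2) (F₀ : Subfield F) (a : F₀) :
    ((sig0 hF F₀ a : F₀) : F) = frobQ hF (a : F) := rfl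

/-- for odd degree the Frobenius is not trivial on the subfield -/
lemma sig0_ne_id (hF : Fintype.card F = q ^ 2) (F₀ : Subfield F) (r : ℕ) (hro : Odd r)
    (hcard : Fintype.card F = Nat.card F₀ ^ r) : sig0 hF F₀ ≠ RingHom.id F₀ := by
  intro hid
  have hfix : ∀ a : F₀, frobQ hF (a : F) = a := by
    intro a
    rw [← sig0_coe, hid]; rfl
  let τ : F →ₐ[F₀] F := { frobQ hF with commutes' := hfix }
  have hττ : τ.comp τ = AlgHom.id F₀ F := by
    ext x
    exact pow_q_pow_q hF x
  let τe : F ≃ₐ[F₀] F := AlgEquiv.ofAlgHom τ τ hττ hττ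
  have h2 : τe ^ 2 = 1 := by
    ext x
    rw [sq]
    exact pow_q_pow_q hF x
  have h1 : τe ≠ 1 := by
    intro h
    apply frobQ_ne_id hF
    ext x
    exact congrArg (fun f : F ≃ₐ[F₀] F => f x) h
  have ho : orderOf τe = 2 := orderOf_eq_prime h2 h1
  have hd : 2 ∣ Nat.card (F ≃ₐ[F₀] F) := ho ▸ orderOf_dvd_natCard τe
  rw [IsGalois.card_aut_eq_finrank, finrank_of_card F₀ r hcard] at hd
  exact (Nat.not_even_iff_odd.2 hro) (even_iff_two_dvd.2 hd)

lemma noQuad (F₀ : Subfield F) (r : ℕ) (hr : r.Prime) (hro : Odd r)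
    (hcard : Fintype.card F = Nat.card F₀ ^ r) : NoQuad F₀ := by
  intro θ hθ b e c hb he hc h
  have hlin : ∀ e c : F, e ∈ F₀ → c ∈ F₀ → e * θ + c = 0 → e = 0 ∧ c = 0 := by
    intro e c he hc h
    by_cases he0 : e = 0
    · subst he0
      simpa using h
    · exfalso
      apply hθ
      have : θ = - c / e := by
        field_simp
        linear_combination h
      rw [this]
      exact div_mem (neg_mem hc) he
  by_cases hb0 : b = 0
  · subst hb0
    refine ⟨rfl, hlin e c he hc ?_⟩
    simpa using h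
  · exfalso
    -- `θ` is quadratic over `F₀`
    have hint : IsIntegral F₀ θ := Algebra.IsIntegral.isIntegral θ
    let p : Polynomial F₀ := Polynomial.C ⟨b, hb⟩ * Polynomial.X ^ 2 + Polynomial.C ⟨e, he⟩ * Polynomial.X
      + Polynomial.C ⟨c, hc⟩
    have hb' : (⟨b, hb⟩ : F₀) ≠ 0 := fun h0 => hb0 (congrArg Subtype.val h0)
    have hpdeg : p.natDegree = 2 := Polynomial.natDegree_quadratic hb'
    have hp0 : p ≠ 0 := by
      intro h0
      rw [h0] at hpdeg
      simp at hpdeg
    have hpe : Polynomial.aeval θ p = 0 := by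
      simp only [p, map_add, map_mul, map_pow, Polynomial.aeval_C, Polynomial.aeval_X]
      exact h
    have hle : (minpoly F₀ θ).natDegree ≤ 2 := by
      rw [← hpdeg]
      exact Polynomial.natDegree_le_of_dvd (minpoly.dvd F₀ θ hpe) hp0
    have hdvd : (minpoly F₀ θ).natDegree ∣ r := by
      rw [← finrank_of_card F₀ r hcard]
      exact minpoly.degree_dvd hint
    have h1 : (minpoly F₀ θ).natDegree ≠ 1 := by
      intro h1
      have := (minpoly.natDegree_eq_one_iff (A := F₀) (x := θ)).1 h1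
      obtain ⟨y, hy⟩ := this
      exact hθ (hy ▸ y.2)
    rcases (Nat.dvd_prime hr).1 hdvd with h | h
    · exact h1 h
    · have hr2 : r = 2 := by
        have := hr.two_le
        omega
      subst hr2
      exact absurd hro (by decide)

variable {F₀ : Subfield F} {P : Matrix.GeneralLinearGroup (Fin n) F}

lemma stdB_mem (hF : Fintype.card F = q ^ 2)
    (hP : Cfsg.Geo.IsFormRationalStructure (Cfsg.hermForm n F q) F₀ 1 P) (u v : Fin n → F₀) :
    stdB n hF (EE F₀ P u) (EE F₀ P v) ∈ F₀ := by
  rw [stdB_apply]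
  have := hP _ _ (fun i => (v i).2) (fun i => (u i).2)
  rwa [one_mul] at this

/-- the Hermitian form on the rational vectors -/
noncomputable def Bu (hF : Fintype.card F = q ^ 2)
    (hP : Cfsg.Geo.IsFormRationalStructure (Cfsg.hermForm n F q) F₀ 1 P) :
    (Fin n → F₀) →ₛₗ[sig0 hF F₀] (Fin n → F₀) →ₗ[F₀] F₀ :=
  LinearMap.mk₂'ₛₗ (sig0 hF F₀) (RingHom.id F₀)
    (fun u v => (⟨stdB n hF (EE F₀ P u) (EE F₀ P v), stdB_mem hF hP u v⟩ : F₀))
    (by
      intro u u' v
      apply Subtype.ext
      change stdB n hF _ _ = stdB n hF _ _ + stdB n hF _ _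
      rw [EE_add, map_add, LinearMap.add_apply])
    (by
      intro c u v
      apply Subtype.ext
      change stdB n hF _ _ = frobQ hF (c : F) * stdB n hF _ _
      rw [EE_smul, map_smulₛₗ, LinearMap.smul_apply, smul_eq_mul])
    (by
      intro u v v'
      apply Subtype.ext
      change stdB n hF _ _ = stdB n hF _ _ + stdB n hF _ _
      rw [EE_add, map_add])
    (by
      intro c u v
      apply Subtype.ext
      change stdB n hF _ _ = (c : F) * stdB n hF _ _
      rw [EE_smul, map_smul, smul_eq_mul])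

lemma Bu_coe (hF : Fintype.card F = q ^ 2)
    (hP : Cfsg.Geo.IsFormRationalStructure (Cfsg.hermForm n F q) F₀ 1 P) (u v : Fin n → F₀) :
    ((Bu hF hP u v : F₀) : F) = stdB n hF (EE F₀ P u) (EE F₀ P v) := rfl

lemma ratU (hF : Fintype.card F = q ^ 2) (hn : 13 ≤ n) (r : ℕ) (hro : Odd r)
    (hcard : Fintype.card F = Nat.card F₀ ^ r)
    (hP : Cfsg.Geo.IsFormRationalStructure (Cfsg.hermForm n F q) F₀ 1 P) :
    RatU (stdB n hF) (Bu hF hP) (EE F₀ P) where
  H := stdB_hform hF
  H₀ :=
    { ne_id := sig0_ne_id hF F₀ r hro hcard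
      invol := fun a => Subtype.ext (pow_q_pow_q hF (a : F))
      symm := fun x y => Subtype.ext ((stdB_hform hF).symm (EE F₀ P x) (EE F₀ P y))
      nondeg := by
        intro x hx
        have h0 : EE F₀ P x = 0 := by
          apply (stdB_hform (n := n) hF).nondeg
          intro y
          have hy : y ∈ Submodule.span F (Set.range (EE F₀ P)) := span_EE F₀ P ▸ Submodule.mem_top
          induction hy using Submodule.span_induction with
          | mem z hz =>
            obtain ⟨z, rfl⟩ := hz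
            rw [← Bu_coe hF hP, hx z]; rfl
          | zero => rw [map_zero]
          | add a b _ _ ha hb => rw [map_add, ha, hb, add_zero]
          | smul a b _ hb => rw [map_smul, hb, smul_zero]
        apply EE_injective F₀ P
        rw [h0]
        have := EE_smul F₀ P 0 0
        simpa using this.symm }
  sig := fun a => rfl
  add := EE_add F₀ P
  smul := EE_smul F₀ P
  form := fun x y => rfl
  span := span_EE F₀ P
  dim := by rw [Module.finrank_fintype_fun_eq_card, Fintype.card_fin]; exact hn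

theorem su_subfield_maximal (hF : Fintype.card F = q ^ 2) (hn : 13 ≤ n) (r : ℕ) (hr : r.Prime)
    (hro : Odd r) (hcard : Fintype.card F = Nat.card F₀ ^ r)
    (hP : Cfsg.Geo.IsFormRationalStructure (Cfsg.hermForm n F q) F₀ 1 P) :
    Cfsg.Geo.IsMaximalIn (Cfsg.GU n F q ⊓ Cfsg.Geo.specialLinear (Fin n) F)
      (Cfsg.Geo.subfieldSubgroup F₀ P ⊓ (Cfsg.GU n F q ⊓ Cfsg.Geo.specialLinear (Fin n) F)) := by
  have : Nonempty (Fin n) := ⟨⟨0, by omega⟩⟩
  have : Finite F₀ := Finite.of_injective (fun a : F₀ => (a : F)) Subtype.val_injective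
  have R := ratU hF hn r hro hcard hP
  obtain ⟨θ, hθ⟩ := exists_not_mem_subfield F₀ r hr hcard
  refine su_maximal_of_core hF _ (Stab (EE F₀ P)) (mem_subfield_iff_stab F₀ P) (R.not_stab hθ) ?_
  intro G hG φ0 hφ0 hφ0I _ hns
  exact R.core (by rw [finrank_std]; omega) (subalgebra_dichotomy F₀ r hr hcard)
    (noQuad F₀ r hr hro hcard) G hG φ0 hφ0 hφ0I hns

end Cfsg.Agent.Lib.Helper57.SUSub
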