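import Mathlib
import Cfsg.Agent.Lib.Lead.Cores

set_option autoImplicit false

/-!
# A simple section attached to a prime dividing the order exactly once
-/

namespace Cfsg.Agent.Lib.Helper57

open Cfsg Cfsg.Agent.Lib.Lead

/-- An element whose order is coprime to the index of a normal subgroup lies in that subgroup. -/
theorem mem_of_coprime_index {X : Type*} [Group X] [Finite X] (M : Subgroup X) [M.Normal] (x : X)
    (h : Nat.Coprime (orderOf x) M.index) : x ∈ M := by
  rw [← QuotientGroup.eq_one_iff, ← orderOf_eq_one_iff]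
  have h1 : orderOf (x : X ⧸ M) ∣ orderOf x := orderOf_map_dvd (QuotientGroup.mk' M) x
  have h2 : orderOf (x : X ⧸ M) ∣ M.index := orderOf_dvd_natCard _
  exact Nat.eq_one_of_dvd_coprimes h h1 h2

/-- If `p` divides `|X|` exactly once and `p ∣ |M|`, `M` normal, then `M` contains all elements of order `p`. -/
theorem mem_of_orderOf_eq_prime {X : Type*} [Group X] [Finite X] {p : ℕ} (hp : p.Prime)
    (h2 : ¬ p ^ 2 ∣ Nat.card X) (M : Subgroup X) [M.Normal] (hM : p ∣ Nat.card M) (x : X)
    (hx : orderOf x = p) : x ∈ M := by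
  apply mem_of_coprime_index
  rw [hx, Nat.Prime.coprime_iff_not_dvd hp]
  intro hi
  apply h2
  rw [← Subgroup.card_mul_index M, pow_two]
  exact Nat.mul_dvd_mul hM hi

theorem card_subgroupOf_of_le {G : Type*} [Group G] {N H : Subgroup G} (h : N ≤ H) :
    Nat.card (N.subgroupOf H) = Nat.card N :=
  Nat.card_congr (Subgroup.subgroupOfEquivOfLe h).toEquiv

theorem card_mul_card_quotient_subgroupOf {G : Type*} [Group G] {N H : Subgroup G} (h : N ≤ H) :
    Nat.card N * Nat.card (↥H ⧸ N.subgroupOf H) = Nat.card H := by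
  rw [← card_subgroupOf_of_le h]
  exact Subgroup.card_mul_index (N.subgroupOf H)

/-- Let `p` divide the order of the finite group `G` exactly once. Then `G` has normal subgroups `N < H` with
`p ∤ |N|`, `p ∣ |H|` and `H / N` simple. -/
theorem exists_simple_section {G : Type*} [Group G] [Finite G] {p : ℕ} (hp : p.Prime)
    (h1 : p ∣ Nat.card G) (h2 : ¬ p ^ 2 ∣ Nat.card G) :
    ∃ (N H : Subgroup G) (_ : N.Normal), H.Normal ∧ N < H ∧ ¬ p ∣ Nat.card N ∧ p ∣ Nat.card H ∧
      IsSimpleGroup (↥H ⧸ N.subgroupOf H) := by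
  have : Fact p.Prime := ⟨hp⟩
  set N : Subgroup G := pPrimeCore p G with hN
  set T : Subgroup G := Subgroup.normalClosure {x : G | orderOf x = p} with hT
  set H : Subgroup G := N ⊔ T with hH
  have hNn : N.Normal := inferInstance
  have hHn : H.Normal := inferInstance
  have hNH : N ≤ H := le_sup_left
  have hpN : ¬ p ∣ Nat.card N := by
    have := card_pPrimeCore_coprime (G := G) p
    rw [Nat.coprime_comm, Nat.Prime.coprime_iff_not_dvd hp] at this
    exact this
  obtain ⟨x, hx⟩ := exists_prime_orderOf_dvd_card' (G := G) p h1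
  have hxT : x ∈ T := Subgroup.subset_normalClosure hx
  have hxH : x ∈ H := Subgroup.mem_sup_right hxT
  have hpH : p ∣ Nat.card H := by
    have : orderOf (⟨x, hxH⟩ : H) = p := by rw [← Subgroup.orderOf_coe]; exact hx
    rw [← this]
    exact orderOf_dvd_natCard _
  have hlt : N < H := by
    refine lt_of_le_of_ne hNH ?_
    intro h
    rw [← h] at hpH
    exact hpN hpH
  have h2H : ¬ p ^ 2 ∣ Nat.card H := fun h => h2 (h.trans (Subgroup.card_subgroup_dvd_card H))
  refine ⟨N, H, hNn, hHn, hlt, hpN, hpH, ?_⟩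
  set N' : Subgroup H := N.subgroupOf H with hN'
  have hnt : Nontrivial (↥H ⧸ N') := by
    rw [← Finite.one_lt_card_iff_nontrivial]
    by_contra hcon
    have hc : Nat.card (↥H ⧸ N') = 1 := by
      have : 0 < Nat.card (↥H ⧸ N') := Nat.card_pos
      omega
    have := card_mul_card_quotient_subgroupOf hNH
    rw [hc, mul_one] at this
    rw [← this] at hpH
    exact hpN hpH
  refine { exists_pair_ne := hnt.exists_pair_ne, eq_bot_or_eq_top_of_normal := ?_ }
  intro Kbar hKbar
  set K' : Subgroup H := Kbar.comap (QuotientGroup.mk' N') with hK'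
  have hK'n : K'.Normal := inferInstance
  have hback : K'.map (QuotientGroup.mk' N') = Kbar :=
    Subgroup.map_comap_eq_self_of_surjective (QuotientGroup.mk'_surjective N') Kbar
  by_cases hpK : p ∣ Nat.card K'
  · -- `K'` contains all elements of order `p`, hence `T`, and `N`
    right
    have hall : ∀ y : G, orderOf y = p → ∃ hy : y ∈ H, (⟨y, hy⟩ : H) ∈ K' := by
      intro y hy
      have hyH : y ∈ H := mem_of_orderOf_eq_prime hp h2 H hpH y hy
      refine ⟨hyH, mem_of_orderOf_eq_prime hp h2H K' hpK _ ?_⟩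
      rw [← Subgroup.orderOf_coe]; exact hy
    have hTK : T ≤ K'.map H.subtype := by
      rw [hT, Subgroup.normalClosure, Subgroup.closure_le]
      intro z hz
      obtain ⟨y, hy, hyz⟩ := Group.mem_conjugatesOfSet_iff.mp hz
      obtain ⟨c, hc⟩ := isConj_iff.mp hyz
      have hzo : orderOf z = p := by
        rw [← hc]
        have := MulEquiv.orderOf_eq (MulAut.conj c) y
        rw [MulAut.conj_apply] at this
        rw [this]; exact hy
      obtain ⟨hzH, hzK⟩ := hall z hzo
      exact ⟨⟨z, hzH⟩, hzK, rfl⟩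
    have hNK : N ≤ K'.map H.subtype := by
      intro z hz
      refine ⟨⟨z, hNH hz⟩, ?_, rfl⟩
      show (QuotientGroup.mk' N') ⟨z, hNH hz⟩ ∈ Kbar
      have : (QuotientGroup.mk' N') ⟨z, hNH hz⟩ = 1 := by
        rw [QuotientGroup.mk'_apply, QuotientGroup.eq_one_iff]
        exact Subgroup.mem_subgroupOf.mpr hz
      rw [this]
      exact Kbar.one_mem
    have hHK : H ≤ K'.map H.subtype := sup_le hNK hTK
    have hK'top : K' = ⊤ := by
      rw [eq_top_iff]
      intro z _
      obtain ⟨w, hw, hwz⟩ := hHK z.2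
      have : w = z := Subtype.ext hwz
      rwa [← this]
    rw [← hback, hK'top, ← MonoidHom.range_eq_map]
    exact MonoidHom.range_eq_top.mpr (QuotientGroup.mk'_surjective N')
  · -- `K'` is a normal `p'`-subgroup of `H`, hence inside `N`
    left
    have hcop : (Nat.card K').Coprime p := by
      rw [Nat.coprime_comm, Nat.Prime.coprime_iff_not_dvd hp]; exact hpK
    have h3 : K' ≤ pPrimeCore p H := le_pPrimeCore hK'n hcop
    have h4 : (pPrimeCore p H).map H.subtype ≤ N := pPrimeCore_normal_subgroup_le H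
    have h5 : K' ≤ N' := by
      intro z hz
      rw [hN', Subgroup.mem_subgroupOf]
      exact h4 ⟨z, h3 hz, rfl⟩
    rw [← hback, eq_bot_iff]
    rintro _ ⟨z, hz, rfl⟩
    rw [Subgroup.mem_bot, QuotientGroup.mk'_apply, QuotientGroup.eq_one_iff]
    exact h5 hz

end Cfsg.Agent.Lib.Helper57
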