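import Cfsg.Agent.Lib.Helper57.Tv

set_option autoImplicit false

/-! Overgroups of `SL_n(k)` in `SL_n(K)`: the field of root parameters. -/

namespace Cfsg.Agent.Lib.Helper57

open Matrix

variable {ι : Type} [Fintype ι] [DecidableEq ι] {K : Type*} [Field K]

omit [DecidableEq ι] in
lemma exists_ne_two (h : 3 ≤ Fintype.card ι) (a b : ι) : ∃ c, c ≠ a ∧ c ≠ b := by
  classical
  have h1 : ({a, b} : Finset ι).card < (Finset.univ : Finset ι).card := by
    rw [Finset.card_univ]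
    exact lt_of_le_of_lt (Finset.card_le_two) (by omega)
  obtain ⟨c, -, hc⟩ := Finset.exists_mem_notMem_of_card_lt_card h1
  simp only [Finset.mem_insert, Finset.mem_singleton, not_or] at hc
  exact ⟨c, hc.1, hc.2⟩

omit [DecidableEq ι] in
lemma exists_ne_three (h : 4 ≤ Fintype.card ι) (a b c : ι) : ∃ d, d ≠ a ∧ d ≠ b ∧ d ≠ c := by
  classical
  have h1 : ({a, b, c} : Finset ι).card < (Finset.univ : Finset ι).card := by
    rw [Finset.card_univ]
    exact lt_of_le_of_lt (Finset.card_le_three) (by omega)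
  obtain ⟨d, -, hd⟩ := Finset.exists_mem_notMem_of_card_lt_card h1
  simp only [Finset.mem_insert, Finset.mem_singleton, not_or] at hd
  exact ⟨d, hd.1, hd.2.1, hd.2.2⟩

/-- basis vector -/
def bv (i : ι) : ι → K := Pi.single i 1

@[simp] lemma bv_dot (i : ι) (x : ι → K) : (bv i : ι → K) ⬝ᵥ x = x i := by
  simp [bv]

@[simp] lemma dot_bv (i : ι) (x : ι → K) : x ⬝ᵥ (bv i : ι → K) = x i := by
  simp [bv]

omit [Fintype ι] in
lemma bv_apply (i j : ι) : (bv i : ι → K) j = if j = i then 1 else 0 := by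
  simp [bv, Pi.single_apply]

omit [Fintype ι] in
@[simp] lemma bv_self (i : ι) : (bv i : ι → K) i = 1 := by simp [bv]

omit [Fintype ι] in
lemma bv_ne {i j : ι} (h : j ≠ i) : (bv i : ι → K) j = 0 := by simp [bv, h]

/-- `X` is a subgroup of `SL_n(K)` containing `SL_n(k)`. -/
structure SubfOver (k : Subfield K) (X : Subgroup (GL ι K)) : Prop where
  det_one : ∀ x ∈ X, (x : Matrix ι ι K).det = 1
  rat_mem : ∀ g : GL ι K, (g : Matrix ι ι K).det = 1 → (∀ i j, (g : Matrix ι ι K) i j ∈ k) → g ∈ X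

/-- rational vectors -/
def RatV (k : Subfield K) (v : ι → K) : Prop := ∀ i, v i ∈ k

omit [Fintype ι] in
lemma RatV.bv (k : Subfield K) (i : ι) : RatV k (bv i : ι → K) := by
  intro j
  rw [bv_apply]
  split_ifs
  · exact k.one_mem
  · exact k.zero_mem

omit [Fintype ι] [DecidableEq ι] in
lemma RatV.add {k : Subfield K} {v w : ι → K} (hv : RatV k v) (hw : RatV k w) : RatV k (v + w) :=
  fun i => k.add_mem (hv i) (hw i)

omit [Fintype ι] [DecidableEq ι] in
lemma RatV.sub {k : Subfield K} {v w : ι → K} (hv : RatV k v) (hw : RatV k w) : RatV k (v - w) :=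
  fun i => k.sub_mem (hv i) (hw i)

omit [Fintype ι] [DecidableEq ι] in
lemma RatV.neg {k : Subfield K} {v : ι → K} (hv : RatV k v) : RatV k (-v) :=
  fun i => k.neg_mem (hv i)

omit [Fintype ι] [DecidableEq ι] in
lemma RatV.smul {k : Subfield K} {v : ι → K} {c : K} (hc : c ∈ k) (hv : RatV k v) : RatV k (c • v) :=
  fun i => k.mul_mem hc (hv i)

omit [DecidableEq ι] in
lemma RatV.dot {k : Subfield K} {v w : ι → K} (hv : RatV k v) (hw : RatV k w) : v ⬝ᵥ w ∈ k :=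
  k.sum_mem fun i _ => k.mul_mem (hv i) (hw i)

variable {k : Subfield K} {X : Subgroup (GL ι K)}

lemma SubfOver.tv_mem (hX : SubfOver k X) {a ψ : ι → K} (ha : RatV k a) (hψ : RatV k ψ)
    (h : ψ ⬝ᵥ a = 0) : tv a ψ ∈ X := by
  apply hX.rat_mem _ (tv_det h)
  intro i j
  rw [tv_apply h]
  refine k.add_mem ?_ (k.mul_mem (ha i) (hψ j))
  split_ifs
  · exact k.one_mem
  · exact k.zero_mem

/-- the set of root parameters of `X`. -/
def rootSet (X : Subgroup (GL ι K)) : Set K :=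
  {s | ∀ i j : ι, i ≠ j → tv (s • (bv i : ι → K)) (bv j) ∈ X}

lemma el_dot {i j : ι} (h : i ≠ j) (s : K) : (bv j : ι → K) ⬝ᵥ (s • (bv i : ι → K)) = 0 := by
  simp [bv_ne h]

lemma el_comm_mem {i j l : ι} (hij : i ≠ j) (hjl : j ≠ l) (hil : i ≠ l) {s u : K}
    (hs : tv (s • (bv i : ι → K)) (bv j) ∈ X) (hu : tv (u • (bv j : ι → K)) (bv l) ∈ X) :
    tv ((u * s) • (bv i : ι → K)) (bv l) ∈ X := by
  have := tv_comm (el_dot hij s) (el_dot hjl u) (el_dot hil s)
  have h2 : tv (s • (bv i : ι → K)) (bv j) * tv (u • (bv j : ι → K)) (bv l) *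
      (tv (s • (bv i : ι → K)) (bv j))⁻¹ * (tv (u • (bv j : ι → K)) (bv l))⁻¹ ∈ X :=
    X.mul_mem (X.mul_mem (X.mul_mem hs hu) (X.inv_mem hs)) (X.inv_mem hu)
  rw [this] at h2
  have e : ((bv j : ι → K) ⬝ᵥ (u • (bv j : ι → K))) • (s • (bv i : ι → K)) = (u * s) • (bv i : ι → K) := by
    simp [smul_smul]
  rwa [e] at h2

lemma SubfOver.el_rat (hX : SubfOver k X) {i j : ι} (h : i ≠ j) {s : K} (hs : s ∈ k) :
    tv (s • (bv i : ι → K)) (bv j) ∈ X :=
  hX.tv_mem (RatV.smul hs (RatV.bv k i)) (RatV.bv k j) (el_dot h s)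

lemma SubfOver.mem_rootSet_of (hX : SubfOver k X) (h3 : 3 ≤ Fintype.card ι) {i j : ι} (hij : i ≠ j)
    {s : K} (hs : tv (s • (bv i : ι → K)) (bv j) ∈ X) : s ∈ rootSet X := by
  -- change of column
  have col : ∀ {i j l : ι} {s : K}, i ≠ j → i ≠ l → tv (s • (bv i : ι → K)) (bv j) ∈ X →
      tv (s • (bv i : ι → K)) (bv l) ∈ X := by
    intro i j l s hij hil hs
    by_cases hjl : j = l
    · subst hjl; exact hs
    · have := el_comm_mem hij hjl hil hs (hX.el_rat hjl k.one_mem)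
      rwa [one_mul] at this
  have row : ∀ {i j l : ι} {s : K}, j ≠ l → i ≠ l → tv (s • (bv j : ι → K)) (bv l) ∈ X →
      tv (s • (bv i : ι → K)) (bv l) ∈ X := by
    intro i j l s hjl hil hs
    by_cases hij : i = j
    · subst hij; exact hs
    · have := el_comm_mem hij hjl hil (hX.el_rat hij k.one_mem) hs
      rwa [mul_one] at this
  intro i' j' hij'
  obtain ⟨l, hl1, hl2⟩ := exists_ne_two h3 i i'
  exact col hl2.symm hij' (row hl1.symm hl2.symm (col hij hl1.symm hs))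

lemma SubfOver.rootSet_rat (hX : SubfOver k X) {s : K} (hs : s ∈ k) : s ∈ rootSet X :=
  fun _ _ h => hX.el_rat h hs

lemma rootSet_add {s u : K} (hs : s ∈ rootSet X) (hu : u ∈ rootSet X) : s + u ∈ rootSet X := by
  intro i j h
  have := X.mul_mem (hs i j h) (hu i j h)
  rwa [tv_mul_axis (el_dot h s) (el_dot h u), ← add_smul] at this

lemma rootSet_neg {s : K} (hs : s ∈ rootSet X) : -s ∈ rootSet X := by
  intro i j h
  have := X.inv_mem (hs i j h)
  rwa [tv_inv (el_dot h s), ← neg_one_smul K (bv j : ι → K), ← tv_smul, smul_smul, neg_one_mul] at this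

lemma rootSet_mul (h3 : 3 ≤ Fintype.card ι) {s u : K} (hs : s ∈ rootSet X) (hu : u ∈ rootSet X) :
    u * s ∈ rootSet X := by
  intro i l h
  obtain ⟨j, hj1, hj2⟩ := exists_ne_two h3 i l
  exact el_comm_mem hj1.symm hj2 h (hs i j hj1.symm) (hu j l hj2)

/-- spreading: a transvection of `X` with rational centre and axis directions has its parameter in
the root set. -/
lemma SubfOver.spread (hX : SubfOver k X) (h3 : 3 ≤ Fintype.card ι) {a ψ : ι → K} (ha : RatV k a)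
    (hψ : RatV k ψ) (ha0 : a ≠ 0) (hψ0 : ψ ≠ 0) (h : ψ ⬝ᵥ a = 0) {t : K}
    (ht : tv (t • a) ψ ∈ X) : t ∈ rootSet X := by
  obtain ⟨i0, hi0⟩ : ∃ i, a i ≠ 0 := by
    by_contra hcon
    push Not at hcon
    exact ha0 (funext hcon)
  set c := a i0 with hc
  have hck : c ∈ k := ha i0
  -- first conjugation
  set vl : ι → K := -(c⁻¹ • a - bv i0) with hvl
  have hvl0 : (bv i0 : ι → K) ⬝ᵥ vl = 0 := by
    simp [hvl, ← hc, hi0]
  have hvlr : RatV k vl := (RatV.sub (RatV.smul (k.inv_mem hck) ha) (RatV.bv k i0)).neg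
  have hl : tv vl (bv i0) ∈ X := hX.tv_mem hvlr (RatV.bv k i0) hvl0
  have hla : ((tv vl (bv i0) : GL ι K) : Matrix ι ι K) *ᵥ a = c • bv i0 := by
    rw [tv_mulVec hvl0]
    ext i
    simp only [bv_dot, hvl, Pi.add_apply, Pi.smul_apply, Pi.neg_apply, Pi.sub_apply, smul_eq_mul, ← hc]
    field_simp
    ring
  set ψ1 : ι → K := ψ ᵥ* (((tv vl (bv i0))⁻¹ : GL ι K) : Matrix ι ι K) with hψ1
  have hψ1r : RatV k ψ1 := by
    rw [hψ1, vecMul_tv_inv hvl0]
    exact RatV.sub hψ (RatV.smul (RatV.dot hψ hvlr) (RatV.bv k i0))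
  have h1 : tv (t • (c • (bv i0 : ι → K))) ψ1 ∈ X := by
    have := X.mul_mem (X.mul_mem hl ht) (X.inv_mem hl)
    rwa [conj_tv _ (by rw [dotProduct_smul, h, smul_zero]), Matrix.mulVec_smul, hla] at this
  have hψ1i : ψ1 i0 = 0 := by
    have := dot_conj (tv vl (bv i0)) a ψ
    rw [hla, h, ← hψ1, dotProduct_smul, dot_bv, smul_eq_mul] at this
    exact (mul_eq_zero.1 this).resolve_left hi0
  have hψ10 : ψ1 ≠ 0 := by
    intro h0
    apply hψ0
    have : ψ1 ᵥ* ((tv vl (bv i0) : GL ι K) : Matrix ι ι K) = ψ := by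
      rw [hψ1, Matrix.vecMul_vecMul, ← Units.val_mul, inv_mul_cancel, Units.val_one, Matrix.vecMul_one]
    rw [← this, h0, Matrix.zero_vecMul]
  obtain ⟨j0, hj0⟩ : ∃ j, ψ1 j ≠ 0 := by
    by_contra hcon
    push Not at hcon
    exact hψ10 (funext hcon)
  have hij : i0 ≠ j0 := by
    rintro rfl
    exact hj0 hψ1i
  set d := ψ1 j0 with hd
  have hdk : d ∈ k := hψ1r j0
  set ρ : ι → K := bv j0 - d⁻¹ • ψ1 with hρ
  have hρ0 : ρ ⬝ᵥ (bv j0 : ι → K) = 0 := by
    simp [hρ, ← hd, hj0]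
  have hρr : RatV k ρ := RatV.sub (RatV.bv k j0) (RatV.smul (k.inv_mem hdk) hψ1r)
  have hl' : tv (bv j0) ρ ∈ X := hX.tv_mem (RatV.bv k j0) hρr hρ0
  have hdot1 : ψ1 ⬝ᵥ (t • (c • (bv i0 : ι → K))) = 0 := by
    simp [hψ1i]
  have h2 : tv (t • (c • (bv i0 : ι → K))) (d • (bv j0 : ι → K)) ∈ X := by
    have := X.mul_mem (X.mul_mem (X.inv_mem hl') h1) (X.inv_mem (X.inv_mem hl'))
    rw [conj_tv _ hdot1, inv_inv, vecMul_tv hρ0, tv_inv_mulVec hρ0] at this
    have e1 : ψ1 + (ψ1 ⬝ᵥ (bv j0 : ι → K)) • ρ = d • (bv j0 : ι → K) := by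
      ext i
      simp only [dot_bv, hρ, Pi.add_apply, Pi.smul_apply, Pi.sub_apply, smul_eq_mul, ← hd]
      field_simp
      ring
    have e2 : ρ ⬝ᵥ (t • (c • (bv i0 : ι → K))) = 0 := by
      simp [hρ, hψ1i, bv_ne hij]
    rwa [e1, e2, zero_smul, sub_zero] at this
  rw [← tv_smul, smul_smul, smul_smul] at h2
  have h3' := hX.mem_rootSet_of h3 hij h2
  have h4 : (d * c)⁻¹ ∈ rootSet X := hX.rootSet_rat (k.inv_mem (k.mul_mem hdk hck))
  have := rootSet_mul h3 h3' h4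
  have e : (d * c)⁻¹ * (d * t * c) = t := by
    field_simp
  rwa [e] at this

end Cfsg.Agent.Lib.Helper57
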