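import Cfsg.Agent.Lib.Helper57.SubfA

set_option autoImplicit false

/-! Overgroups of `SL_n(k)` in `SL_n(K)` whose root parameters are all in `k`: rationality lemmas. -/

namespace Cfsg.Agent.Lib.Helper57

open Matrix

variable {ι : Type} [Fintype ι] [DecidableEq ι] {K : Type*} [Field K]
variable {k : Subfield K} {X : Subgroup (GL ι K)}

/-- a rational functional vanishing on a rational vector and at a coordinate. -/
lemma exists_rat_perp (h3 : 3 ≤ Fintype.card ι) {a : ι → K} (ha : RatV k a) (j : ι) :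
    ∃ χ : ι → K, RatV k χ ∧ χ ≠ 0 ∧ χ ⬝ᵥ a = 0 ∧ χ j = 0 := by
  obtain ⟨p, hp, -⟩ := exists_ne_two h3 j j
  obtain ⟨q, hq, hqp⟩ := exists_ne_two h3 j p
  by_cases hap : a p = 0
  · refine ⟨bv p, RatV.bv k p, ?_, by simpa using hap, bv_ne hp.symm⟩
    intro h
    have := congrFun h p
    simp at this
  · refine ⟨a q • bv p - a p • bv q, RatV.sub (RatV.smul (ha q) (RatV.bv k p)) (RatV.smul (ha p) (RatV.bv k q)),
      ?_, ?_, ?_⟩
    · intro h
      have := congrFun h q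
      simp [bv_ne hqp, hap] at this
    · simp [sub_dotProduct, mul_comm]
    · simp [bv_ne hp.symm, bv_ne hq.symm]

/-- the standing hypotheses of this file. -/
structure SubfSmall (k : Subfield K) (X : Subgroup (GL ι K)) : Prop extends SubfOver k X where
  card4 : 4 ≤ Fintype.card ι
  root : ∀ s ∈ rootSet X, s ∈ k

namespace SubfSmall

lemma card3 (hX : SubfSmall k X) : 3 ≤ Fintype.card ι := le_trans (by norm_num) hX.card4

lemma star (hX : SubfSmall k X) {a ψ : ι → K} (ha : RatV k a)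
    (hψ : RatV k ψ) (ha0 : a ≠ 0) (hψ0 : ψ ≠ 0) (h : ψ ⬝ᵥ a = 0) {t : K}
    (ht : tv (t • a) ψ ∈ X) : t ∈ k :=
  hX.root _ (hX.toSubfOver.spread hX.card3 ha hψ ha0 hψ0 h ht)

/-- rational centre implies rational axis. -/
lemma axis_rat (hX : SubfSmall k X) {a φ : ι → K} (ha : RatV k a) (ha0 : a ≠ 0) (h : φ ⬝ᵥ a = 0)
    (hm : tv a φ ∈ X) : RatV k φ := by
  intro j
  obtain ⟨χ, hχ, hχ0, hχa, hχj⟩ := exists_rat_perp hX.card3 ha j
  have h' : χ ⬝ᵥ (bv j : ι → K) = 0 := by simpa using hχj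
  have h2 : tv (bv j) χ ∈ X := hX.tv_mem (RatV.bv k j) hχ h'
  have h3 := X.mul_mem (X.mul_mem (X.mul_mem hm h2) (X.inv_mem hm)) (X.inv_mem h2)
  rw [tv_comm h h' hχa, dot_bv] at h3
  exact hX.star ha hχ ha0 hχ0 hχa h3

/-- rational axis implies rational centre. -/
lemma center_rat (hX : SubfSmall k X) {v ψ : ι → K} (hψ : RatV k ψ) (hψ0 : ψ ≠ 0) (h : ψ ⬝ᵥ v = 0)
    (hm : tv v ψ ∈ X) : RatV k v := by
  intro j
  obtain ⟨b, hb, hb0, hbψ, hbj⟩ := exists_rat_perp hX.card3 hψ j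
  rw [dotProduct_comm] at hbψ
  have h' : (bv j : ι → K) ⬝ᵥ b = 0 := by simpa using hbj
  have h2 : tv b (bv j) ∈ X := hX.tv_mem hb (RatV.bv k j) h'
  have h3 := X.mul_mem (X.mul_mem (X.mul_mem h2 hm) (X.inv_mem h2)) (X.inv_mem hm)
  rw [tv_comm h' h hbψ, bv_dot] at h3
  exact hX.star hb hψ hb0 hψ0 hbψ h3

lemma inv_mulVec_of (g : GL ι K) {a b : ι → K} {c : K} (hc : c ≠ 0)
    (h : (g : Matrix ι ι K) *ᵥ a = c • b) : ((g⁻¹ : GL ι K) : Matrix ι ι K) *ᵥ b = c⁻¹ • a := by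
  have : ((g⁻¹ : GL ι K) : Matrix ι ι K) *ᵥ ((g : Matrix ι ι K) *ᵥ a) = a := by
    rw [Matrix.mulVec_mulVec, ← Units.val_mul, inv_mul_cancel, Units.val_one, Matrix.one_mulVec]
  rw [h, Matrix.mulVec_smul] at this
  rw [← this, smul_smul, inv_mul_cancel₀ hc, one_smul]

lemma vecMul_ne_zero (g : GL ι K) {ψ : ι → K} (h : ψ ≠ 0) : ψ ᵥ* (g : Matrix ι ι K) ≠ 0 := by
  intro h0
  apply h
  have : (ψ ᵥ* (g : Matrix ι ι K)) ᵥ* ((g⁻¹ : GL ι K) : Matrix ι ι K) = ψ := by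
    rw [Matrix.vecMul_vecMul, ← Units.val_mul, mul_inv_cancel, Units.val_one, Matrix.vecMul_one]
  rw [← this, h0, Matrix.zero_vecMul]

lemma mulVec_ne_zero (g : GL ι K) {v : ι → K} (h : v ≠ 0) : (g : Matrix ι ι K) *ᵥ v ≠ 0 := by
  intro h0
  apply h
  have : ((g⁻¹ : GL ι K) : Matrix ι ι K) *ᵥ ((g : Matrix ι ι K) *ᵥ v) = v := by
    rw [Matrix.mulVec_mulVec, ← Units.val_mul, inv_mul_cancel, Units.val_one, Matrix.one_mulVec]
  rw [← this, h0, Matrix.mulVec_zero]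

/-- an element of `X` mapping a rational point to a rational point: the inverse is rational up to
a scalar. -/
lemma inv_rat_of_point (hX : SubfSmall k X) {g : GL ι K} (hg : g ∈ X) {a b : ι → K} (ha : RatV k a)
    (hb : RatV k b) (ha0 : a ≠ 0) {c : K} (hc : c ≠ 0)
    (h : (g : Matrix ι ι K) *ᵥ a = c • b) (i j : ι) :
    c * ((g⁻¹ : GL ι K) : Matrix ι ι K) i j ∈ k := by
  have hgb := inv_mulVec_of g hc h
  have step1 : ∀ ψ : ι → K, RatV k ψ → ψ ⬝ᵥ b = 0 → RatV k (c⁻¹ • (ψ ᵥ* (g : Matrix ι ι K))) := by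
    intro ψ hψ hψb
    have h1 : tv b ψ ∈ X := hX.tv_mem hb hψ hψb
    have h2 := X.mul_mem (X.mul_mem (X.inv_mem hg) h1) (X.inv_mem (X.inv_mem hg))
    rw [conj_tv _ hψb, inv_inv, hgb, tv_smul] at h2
    refine hX.axis_rat ha ha0 ?_ h2
    have := dot_conj g⁻¹ b ψ
    rw [inv_inv, hgb, hψb, dotProduct_smul] at this
    rw [smul_dotProduct]
    exact this
  obtain ⟨ψ, hψ, hψ0, hψb, hψj⟩ := exists_rat_perp hX.card3 hb j
  have h' : ψ ⬝ᵥ (bv j : ι → K) = 0 := by simpa using hψj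
  have h1 : tv (bv j) ψ ∈ X := hX.tv_mem (RatV.bv k j) hψ h'
  have h2 := X.mul_mem (X.mul_mem (X.inv_mem hg) h1) (X.inv_mem (X.inv_mem hg))
  rw [conj_tv _ h', inv_inv] at h2
  have e : tv (((g⁻¹ : GL ι K) : Matrix ι ι K) *ᵥ (bv j : ι → K)) (ψ ᵥ* (g : Matrix ι ι K)) =
      tv (c • (((g⁻¹ : GL ι K) : Matrix ι ι K) *ᵥ (bv j : ι → K))) (c⁻¹ • (ψ ᵥ* (g : Matrix ι ι K))) := by
    rw [tv_smul, smul_smul, mul_inv_cancel₀ hc, one_smul]
  rw [e] at h2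
  have h0 : (c⁻¹ • (ψ ᵥ* (g : Matrix ι ι K))) ≠ 0 :=
    smul_ne_zero (inv_ne_zero hc) (vecMul_ne_zero g hψ0)
  have hd : (c⁻¹ • (ψ ᵥ* (g : Matrix ι ι K))) ⬝ᵥ
      (c • (((g⁻¹ : GL ι K) : Matrix ι ι K) *ᵥ (bv j : ι → K))) = 0 := by
    have := dot_conj g⁻¹ (bv j) ψ
    rw [inv_inv, h'] at this
    rw [smul_dotProduct, dotProduct_smul, this]
    simp
  have := hX.center_rat (step1 ψ hψ hψb) h0 hd h2 i
  simpa [bv, Matrix.mulVec_single_one] using this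

/-- `g` is a scalar multiple of a rational matrix. -/
def RatScal (k : Subfield K) (g : GL ι K) : Prop :=
  ∃ c : K, c ≠ 0 ∧ ∀ i j, c * (g : Matrix ι ι K) i j ∈ k

lemma ratScal_of_point (hX : SubfSmall k X) {g : GL ι K} (hg : g ∈ X) {a b : ι → K} (ha : RatV k a)
    (hb : RatV k b) (hb0 : b ≠ 0) {c : K} (hc : c ≠ 0)
    (h : (g : Matrix ι ι K) *ᵥ a = c • b) : RatScal k g := by
  refine ⟨c⁻¹, inv_ne_zero hc, fun i j => ?_⟩
  have := hX.inv_rat_of_point (X.inv_mem hg) hb ha hb0 (inv_ne_zero hc) (inv_mulVec_of g hc h) i j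
  rwa [inv_inv] at this

/-- a vector killed by all rational functionals vanishing on the rational vector `a` is a multiple
of `a`. -/
lemma prop_of_perp {a : ι → K} (ha : RatV k a) (ha0 : a ≠ 0) {u : ι → K}
    (hu : ∀ ψ : ι → K, RatV k ψ → ψ ⬝ᵥ a = 0 → ψ ⬝ᵥ u = 0) : ∃ l : K, u = l • a := by
  obtain ⟨p, hp⟩ : ∃ i, a i ≠ 0 := by
    by_contra hcon
    push Not at hcon
    exact ha0 (funext hcon)
  refine ⟨u p / a p, funext fun q => ?_⟩
  have := hu (a p • bv q - a q • bv p)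
    (RatV.sub (RatV.smul (ha p) (RatV.bv k q)) (RatV.smul (ha q) (RatV.bv k p)))
    (by simp [sub_dotProduct, mul_comm])
  simp only [sub_dotProduct, smul_dotProduct, bv_dot, smul_eq_mul] at this
  simp only [Pi.smul_apply, smul_eq_mul]
  field_simp
  linear_combination this

/-- incidence implies rationality. -/
lemma ratScal_of_incidence (hX : SubfSmall k X) {g : GL ι K} (hg : g ∈ X) {a χ : ι → K}
    (ha : RatV k a) (hχ : RatV k χ) (ha0 : a ≠ 0) (hχ0 : χ ≠ 0)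
    (h : χ ⬝ᵥ ((g : Matrix ι ι K) *ᵥ a) = 0) : RatScal k g := by
  set w := (g : Matrix ι ι K) *ᵥ a with hw
  have hw0 : w ≠ 0 := mulVec_ne_zero g ha0
  -- existence of a suitable pair
  obtain ⟨a1, ψ, ha1, hψ, hχa1, hψa, hne⟩ : ∃ a1 ψ : ι → K, RatV k a1 ∧ RatV k ψ ∧ χ ⬝ᵥ a1 = 0 ∧
      ψ ⬝ᵥ a = 0 ∧ (ψ ᵥ* ((g⁻¹ : GL ι K) : Matrix ι ι K)) ⬝ᵥ a1 ≠ 0 := by
    by_contra hcon
    push Not at hcon
    obtain ⟨j0, hj0⟩ : ∃ i, χ i ≠ 0 := by
      by_contra hcon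
      push Not at hcon
      exact hχ0 (funext hcon)
    obtain ⟨i1, hi1, -⟩ := exists_ne_two hX.card3 j0 j0
    obtain ⟨i2, hi2, hi21⟩ := exists_ne_two hX.card3 j0 i1
    have key : ∀ i : ι, ∃ l : K, ((g⁻¹ : GL ι K) : Matrix ι ι K) *ᵥ (bv i - (χ i / χ j0) • bv j0) = l • a := by
      intro i
      apply prop_of_perp ha ha0
      intro ψ hψ hψa
      have := hcon (bv i - (χ i / χ j0) • bv j0) ψ
        (RatV.sub (RatV.bv k i) (RatV.smul (k.div_mem (hχ i) (hχ j0)) (RatV.bv k j0))) hψ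
        (by simp [dotProduct_sub]; field_simp; simp) hψa
      rwa [← Matrix.dotProduct_mulVec] at this
    obtain ⟨l1, hl1⟩ := key i1
    obtain ⟨l2, hl2⟩ := key i2
    have e : ((g⁻¹ : GL ι K) : Matrix ι ι K) *ᵥ (l2 • (bv i1 - (χ i1 / χ j0) • bv j0) -
        l1 • (bv i2 - (χ i2 / χ j0) • bv j0)) = 0 := by
      rw [Matrix.mulVec_sub, Matrix.mulVec_smul, Matrix.mulVec_smul, hl1, hl2, smul_smul, smul_smul,
        mul_comm, sub_self]
    have e0 : (l2 • ((bv i1 : ι → K) - (χ i1 / χ j0) • bv j0) -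
        l1 • (bv i2 - (χ i2 / χ j0) • bv j0)) = 0 := by
      by_contra hne
      exact mulVec_ne_zero g⁻¹ hne e
    have c1 := congrFun e0 i1
    have c2 := congrFun e0 i2
    simp [bv_ne hi1, bv_ne hi21.symm] at c1
    simp [bv_ne hi2, bv_ne hi21] at c2
    rw [c2, zero_smul] at hl1
    have : ((bv i1 : ι → K) - (χ i1 / χ j0) • bv j0) = 0 := by
      by_contra hne
      exact mulVec_ne_zero g⁻¹ hne hl1
    have c3 := congrFun this i1
    simp [bv_ne hi1] at c3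
  set φ := ψ ᵥ* ((g⁻¹ : GL ι K) : Matrix ι ι K) with hφ
  have hφw : φ ⬝ᵥ w = 0 := by rw [hφ, hw, dot_conj, hψa]
  have h1 : tv w φ ∈ X := by
    have := X.mul_mem (X.mul_mem hg (hX.tv_mem ha hψ hψa)) (X.inv_mem hg)
    rwa [conj_tv _ hψa] at this
  have h2 : tv a1 χ ∈ X := hX.tv_mem ha1 hχ hχa1
  have h3 := X.mul_mem (X.mul_mem (X.mul_mem h1 h2) (X.inv_mem h1)) (X.inv_mem h2)
  rw [tv_comm hφw hχa1 h] at h3
  have hb : RatV k ((φ ⬝ᵥ a1) • w) :=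
    hX.center_rat hχ hχ0 (by rw [dotProduct_smul, h, smul_zero]) h3
  refine hX.ratScal_of_point hg ha hb (smul_ne_zero hne hw0) (inv_ne_zero hne) ?_
  rw [smul_smul, inv_mul_cancel₀ hne, one_smul]

end SubfSmall

end Cfsg.Agent.Lib.Helper57
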