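import Mathlib

set_option autoImplicit false

/-! An abstract non-existence lemma (Burnside transfer + Maschke averaging). -/

namespace Cfsg.Agent.Lib.Helper57

open Matrix

variable {ι : Type} [Fintype ι] [DecidableEq ι] {K : Type*} [Field K]

/-- a `p`-subgroup of `GL_n(K)`, `K` finite of characteristic `p`, fixes a non-zero vector. -/
lemma exists_fixed_vec {p : ℕ} [Fact p.Prime] [CharP K p] [Finite K] [Nonempty ι]
    (Q : Subgroup (GL ι K)) (hQ : IsPGroup p Q) :
    ∃ v : ι → K, v ≠ 0 ∧ ∀ y ∈ Q, (y : Matrix ι ι K) *ᵥ v = v := by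
  classical
  let _ : MulAction Q (ι → K) :=
    { smul := fun y v => ((y : GL ι K) : Matrix ι ι K) *ᵥ v
      one_smul := fun v => by
        change (((1 : Q) : GL ι K) : Matrix ι ι K) *ᵥ v = v
        simp
      mul_smul := fun x y v => by
        change (((x * y : Q) : GL ι K) : Matrix ι ι K) *ᵥ v =
          ((x : GL ι K) : Matrix ι ι K) *ᵥ (((y : GL ι K) : Matrix ι ι K) *ᵥ v)
        simp [Matrix.mulVec_mulVec] }
  have hcard : p ∣ Nat.card (ι → K) := by
    have := Fintype.ofFinite K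
    rw [Nat.card_eq_fintype_card, Fintype.card_fun]
    obtain ⟨n, -, hn⟩ := FiniteField.card K p
    rw [hn]
    exact dvd_pow (dvd_pow_self p n.ne_zero) Fintype.card_ne_zero
  have h0 : (0 : ι → K) ∈ MulAction.fixedPoints Q (ι → K) := by
    intro y
    change ((y : GL ι K) : Matrix ι ι K) *ᵥ (0 : ι → K) = 0
    simp
  obtain ⟨b, hb, hne⟩ := hQ.exists_fixed_point_of_prime_dvd_card_of_fixed_point (ι → K) hcard h0
  exact ⟨b, hne.symm, fun y hy => hb ⟨y, hy⟩⟩

theorem no_such_config {p : ℕ} [Fact p.Prime] [CharP K p] [Finite K] [Nonempty ι]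
    (Y U1 U2 : Subgroup (GL ι K)) (a w : ι → K)
    (hU1 : U1 ≤ Y) (hU2 : U2 ≤ Y)
    (hD : ∀ y ∈ Y, ∀ v, (y : Matrix ι ι K) *ᵥ v - v ∈ Submodule.span K {a, w})
    (hab : ∀ x ∈ U1, ∀ y ∈ U1, x * y = y * x)
    (hp1 : ∀ x ∈ U1, x ^ p = 1) (hp2 : ∀ x ∈ U2, x ^ p = 1)
    (hfa : ∀ x ∈ U1, (x : Matrix ι ι K) *ᵥ a = a) (hfw : ∀ x ∈ U2, (x : Matrix ι ι K) *ᵥ w = w)
    (hca : ∀ v, (∀ x ∈ U1, (x : Matrix ι ι K) *ᵥ v = v) → ∃ l : K, v = l • a)
    (hcw : ∀ v, (∀ x ∈ U2, (x : Matrix ι ι K) *ᵥ v = v) → ∃ l : K, v = l • w)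
    (hsa : ∀ y ∈ Y, ∀ t : K, (y : Matrix ι ι K) *ᵥ a = t • a → y ∈ U1)
    (hsw : ∀ y ∈ Y, ∀ t : K, (y : Matrix ι ι K) *ᵥ w = t • w → y ∈ U2)
    (hind : ∀ l l' : K, l • a = l' • w → l = 0 ∧ l' = 0)
    (hne : ∃ x ∈ U2, x ≠ 1)
    (hF1 : ∀ y ∈ Y, (y : Matrix ι ι K) *ᵥ a = a → (y : Matrix ι ι K) *ᵥ w = w → y = 1)
    (hDtop : ∃ v, v ∉ Submodule.span K {a, w}) : False := by
  classical
  have ha0 : a ≠ 0 := by
    rintro rfl
    have := (hind 1 0 (by simp)).1
    exact one_ne_zero this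
  have hw0 : w ≠ 0 := by
    rintro rfl
    have := (hind 0 1 (by simp)).2
    exact one_ne_zero this
  set U1' : Subgroup Y := U1.subgroupOf Y with hU1'
  have hU1p : IsPGroup p U1' := by
    intro x
    refine ⟨1, Subtype.ext (Subtype.ext ?_)⟩
    simpa using hp1 (x : Y) x.2
  obtain ⟨P, hP⟩ := hU1p.exists_le_sylow
  have hPU : (P : Subgroup Y) ≤ U1' := by
    obtain ⟨v0, hv0, hfix⟩ := exists_fixed_vec (p := p) ((P : Subgroup Y).map Y.subtype) (P.2.map _)
    obtain ⟨l, hl⟩ := hca v0 (fun x hx => hfix x ⟨⟨x, hU1 hx⟩, hP (by simpa [hU1', Subgroup.mem_subgroupOf] using hx), rfl⟩)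
    have hl0 : l ≠ 0 := by
      rintro rfl
      exact hv0 (by simpa using hl)
    intro y hy
    rw [hU1', Subgroup.mem_subgroupOf]
    apply hsa _ y.2 1
    have := hfix (y : GL ι K) ⟨y, hy, rfl⟩
    rw [hl, Matrix.mulVec_smul] at this
    rw [one_smul]
    exact smul_right_injective _ hl0 this
  have hPeq : (P : Subgroup Y) = U1' := le_antisymm hPU hP
  have hNC : Subgroup.normalizer (P : Set Y) ≤ Subgroup.centralizer (P : Set Y) := by
    intro y hy
    have hyU : y ∈ U1' := by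
      rw [hU1', Subgroup.mem_subgroupOf]
      obtain ⟨l, hl⟩ := hca ((y : GL ι K) *ᵥ a) (by
        intro u hu
        have h1 : y⁻¹ * ⟨u, hU1 hu⟩ * y⁻¹⁻¹ ∈ (P : Subgroup Y) :=
          (Subgroup.mem_normalizer_iff.1 (inv_mem hy) _).1
            (hP (by simpa [hU1', Subgroup.mem_subgroupOf] using hu))
        rw [hPeq, hU1', Subgroup.mem_subgroupOf] at h1
        have h2 := hfa _ h1
        simp only [inv_inv, Subgroup.coe_mul, InvMemClass.coe_inv, Units.val_mul] at h2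
        have h3 := congrArg (fun z => ((y : GL ι K) : Matrix ι ι K) *ᵥ z) h2
        simp only [Matrix.mulVec_mulVec] at h3
        rw [← Matrix.mul_assoc, ← Matrix.mul_assoc, ← Units.val_mul, mul_inv_cancel, Units.val_one,
          Matrix.one_mul, ← Matrix.mulVec_mulVec] at h3
        exact h3)
      exact hsa _ y.2 l hl
    rw [Subgroup.mem_centralizer_iff]
    intro z hz
    have hz' : z ∈ U1' := hPU hz
    rw [hU1', Subgroup.mem_subgroupOf] at hz' hyU
    exact Subtype.ext (hab _ hz' _ hyU)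
  set M : Subgroup Y := (MonoidHom.transferSylow P hNC).ker with hM
  have hMcompl : Subgroup.IsComplement' M P := MonoidHom.ker_transferSylow_isComplement' P hNC
  have hMp : ¬ p ∣ Nat.card M := MonoidHom.not_dvd_card_ker_transferSylow P hNC
  have : Fintype M := Fintype.ofFinite M
  have hN0 : (Nat.card M : K) ≠ 0 := by
    rw [Ne, CharP.cast_eq_zero_iff K p]
    exact hMp
  -- the sum over `M`
  set S : Matrix ι ι K := ∑ m : M, (((m : Y) : GL ι K) : Matrix ι ι K) with hS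
  set E : Matrix ι ι K := (Nat.card M : K)⁻¹ • S with hE
  have hmS : ∀ m0 : M, (((m0 : Y) : GL ι K) : Matrix ι ι K) * S = S := by
    intro m0
    rw [hS, Finset.mul_sum]
    exact Fintype.sum_equiv (Equiv.mulLeft m0) _ _ (fun m => by simp)
  have hyS : ∀ y : Y, ((y : GL ι K) : Matrix ι ι K) * S = S * ((y : GL ι K) : Matrix ι ι K) := by
    intro y
    rw [hS, Finset.mul_sum, Finset.sum_mul]
    refine Fintype.sum_equiv (MulAut.conjNormal y : M ≃* M).toEquiv _ _ (fun m => ?_)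
    have : (((MulAut.conjNormal y m : M) : Y) : GL ι K) = (y : GL ι K) * ((m : Y) : GL ι K) * (y : GL ι K)⁻¹ := by
      simp [MulAut.conjNormal_apply]
    simp only [MulEquiv.toEquiv_eq_coe, MulEquiv.coe_toEquiv]
    rw [this, ← Units.val_mul, ← Units.val_mul, inv_mul_cancel_right]
  have hmE : ∀ m0 : M, (((m0 : Y) : GL ι K) : Matrix ι ι K) * E = E := by
    intro m0
    rw [hE, Matrix.mul_smul, hmS]
  have hyE : ∀ y : Y, ((y : GL ι K) : Matrix ι ι K) * E = E * ((y : GL ι K) : Matrix ι ι K) := by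
    intro y
    rw [hE, Matrix.mul_smul, hyS, Matrix.smul_mul]
  have hEE : E * E = E := by
    have : S * E = (Nat.card M : K) • E := by
      rw [hS, Finset.sum_mul, Finset.sum_congr rfl (fun m _ => hmE m), Finset.sum_const,
        Finset.card_univ, Nat.card_eq_fintype_card, Nat.cast_smul_eq_nsmul]
    conv_lhs => rw [hE]
    rw [Matrix.smul_mul, this, smul_smul, inv_mul_cancel₀ hN0, one_smul]
  have hED : ∀ v, E *ᵥ v - v ∈ Submodule.span K {a, w} := by
    intro v
    have h1 : S *ᵥ v - (Nat.card M : K) • v ∈ Submodule.span K {a, w} := by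
      have : S *ᵥ v - (Nat.card M : K) • v = ∑ m : M, ((((m : Y) : GL ι K) : Matrix ι ι K) *ᵥ v - v) := by
        rw [Finset.sum_sub_distrib, Finset.sum_const, Finset.card_univ, Nat.card_eq_fintype_card,
          Nat.cast_smul_eq_nsmul, hS, Matrix.sum_mulVec]
      rw [this]
      exact Submodule.sum_mem _ (fun m _ => hD _ (m : Y).2 v)
    have h2 : E *ᵥ v - v = (Nat.card M : K)⁻¹ • (S *ᵥ v - (Nat.card M : K) • v) := by
      rw [hE, Matrix.smul_mulVec, smul_sub, smul_smul, inv_mul_cancel₀ hN0, one_smul]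
    rw [h2]
    exact Submodule.smul_mem _ _ h1
  -- `M` trivial is impossible
  have hMne : M ≠ ⊥ := by
    intro hbot
    obtain ⟨x, hx, hx1⟩ := hne
    have htop : (P : Subgroup Y) = ⊤ := by
      have := hMcompl.sup_eq_top
      rwa [hbot, bot_sup_eq] at this
    have hxP : (⟨x, hU2 hx⟩ : Y) ∈ (P : Subgroup Y) := by rw [htop]; trivial
    rw [hPeq, hU1', Subgroup.mem_subgroupOf] at hxP
    exact hx1 (hF1 x (hU2 hx) (hfa x hxP) (hfw x hx))
  -- `E a` and `E w`
  obtain ⟨la, hla⟩ := hca (E *ᵥ a) (by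
    intro u hu
    rw [Matrix.mulVec_mulVec, hyE ⟨u, hU1 hu⟩, ← Matrix.mulVec_mulVec, hfa u hu])
  obtain ⟨lw, hlw⟩ := hcw (E *ᵥ w) (by
    intro u hu
    rw [Matrix.mulVec_mulVec, hyE ⟨u, hU2 hu⟩, ← Matrix.mulVec_mulVec, hfw u hu])
  have hla0 : la = 0 := by
    by_contra hne0
    have h1 : E *ᵥ (E *ᵥ a) = E *ᵥ a := by rw [Matrix.mulVec_mulVec, hEE]
    rw [hla, Matrix.mulVec_smul, hla, smul_smul] at h1
    have h2 : la * la = la := by
      have := sub_eq_zero.2 h1
      rw [← sub_smul] at this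
      exact sub_eq_zero.1 ((smul_eq_zero.1 this).resolve_right ha0)
    have h3 : la = 1 := by
      have : la * (la - 1) = 0 := by rw [mul_sub, h2, mul_one, sub_self]
      exact sub_eq_zero.1 ((mul_eq_zero.1 this).resolve_left hne0)
    rw [h3, one_smul] at hla
    apply hMne
    rw [eq_bot_iff]
    intro m hm
    have hfix : (((m : Y) : GL ι K) : Matrix ι ι K) *ᵥ a = a := by
      conv_lhs => rw [← hla]
      rw [Matrix.mulVec_mulVec, hmE ⟨m, hm⟩, hla]
    have hmU : m ∈ U1' := by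
      rw [hU1', Subgroup.mem_subgroupOf]
      exact hsa _ m.2 1 (by rw [one_smul, hfix])
    rw [← hPeq] at hmU
    exact (Subgroup.disjoint_def.1 hMcompl.disjoint) hm hmU
  have hlw0 : lw = 0 := by
    by_contra hne0
    have h1 : E *ᵥ (E *ᵥ w) = E *ᵥ w := by rw [Matrix.mulVec_mulVec, hEE]
    rw [hlw, Matrix.mulVec_smul, hlw, smul_smul] at h1
    have h2 : lw * lw = lw := by
      have := sub_eq_zero.2 h1
      rw [← sub_smul] at this
      exact sub_eq_zero.1 ((smul_eq_zero.1 this).resolve_right hw0)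
    have h3 : lw = 1 := by
      have : lw * (lw - 1) = 0 := by rw [mul_sub, h2, mul_one, sub_self]
      exact sub_eq_zero.1 ((mul_eq_zero.1 this).resolve_left hne0)
    rw [h3, one_smul] at hlw
    apply hMne
    rw [eq_bot_iff]
    intro m hm
    have hfix : (((m : Y) : GL ι K) : Matrix ι ι K) *ᵥ w = w := by
      conv_lhs => rw [← hlw]
      rw [Matrix.mulVec_mulVec, hmE ⟨m, hm⟩, hlw]
    have hmU : m ∈ U2.subgroupOf Y := by
      rw [Subgroup.mem_subgroupOf]
      exact hsw _ m.2 1 (by rw [one_smul, hfix])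
    have hU2p : IsPGroup p (U2.subgroupOf Y) := by
      intro x
      refine ⟨1, Subtype.ext (Subtype.ext ?_)⟩
      simpa using hp2 (x : Y) x.2
    exact (Subgroup.disjoint_def.1 (MonoidHom.ker_transferSylow_disjoint P hNC _ hU2p)) hm hmU
  rw [hla0, zero_smul] at hla
  rw [hlw0, zero_smul] at hlw
  have hEkill : ∀ d ∈ Submodule.span K {a, w}, E *ᵥ d = 0 := by
    intro d hd
    obtain ⟨x, y, rfl⟩ := Submodule.mem_span_pair.1 hd
    rw [Matrix.mulVec_add, Matrix.mulVec_smul, Matrix.mulVec_smul, hla, hlw]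
    simp
  have hEzero : ∀ v, E *ᵥ v = 0 := by
    intro v
    set z := E *ᵥ v with hz
    have hEz : E *ᵥ z = z := by rw [hz, Matrix.mulVec_mulVec, hEE]
    have hfix : ∀ y ∈ Y, (y : Matrix ι ι K) *ᵥ z = z := by
      intro y hy
      have h1 := hEkill _ (hD y hy z)
      rw [Matrix.mulVec_sub, Matrix.mulVec_mulVec, ← hyE ⟨y, hy⟩, ← Matrix.mulVec_mulVec, hEz] at h1
      exact sub_eq_zero.1 h1
    obtain ⟨l, hl⟩ := hca z (fun x hx => hfix x (hU1 hx))
    obtain ⟨l', hl'⟩ := hcw z (fun x hx => hfix x (hU2 hx))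
    have := (hind l l' (by rw [← hl, ← hl'])).1
    rw [hl, this, zero_smul]
  obtain ⟨v, hv⟩ := hDtop
  apply hv
  have := hED v
  rw [hEzero, zero_sub] at this
  simpa using Submodule.neg_mem _ this

end Cfsg.Agent.Lib.Helper57
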