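import Cfsg.Agent.Lib.Helper57.SubfB
import Cfsg.Agent.Lib.Helper57.SubfC

set_option autoImplicit false

/-! Overgroups of `SL_n(k)` in `SL_n(K)` whose root parameters are all in `k` consist of scalar
multiples of rational matrices. -/

namespace Cfsg.Agent.Lib.Helper57

open Matrix

variable {ι : Type} [Fintype ι] [DecidableEq ι] {K : Type*} [Field K]
variable {k : Subfield K} {X : Subgroup (GL ι K)}

/-- elements acting trivially on `V / D`. -/
def trivQuot (D : Submodule K (ι → K)) : Subgroup (GL ι K) where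
  carrier := {y | ∀ v, (y : Matrix ι ι K) *ᵥ v - v ∈ D}
  one_mem' := by intro v; simp
  mul_mem' := by
    intro x y hx hy v
    have : ((x * y : GL ι K) : Matrix ι ι K) *ᵥ v - v =
        ((x : Matrix ι ι K) *ᵥ ((y : Matrix ι ι K) *ᵥ v) - (y : Matrix ι ι K) *ᵥ v) +
          ((y : Matrix ι ι K) *ᵥ v - v) := by
      rw [Units.val_mul, ← Matrix.mulVec_mulVec]; abel
    rw [this]
    exact D.add_mem (hx _) (hy _)
  inv_mem' := by
    intro x hx v
    have h := hx (((x⁻¹ : GL ι K) : Matrix ι ι K) *ᵥ v)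
    rw [Matrix.mulVec_mulVec, ← Units.val_mul, mul_inv_cancel, Units.val_one, Matrix.one_mulVec] at h
    have := D.neg_mem h
    rwa [neg_sub] at this

lemma mem_trivQuot {D : Submodule K (ι → K)} {y : GL ι K} :
    y ∈ trivQuot D ↔ ∀ v, (y : Matrix ι ι K) *ᵥ v - v ∈ D := Iff.rfl

/-- the rational transvections with centre `a`. -/
def ratTv (k : Subfield K) (a : ι → K) : Subgroup (GL ι K) where
  carrier := {y | ∃ ψ : ι → K, RatV k ψ ∧ ψ ⬝ᵥ a = 0 ∧ y = tv a ψ}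
  one_mem' := ⟨0, fun _ => k.zero_mem, by simp, (tv_zero_right a).symm⟩
  mul_mem' := by
    rintro _ _ ⟨ψ, hψ, h, rfl⟩ ⟨ψ', hψ', h', rfl⟩
    exact ⟨ψ + ψ', hψ.add hψ', by rw [add_dotProduct, h, h', add_zero], tv_mul_center h h'⟩
  inv_mem' := by
    rintro _ ⟨ψ, hψ, h, rfl⟩
    exact ⟨-ψ, hψ.neg, by rw [neg_dotProduct, h, neg_zero], tv_inv h⟩

namespace SubfSmall

lemma gp (hX : SubfSmall k X) {g : GL ι K} (hg : g ∈ X) (hn : ¬ RatScal k g) {a χ : ι → K}
    (ha : RatV k a) (hχ : RatV k χ) (ha0 : a ≠ 0) (hχ0 : χ ≠ 0) :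
    χ ⬝ᵥ ((g : Matrix ι ι K) *ᵥ a) ≠ 0 :=
  fun h => hn (hX.ratScal_of_incidence hg ha hχ ha0 hχ0 h)

omit [Fintype ι] in
lemma bv_ne_zero (i : ι) : (bv i : ι → K) ≠ 0 := by
  intro h
  have := congrFun h i
  simp at this

lemma not_ratScal_inv (hX : SubfSmall k X) {g : GL ι K} (hg : g ∈ X) (hn : ¬ RatScal k g) (i0 : ι) :
    ¬ RatScal k g⁻¹ := by
  rintro ⟨c, hc, h⟩
  apply hn
  set b : ι → K := fun i => c * ((g⁻¹ : GL ι K) : Matrix ι ι K) i i0 with hb
  have hgb : ((g⁻¹ : GL ι K) : Matrix ι ι K) *ᵥ (bv i0 : ι → K) = c⁻¹ • b := by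
    ext i
    simp [hb, bv, Matrix.mulVec_single_one, hc]
  refine ⟨c⁻¹, inv_ne_zero hc, fun i j => ?_⟩
  have := hX.inv_rat_of_point (X.inv_mem hg) (RatV.bv k i0) (fun i => h i i0) (bv_ne_zero i0)
    (inv_ne_zero hc) hgb i j
  rwa [inv_inv] at this

/-- the row lemma. -/
lemma row_lemma (hX : SubfSmall k X) {g : GL ι K} (hg : g ∈ X) (hn : ¬ RatScal k g) (i0 : ι)
    {u : ι → K} (hu : u ∈ Submodule.span K {(bv i0 : ι → K), (g : Matrix ι ι K) *ᵥ (bv i0 : ι → K)})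
    {t : K} (ht : t ≠ 0) {i1 i2 : ι} (h12 : i1 ≠ i2) (h1 : i1 ≠ i0) (h2 : i2 ≠ i0)
    (hu1 : t * u i1 ∈ k) (hu2 : t * u i2 ∈ k) : ∃ α : K, u = α • (bv i0 : ι → K) := by
  obtain ⟨α, β, rfl⟩ := Submodule.mem_span_pair.1 hu
  set w := (g : Matrix ι ι K) *ᵥ (bv i0 : ι → K) with hw
  by_cases hβ : β = 0
  · exact ⟨α, by rw [hβ, zero_smul, add_zero]⟩
  · exfalso
    simp only [Pi.add_apply, Pi.smul_apply, smul_eq_mul, bv_ne h1, bv_ne h2, mul_zero, zero_add] at hu1 hu2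
    have hw1 : w i1 ≠ 0 := by
      have := hX.gp hg hn (RatV.bv k i0) (RatV.bv k i1) (bv_ne_zero i0) (bv_ne_zero i1)
      rwa [bv_dot] at this
    have hχ0 : ((t * (β * w i2)) • (bv i1 : ι → K) - (t * (β * w i1)) • (bv i2 : ι → K)) ≠ 0 := by
      intro h
      have := congrFun h i2
      simp [bv_ne h12.symm, ht, hβ, hw1] at this
    apply hX.gp hg hn (RatV.bv k i0) (RatV.sub (RatV.smul hu2 (RatV.bv k i1)) (RatV.smul hu1 (RatV.bv k i2)))
      (bv_ne_zero i0) hχ0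
    rw [← hw]
    simp only [sub_dotProduct, smul_dotProduct, bv_dot, smul_eq_mul]
    ring

/-- the stabiliser of the point `a` in `X ⊓ trivQuot D`. -/
lemma stab_point (hX : SubfSmall k X) {g : GL ι K} (hg : g ∈ X) (hn : ¬ RatScal k g) (i0 : ι)
    {y : GL ι K} (hy : y ∈ X)
    (hyD : y ∈ trivQuot (Submodule.span K {(bv i0 : ι → K), (g : Matrix ι ι K) *ᵥ (bv i0 : ι → K)}))
    {t : K} (hyt : (y : Matrix ι ι K) *ᵥ (bv i0 : ι → K) = t • (bv i0 : ι → K)) :
    y ∈ ratTv k (bv i0 : ι → K) := by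
  have ht : t ≠ 0 := by
    rintro rfl
    rw [zero_smul] at hyt
    exact mulVec_ne_zero y (bv_ne_zero i0) hyt
  have hrat := hX.inv_rat_of_point hy (RatV.bv k i0) (RatV.bv k i0) (bv_ne_zero i0) ht hyt
  have hcol : ∀ j, ∃ α : K, ((y⁻¹ : GL ι K) : Matrix ι ι K) *ᵥ (bv j : ι → K) - bv j = α • (bv i0 : ι → K) := by
    intro j
    obtain ⟨i1, h1, h1j, -⟩ := exists_ne_three hX.card4 i0 j j
    obtain ⟨i2, h2, h2j, h21⟩ := exists_ne_three hX.card4 i0 j i1
    refine hX.row_lemma hg hn i0 ((trivQuot _).inv_mem hyD (bv j)) ht h21.symm h1 h2 ?_ ?_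
    · have := hrat i1 j
      simpa [bv, Matrix.mulVec_single_one, h1j] using this
    · have := hrat i2 j
      simpa [bv, Matrix.mulVec_single_one, h2j] using this
  set f : ι → K := fun j => ((y⁻¹ : GL ι K) : Matrix ι ι K) i0 j - (1 : Matrix ι ι K) i0 j with hf
  have hval : ((y⁻¹ : GL ι K) : Matrix ι ι K) = 1 + vecMulVec (bv i0 : ι → K) f := by
    ext i j
    rw [Matrix.add_apply, vecMulVec_apply]
    by_cases hi : i = i0
    · subst hi
      simp [hf]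
    · obtain ⟨α, hα⟩ := hcol j
      have := congrFun hα i
      simp only [bv, Matrix.mulVec_single_one, Pi.sub_apply, Pi.smul_apply, smul_eq_mul] at this
      rw [Pi.single_eq_of_ne hi, mul_zero, sub_eq_zero] at this
      rw [bv_ne hi, zero_mul, add_zero, Matrix.one_apply]
      rw [Matrix.col_apply] at this
      rw [this, Pi.single_apply]
  have hdet : f ⬝ᵥ (bv i0 : ι → K) = 0 := by
    have h1 := hX.det_one _ (X.inv_mem hy)
    rw [hval, vecMulVec_eq Unit, det_one_add_replicateCol_mul_replicateRow] at h1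
    exact add_eq_left.1 h1
  have heq : y⁻¹ = tv (bv i0) f := by
    apply Units.ext
    rw [hval, tv_val hdet]
  have hfr : RatV k f := hX.axis_rat (RatV.bv k i0) (bv_ne_zero i0) hdet (heq ▸ X.inv_mem hy)
  have : y⁻¹ ∈ ratTv k (bv i0 : ι → K) := ⟨f, hfr, hdet, heq⟩
  simpa using (ratTv k (bv i0 : ι → K)).inv_mem this

end SubfSmall

end Cfsg.Agent.Lib.Helper57
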