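import Cfsg.Agent.Lib.Helper57.SubfD

set_option autoImplicit false

namespace Cfsg.Agent.Lib.Helper57

open Matrix

variable {ι : Type} [Fintype ι] [DecidableEq ι] {K : Type*} [Field K]
variable {k : Subfield K} {X : Subgroup (GL ι K)}

namespace SubfSmall

lemma gl_inv_mulVec (g : GL ι K) (v : ι → K) :
    ((g⁻¹ : GL ι K) : Matrix ι ι K) *ᵥ ((g : Matrix ι ι K) *ᵥ v) = v := by
  rw [Matrix.mulVec_mulVec, ← Units.val_mul, inv_mul_cancel, Units.val_one, Matrix.one_mulVec]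

lemma gl_mulVec_inv (g : GL ι K) (v : ι → K) :
    (g : Matrix ι ι K) *ᵥ (((g⁻¹ : GL ι K) : Matrix ι ι K) *ᵥ v) = v := by
  rw [Matrix.mulVec_mulVec, ← Units.val_mul, mul_inv_cancel, Units.val_one, Matrix.one_mulVec]

theorem all_ratScal [Finite K] (hX : SubfSmall k X) {g : GL ι K} (hg : g ∈ X) : RatScal k g := by
  classical
  by_contra hn
  obtain ⟨p, hp⟩ := CharP.exists K
  have : Fact p.Prime := ⟨CharP.char_is_prime K p⟩
  have hcard0 : 0 < Fintype.card ι := lt_of_lt_of_le (by norm_num) hX.card4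
  have : Nonempty ι := Fintype.card_pos_iff.1 hcard0
  obtain ⟨i0⟩ := ‹Nonempty ι›
  obtain ⟨i1, hi1, -⟩ := exists_ne_two hX.card3 i0 i0
  obtain ⟨i2, hi2, hi21⟩ := exists_ne_two hX.card3 i0 i1
  set a : ι → K := bv i0 with ha
  set w : ι → K := (g : Matrix ι ι K) *ᵥ a with hw
  have har : RatV k a := RatV.bv k i0
  have ha0 : a ≠ 0 := bv_ne_zero i0
  have hwi : ∀ i, w i ≠ 0 := by
    intro i
    have := hX.gp hg hn har (RatV.bv k i) ha0 (bv_ne_zero i)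
    rwa [bv_dot] at this
  set D : Submodule K (ι → K) := Submodule.span K {a, w} with hD
  have haD : a ∈ D := Submodule.subset_span (by simp)
  have hwD : w ∈ D := Submodule.subset_span (by simp)
  have hconj : ∀ ψ : ι → K, ψ ⬝ᵥ a = 0 → g * tv a ψ * g⁻¹ = tv w (ψ ᵥ* ((g⁻¹ : GL ι K) : Matrix ι ι K)) :=
    fun ψ h => conj_tv g h
  have hdotw : ∀ ψ : ι → K, ψ ⬝ᵥ a = 0 → (ψ ᵥ* ((g⁻¹ : GL ι K) : Matrix ι ι K)) ⬝ᵥ w = 0 := by
    intro ψ h
    rw [hw, dot_conj, h]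
  have hstab : ∀ y ∈ X ⊓ trivQuot D, ∀ t : K, (y : Matrix ι ι K) *ᵥ a = t • a → y ∈ ratTv k a :=
    fun y hy t hyt => hX.stab_point hg hn i0 hy.1 hy.2 hyt
  refine no_such_config (p := p) (X ⊓ trivQuot D) (ratTv k a)
    ((ratTv k a).map (MulAut.conj g).toMonoidHom) a w ?_ ?_ (fun y hy => hy.2) ?_ ?_ ?_ ?_ ?_ ?_ ?_
    hstab ?_ ?_ ?_ ?_ ?_
  · -- U1 ≤ Y
    rintro _ ⟨ψ, hψ, h, rfl⟩
    refine ⟨hX.tv_mem har hψ h, fun v => ?_⟩
    rw [tv_mulVec h, add_sub_cancel_left]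
    exact D.smul_mem _ haD
  · -- U2 ≤ Y
    rintro _ ⟨_, ⟨ψ, hψ, h, rfl⟩, rfl⟩
    change g * tv a ψ * g⁻¹ ∈ _
    refine ⟨X.mul_mem (X.mul_mem hg (hX.tv_mem har hψ h)) (X.inv_mem hg), fun v => ?_⟩
    rw [hconj ψ h, tv_mulVec (hdotw ψ h), add_sub_cancel_left]
    exact D.smul_mem _ hwD
  · -- abelian
    rintro _ ⟨ψ, hψ, h, rfl⟩ _ ⟨ψ', hψ', h', rfl⟩
    rw [tv_mul_center h h', tv_mul_center h' h, add_comm]
  · -- exponent p
    rintro _ ⟨ψ, hψ, h, rfl⟩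
    rw [tv_pow h, CharP.cast_eq_zero K p, zero_smul, tv_zero_right]
  · rintro _ ⟨_, ⟨ψ, hψ, h, rfl⟩, rfl⟩
    rw [← map_pow, tv_pow h, CharP.cast_eq_zero K p, zero_smul, tv_zero_right, map_one]
  · rintro _ ⟨ψ, hψ, h, rfl⟩
    rw [tv_mulVec h, h, zero_smul, add_zero]
  · rintro _ ⟨_, ⟨ψ, hψ, h, rfl⟩, rfl⟩
    change ((g * tv a ψ * g⁻¹ : GL ι K) : Matrix ι ι K) *ᵥ w = w
    rw [hconj ψ h, tv_mulVec (hdotw ψ h), hdotw ψ h, zero_smul, add_zero]
  · -- fixed vectors of U1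
    intro v hv
    apply prop_of_perp har ha0
    intro ψ hψ h
    have := hv _ ⟨ψ, hψ, h, rfl⟩
    rw [tv_mulVec h, add_eq_left] at this
    exact (smul_eq_zero.1 this).resolve_right ha0
  · -- fixed vectors of U2
    intro v hv
    obtain ⟨l, hl⟩ : ∃ l : K, ((g⁻¹ : GL ι K) : Matrix ι ι K) *ᵥ v = l • a := by
      apply prop_of_perp har ha0
      intro ψ hψ h
      have := hv _ ⟨_, ⟨ψ, hψ, h, rfl⟩, rfl⟩
      change ((g * tv a ψ * g⁻¹ : GL ι K) : Matrix ι ι K) *ᵥ v = v at this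
      rw [hconj ψ h, tv_mulVec (hdotw ψ h), add_eq_left] at this
      have h2 := (smul_eq_zero.1 this).resolve_right (mulVec_ne_zero g ha0)
      rwa [← Matrix.dotProduct_mulVec] at h2
    refine ⟨l, ?_⟩
    rw [hw, ← Matrix.mulVec_smul, ← hl, gl_mulVec_inv]
  · -- stabiliser of w
    intro y hy t hyt
    have hg' : g⁻¹ ∈ X := X.inv_mem hg
    have hn' := hX.not_ratScal_inv hg hn i0
    have hy' : g⁻¹ * y * g ∈ X := X.mul_mem (X.mul_mem hg' hy.1) hg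
    have hyD' : g⁻¹ * y * g ∈ trivQuot (Submodule.span K {(bv i0 : ι → K),
        ((g⁻¹ : GL ι K) : Matrix ι ι K) *ᵥ (bv i0 : ι → K)}) := by
      intro v
      obtain ⟨α, β, hαβ⟩ := Submodule.mem_span_pair.1 (hy.2 ((g : Matrix ι ι K) *ᵥ v))
      have : ((g⁻¹ * y * g : GL ι K) : Matrix ι ι K) *ᵥ v - v =
          β • (bv i0 : ι → K) + α • (((g⁻¹ : GL ι K) : Matrix ι ι K) *ᵥ (bv i0 : ι → K)) := by
        have e : ((g⁻¹ * y * g : GL ι K) : Matrix ι ι K) *ᵥ v - v = ((g⁻¹ : GL ι K) : Matrix ι ι K) *ᵥ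
            ((y : Matrix ι ι K) *ᵥ ((g : Matrix ι ι K) *ᵥ v) - (g : Matrix ι ι K) *ᵥ v) := by
          rw [Matrix.mulVec_sub, gl_inv_mulVec, Units.val_mul, Units.val_mul, Matrix.mulVec_mulVec,
            Matrix.mulVec_mulVec, Matrix.mul_assoc]
        rw [e, ← hαβ, Matrix.mulVec_add, Matrix.mulVec_smul, Matrix.mulVec_smul, hw, gl_inv_mulVec, add_comm]
      rw [this]
      exact Submodule.add_mem _ (Submodule.smul_mem _ _ (Submodule.subset_span (by simp)))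
        (Submodule.smul_mem _ _ (Submodule.subset_span (by simp)))
    have hyt' : ((g⁻¹ * y * g : GL ι K) : Matrix ι ι K) *ᵥ (bv i0 : ι → K) = t • (bv i0 : ι → K) := by
      rw [Units.val_mul, Units.val_mul, ← Matrix.mulVec_mulVec, ← Matrix.mulVec_mulVec]
      change ((g⁻¹ : GL ι K) : Matrix ι ι K) *ᵥ ((y : Matrix ι ι K) *ᵥ w) = _
      rw [hyt, Matrix.mulVec_smul, hw, gl_inv_mulVec]
    have := hX.stab_point hg' hn' i0 hy' hyD' hyt'
    refine ⟨g⁻¹ * y * g, this, ?_⟩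
    change g * (g⁻¹ * y * g) * g⁻¹ = y
    group
  · -- independence
    intro l l' h
    have h1 := congrFun h i1
    simp only [ha, Pi.smul_apply, smul_eq_mul, bv_ne hi1, mul_zero] at h1
    have hl' : l' = 0 := (mul_eq_zero.1 h1.symm).resolve_right (hwi i1)
    rw [hl', zero_smul] at h
    exact ⟨(smul_eq_zero.1 h).resolve_right ha0, hl'⟩
  · -- U2 nontrivial
    have h : (bv i1 : ι → K) ⬝ᵥ a = 0 := by simp [ha, bv_ne hi1.symm]
    refine ⟨_, ⟨tv a (bv i1), ⟨bv i1, RatV.bv k i1, h, rfl⟩, rfl⟩, ?_⟩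
    intro h1
    have h2 : tv a (bv i1 : ι → K) = 1 := by
      have := (MulAut.conj g).injective (a₁ := tv a (bv i1 : ι → K)) (a₂ := 1) (by simpa using h1)
      exact this
    have h3 : ((tv a (bv i1 : ι → K) : GL ι K) : Matrix ι ι K) i0 i1 = (1 : Matrix ι ι K) i0 i1 := by
      rw [h2, Units.val_one]
    rw [tv_apply h, Matrix.one_apply, if_neg hi1.symm, ha, bv_self, bv_self] at h3
    simp at h3
  · -- F1
    intro y hy hya hyw
    obtain ⟨ψ, hψ, h, rfl⟩ := hstab y hy 1 (by rw [one_smul, hya])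
    rw [tv_mulVec h, add_eq_left] at hyw
    have h0 := (smul_eq_zero.1 hyw).resolve_right ha0
    by_cases hψ0 : ψ = 0
    · rw [hψ0, tv_zero_right]
    · exact absurd h0 (hX.gp hg hn har hψ ha0 hψ0)
  · -- D is proper
    refine ⟨bv i1, fun h => ?_⟩
    obtain ⟨α, β, hαβ⟩ := Submodule.mem_span_pair.1 h
    have c1 := congrFun hαβ i1
    have c2 := congrFun hαβ i2
    simp only [ha, Pi.add_apply, Pi.smul_apply, smul_eq_mul, bv_ne hi1, bv_ne hi2, mul_zero, zero_add,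
      bv_self, bv_ne hi21] at c1 c2
    have hβ : β = 0 := (mul_eq_zero.1 c2).resolve_right (hwi i2)
    rw [hβ, zero_mul] at c1
    exact zero_ne_one c1

end SubfSmall

end Cfsg.Agent.Lib.Helper57
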