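import Cfsg.Agent.Lib.Helper57.SubfE
import Cfsg.Agent.Lib.Helper94.SLGen

set_option autoImplicit false

namespace Cfsg.Agent.Lib.Helper57

open Matrix

variable {ι : Type} [Fintype ι] [DecidableEq ι] {K : Type*} [Field K]
variable {k : Subfield K} {X : Subgroup (GL ι K)}

/-- a subgroup containing all elementary transvections contains all matrices of determinant one. -/
theorem mem_of_det_eq_one_of_el [Nontrivial ι] (X : Subgroup (GL ι K))
    (hel : ∀ (i j : ι), i ≠ j → ∀ c : K, tv (c • (bv i : ι → K)) (bv j) ∈ X)
    (g : GL ι K) (hg : (g : Matrix ι ι K).det = 1) : g ∈ X := by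
  have hel' : ∀ (i j : ι) (hij : i ≠ j) (c : K),
      Matrix.SpecialLinearGroup.toGL (Matrix.SpecialLinearGroup.transvection hij c) ∈ X := by
    intro i j hij c
    have : Matrix.SpecialLinearGroup.toGL (Matrix.SpecialLinearGroup.transvection hij c) =
        tv (c • (bv i : ι → K)) (bv j) := by
      apply Units.ext
      rw [tv_val (el_dot hij c)]
      ext a b
      simp only [Matrix.SpecialLinearGroup.coe_GL_coe_matrix, Matrix.SpecialLinearGroup.transvection_coe,
        Matrix.add_apply, vecMulVec_apply, Pi.smul_apply, smul_eq_mul, bv_apply, Matrix.single_apply]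
      by_cases ha : a = i
      · by_cases hb : b = j
        · subst ha; subst hb; simp
        · have hb' : ¬ j = b := fun h => hb h.symm
          simp [hb, hb']
      · have ha' : ¬ i = a := fun h => ha h.symm
        simp [ha, ha']
    rw [this]
    exact hel i j hij c
  have hinj := (Cfsg.Agent.Lib.Helper94.glEquiv ι K).injective
  have key : ∀ A : Matrix.SpecialLinearGroup ι K, Matrix.SpecialLinearGroup.toGL A ∈ X := by
    intro A
    refine Matrix.SpecialLinearGroup.diagonal_transvection_induction'
      (fun A => Matrix.SpecialLinearGroup.toGL A ∈ X) A ?_ ?_ ?_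
    · intro i j hij c hc
      have : Matrix.SpecialLinearGroup.toGL (Matrix.SpecialLinearGroup.diag2n hij c hc) =
          Matrix.SpecialLinearGroup.toGL (Matrix.SpecialLinearGroup.transvection hij c) *
          Matrix.SpecialLinearGroup.toGL (Matrix.SpecialLinearGroup.transvection hij.symm (-c⁻¹)) *
          Matrix.SpecialLinearGroup.toGL (Matrix.SpecialLinearGroup.transvection hij c) *
          Matrix.SpecialLinearGroup.toGL (Matrix.SpecialLinearGroup.transvection hij (-1)) *
          Matrix.SpecialLinearGroup.toGL (Matrix.SpecialLinearGroup.transvection hij.symm 1) *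
          Matrix.SpecialLinearGroup.toGL (Matrix.SpecialLinearGroup.transvection hij (-1)) := by
        apply hinj
        simp only [map_mul, Cfsg.Agent.Lib.Helper94.glEquiv_diag2n,
          Cfsg.Agent.Lib.Helper94.glEquiv_transvection]
      rw [this]
      exact X.mul_mem (X.mul_mem (X.mul_mem (X.mul_mem (X.mul_mem (hel' _ _ _ _) (hel' _ _ _ _))
        (hel' _ _ _ _)) (hel' _ _ _ _)) (hel' _ _ _ _)) (hel' _ _ _ _)
    · intro i j hij a
      exact hel' _ _ _ _
    · intro A B hA hB
      simp only [map_mul]
      exact X.mul_mem hA hB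
  have : g = Matrix.SpecialLinearGroup.toGL ⟨(g : Matrix ι ι K), hg⟩ := by
    apply Units.ext
    rfl
  rw [this]
  exact key _

/-- intermediate fields of an extension of prime degree of finite fields. -/
lemma subfield_between [Finite K] (k B : Subfield K) (h : k ≤ B) {r : ℕ} (hr : r.Prime)
    (hc : Nat.card K = Nat.card k ^ r) : B = k ∨ B = ⊤ := by
  classical
  let _ : Algebra k B := (Subfield.inclusion h).toAlgebra
  have h1 : Nat.card B = Nat.card k ^ Module.finrank k B := Module.natCard_eq_pow_finrank
  have h2 : Nat.card K = Nat.card B ^ Module.finrank B K := Module.natCard_eq_pow_finrank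
  have hk2 : 2 ≤ Nat.card k := by
    have := Finite.one_lt_card (α := k)
    omega
  rw [h1, ← pow_mul, hc] at h2
  have h3 : r = Module.finrank k B * Module.finrank B K := Nat.pow_right_injective hk2 h2
  rcases (Nat.dvd_prime hr).1 ⟨_, h3⟩ with hd | hd
  · left
    rw [hd, pow_one] at h1
    symm
    apply SetLike.coe_injective
    apply Set.eq_of_subset_of_ncard_le h _ (Set.toFinite _)
    change Nat.card B ≤ Nat.card k
    rw [h1]
  · right
    rw [hd] at h1
    rw [← hc] at h1
    apply SetLike.coe_injective
    apply Set.eq_of_subset_of_ncard_le (Set.subset_univ _) _ (Set.toFinite _)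
    rw [Set.ncard_univ]
    change Nat.card K ≤ Nat.card B
    rw [h1]

/-- the root parameters form a subfield. -/
def rootField [Finite K] (hX : SubfOver k X) (h3 : 3 ≤ Fintype.card ι) : Subfield K where
  carrier := rootSet X
  mul_mem' := fun ha hb => rootSet_mul h3 hb ha
  one_mem' := hX.rootSet_rat k.one_mem
  add_mem' := rootSet_add
  zero_mem' := hX.rootSet_rat k.zero_mem
  neg_mem' := rootSet_neg
  inv_mem' := by
    intro x hx
    by_cases hx0 : x = 0
    · rw [hx0, _root_.inv_zero]; exact hX.rootSet_rat k.zero_mem
    · have := Fintype.ofFinite K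
      have hpow : ∀ m : ℕ, x ^ m ∈ rootSet X := by
        intro m
        induction m with
        | zero => rw [pow_zero]; exact hX.rootSet_rat k.one_mem
        | succ m ih => rw [pow_succ]; exact rootSet_mul h3 hx ih
      have h1 := FiniteField.pow_card_sub_one_eq_one x hx0
      have h2 : 2 ≤ Fintype.card K := Fintype.one_lt_card
      have h4 : x ^ (Fintype.card K - 2) * x = 1 := by
        rw [← pow_succ, ← h1]
        congr 1
        omega
      rw [← eq_inv_of_mul_eq_one_left h4]
      exact hpow _

/-- the dichotomy. -/
theorem SubfOver.dichotomy [Finite K] (hX : SubfOver k X) (h4 : 4 ≤ Fintype.card ι) {r : ℕ}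
    (hr : r.Prime) (hc : Nat.card K = Nat.card k ^ r) :
    (∀ g : GL ι K, (g : Matrix ι ι K).det = 1 → g ∈ X) ∨ (∀ g ∈ X, SubfSmall.RatScal k g) := by
  have h3 : 3 ≤ Fintype.card ι := le_trans (by norm_num) h4
  have hle : k ≤ rootField hX h3 := fun s hs => hX.rootSet_rat hs
  rcases subfield_between k (rootField hX h3) hle hr hc with h | h
  · right
    have hs : SubfSmall k X := { hX with
      card4 := h4
      root := fun s hs => by
        have : s ∈ rootField hX h3 := hs
        rwa [h] at this }
    exact fun g hg => hs.all_ratScal hg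
  · left
    have : Nontrivial ι := Fintype.one_lt_card_iff_nontrivial.1 (lt_of_lt_of_le (by norm_num) h4)
    apply mem_of_det_eq_one_of_el
    intro i j hij c
    have : c ∈ rootField hX h3 := by rw [h]; trivial
    exact this i j hij

end Cfsg.Agent.Lib.Helper57
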