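import Mathlib

set_option autoImplicit false

/-! Transvection matrices `1 + v φᵀ` as elements of `GL ι K`. -/

namespace Cfsg.Agent.Lib.Helper57

open Matrix

variable {ι : Type} [Fintype ι] [DecidableEq ι] {K : Type*} [Field K]

omit [DecidableEq ι] in
lemma vmv_sq (v φ : ι → K) (h : φ ⬝ᵥ v = 0) : vecMulVec v φ * vecMulVec v φ = 0 := by
  rw [vecMulVec_mul_vecMulVec, h, zero_smul, vecMulVec_zero]

open Classical in
/-- the transvection `1 + v φᵀ` (the identity if `φ v ≠ 0`). -/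
noncomputable def tv (v φ : ι → K) : GL ι K :=
  if h : φ ⬝ᵥ v = 0 then
    ⟨1 + vecMulVec v φ, 1 - vecMulVec v φ,
      by
        have := vmv_sq v φ h
        calc (1 + vecMulVec v φ) * (1 - vecMulVec v φ)
            = 1 - vecMulVec v φ * vecMulVec v φ := by noncomm_ring
          _ = 1 := by rw [this, sub_zero],
      by
        have := vmv_sq v φ h
        calc (1 - vecMulVec v φ) * (1 + vecMulVec v φ)
            = 1 - vecMulVec v φ * vecMulVec v φ := by noncomm_ring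
          _ = 1 := by rw [this, sub_zero]⟩
  else 1

lemma tv_val {v φ : ι → K} (h : φ ⬝ᵥ v = 0) :
    ((tv v φ : GL ι K) : Matrix ι ι K) = 1 + vecMulVec v φ := by
  simp [tv, h]

lemma tv_inv_val {v φ : ι → K} (h : φ ⬝ᵥ v = 0) :
    (((tv v φ)⁻¹ : GL ι K) : Matrix ι ι K) = 1 - vecMulVec v φ := by
  simp only [tv, h, dite_true]
  rfl

lemma tv_apply {v φ : ι → K} (h : φ ⬝ᵥ v = 0) (i j : ι) :
    ((tv v φ : GL ι K) : Matrix ι ι K) i j = (if i = j then 1 else 0) + v i * φ j := by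
  rw [tv_val h, Matrix.add_apply, Matrix.one_apply, vecMulVec_apply]

lemma tv_mulVec {v φ : ι → K} (h : φ ⬝ᵥ v = 0) (x : ι → K) :
    ((tv v φ : GL ι K) : Matrix ι ι K) *ᵥ x = x + (φ ⬝ᵥ x) • v := by
  rw [tv_val h, Matrix.add_mulVec, Matrix.one_mulVec, vecMulVec_mulVec]
  ext i
  simp [mul_comm]

lemma vecMul_tv {v φ : ι → K} (h : φ ⬝ᵥ v = 0) (χ : ι → K) :
    χ ᵥ* ((tv v φ : GL ι K) : Matrix ι ι K) = χ + (χ ⬝ᵥ v) • φ := by
  rw [tv_val h, Matrix.vecMul_add, Matrix.vecMul_one, vecMul_vecMulVec]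

lemma tv_inv_mulVec {v φ : ι → K} (h : φ ⬝ᵥ v = 0) (x : ι → K) :
    (((tv v φ)⁻¹ : GL ι K) : Matrix ι ι K) *ᵥ x = x - (φ ⬝ᵥ x) • v := by
  rw [tv_inv_val h, Matrix.sub_mulVec, Matrix.one_mulVec, vecMulVec_mulVec]
  ext i
  simp [mul_comm]

lemma vecMul_tv_inv {v φ : ι → K} (h : φ ⬝ᵥ v = 0) (χ : ι → K) :
    χ ᵥ* (((tv v φ)⁻¹ : GL ι K) : Matrix ι ι K) = χ - (χ ⬝ᵥ v) • φ := by
  rw [tv_inv_val h, Matrix.vecMul_sub, Matrix.vecMul_one, vecMul_vecMulVec]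

lemma tv_det {v φ : ι → K} (h : φ ⬝ᵥ v = 0) :
    ((tv v φ : GL ι K) : Matrix ι ι K).det = 1 := by
  rw [tv_val h, vecMulVec_eq Unit, det_one_add_replicateCol_mul_replicateRow, h, add_zero]

lemma tv_zero_left (φ : ι → K) : tv (0 : ι → K) φ = 1 := by
  apply Units.ext
  rw [tv_val (by simp)]
  simp

lemma tv_zero_right (v : ι → K) : tv v (0 : ι → K) = 1 := by
  apply Units.ext
  rw [tv_val (by simp)]
  simp

lemma dot_conj (g : GL ι K) (v φ : ι → K) :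
    (φ ᵥ* ((g⁻¹ : GL ι K) : Matrix ι ι K)) ⬝ᵥ ((g : Matrix ι ι K) *ᵥ v) = φ ⬝ᵥ v := by
  rw [← Matrix.dotProduct_mulVec, Matrix.mulVec_mulVec]
  have : ((g⁻¹ : GL ι K) : Matrix ι ι K) * (g : Matrix ι ι K) = 1 := by
    rw [← Units.val_mul, inv_mul_cancel, Units.val_one]
  rw [this, Matrix.one_mulVec]

lemma conj_tv (g : GL ι K) {v φ : ι → K} (h : φ ⬝ᵥ v = 0) :
    g * tv v φ * g⁻¹ = tv ((g : Matrix ι ι K) *ᵥ v) (φ ᵥ* ((g⁻¹ : GL ι K) : Matrix ι ι K)) := by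
  apply Units.ext
  rw [tv_val (by rw [dot_conj, h]), Units.val_mul, Units.val_mul, tv_val h, mul_add, add_mul, mul_one,
    ← Units.val_mul, mul_inv_cancel, Units.val_one, mul_vecMulVec, vecMulVec_mul]

lemma tv_mul_center {v φ φ' : ι → K} (h : φ ⬝ᵥ v = 0) (h' : φ' ⬝ᵥ v = 0) :
    tv v φ * tv v φ' = tv v (φ + φ') := by
  apply Units.ext
  rw [Units.val_mul, tv_val h, tv_val h', tv_val (by rw [add_dotProduct, h, h', add_zero]), vecMulVec_add]
  have : vecMulVec v φ * vecMulVec v φ' = 0 := by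
    rw [vecMulVec_mul_vecMulVec, h, zero_smul, vecMulVec_zero]
  calc (1 + vecMulVec v φ) * (1 + vecMulVec v φ')
      = 1 + (vecMulVec v φ + vecMulVec v φ') + vecMulVec v φ * vecMulVec v φ' := by noncomm_ring
    _ = _ := by rw [this, add_zero]

lemma tv_mul_axis {v v' φ : ι → K} (h : φ ⬝ᵥ v = 0) (h' : φ ⬝ᵥ v' = 0) :
    tv v φ * tv v' φ = tv (v + v') φ := by
  apply Units.ext
  rw [Units.val_mul, tv_val h, tv_val h', tv_val (by rw [dotProduct_add, h, h', add_zero]), add_vecMulVec]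
  have : vecMulVec v φ * vecMulVec v' φ = 0 := by
    rw [vecMulVec_mul_vecMulVec, h', zero_smul, vecMulVec_zero]
  calc (1 + vecMulVec v φ) * (1 + vecMulVec v' φ)
      = 1 + (vecMulVec v φ + vecMulVec v' φ) + vecMulVec v φ * vecMulVec v' φ := by noncomm_ring
    _ = _ := by rw [this, add_zero]

lemma tv_smul (c : K) (v φ : ι → K) : tv (c • v) φ = tv v (c • φ) := by
  by_cases h : φ ⬝ᵥ v = 0
  · apply Units.ext
    rw [tv_val (by rw [dotProduct_smul, h, smul_zero]), tv_val (by rw [smul_dotProduct, h, smul_zero]),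
      smul_vecMulVec, vecMulVec_smul]
  · by_cases hc : c = 0
    · subst hc
      simp [tv_zero_left, tv_zero_right]
    · have h1 : φ ⬝ᵥ (c • v) ≠ 0 := by
        rw [dotProduct_smul, smul_eq_mul]; exact mul_ne_zero hc h
      have h2 : (c • φ) ⬝ᵥ v ≠ 0 := by
        rw [smul_dotProduct, smul_eq_mul]; exact mul_ne_zero hc h
      unfold tv
      rw [dif_neg h1, dif_neg h2]

lemma tv_inv {v φ : ι → K} (h : φ ⬝ᵥ v = 0) : (tv v φ)⁻¹ = tv v (-φ) := by
  apply Units.ext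
  rw [tv_inv_val h, tv_val (by rw [neg_dotProduct, h, neg_zero]), vecMulVec_neg, sub_eq_add_neg]

/-- the commutator formula. -/
lemma tv_comm {v φ w χ : ι → K} (h : φ ⬝ᵥ v = 0) (h' : χ ⬝ᵥ w = 0) (hv : χ ⬝ᵥ v = 0) :
    tv v φ * tv w χ * (tv v φ)⁻¹ * (tv w χ)⁻¹ = tv ((φ ⬝ᵥ w) • v) χ := by
  have e : tv w (-χ) = tv (-w) χ := by
    rw [← neg_one_smul K χ, ← tv_smul, neg_one_smul]
  rw [conj_tv _ h', tv_mulVec h, vecMul_tv_inv h, hv, zero_smul, sub_zero, tv_inv h', e,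
    tv_mul_axis]
  · congr 1
    ext i
    simp
  · rw [dotProduct_add, h', dotProduct_smul, hv, smul_zero, add_zero]
  · rw [dotProduct_neg, h', neg_zero]

lemma tv_pow {v φ : ι → K} (h : φ ⬝ᵥ v = 0) (m : ℕ) : (tv v φ) ^ m = tv v ((m : K) • φ) := by
  induction m with
  | zero => simp [tv_zero_right]
  | succ m ih =>
    rw [pow_succ, ih, tv_mul_center (by rw [smul_dotProduct, h, smul_zero]) h]
    congr 1
    ext i
    simp [add_mul]

end Cfsg.Agent.Lib.Helper57
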