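import Mathlib

set_option autoImplicit false

/-!
# Two primes between `n` and `2 n`

A strengthening of Bertrand's postulate: for `6 ≤ n` there are two distinct primes in `(n, 2n]`.
The proof follows Mathlib's proof of Bertrand's postulate; the room for one more prime comes from
the fact that `1` is not a prime (so there are at most `sqrt (2n) - 1` primes up to `sqrt (2n)`).
-/

namespace Cfsg.Agent.Lib.Helper57

open Nat

/-- If `p0` is the only prime in `(n, 2n]`, the central binomial coefficient still satisfies the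
upper bound used in the proof of Bertrand's postulate. -/
theorem centralBinom_le_of_one_prime (n : ℕ) (n_large : 2 < n) (p0 : ℕ) (hp0 : n < p0)
    (one_prime : ∀ p : ℕ, p.Prime → n < p → p ≤ 2 * n → p = p0) :
    centralBinom n ≤ (2 * n) ^ sqrt (2 * n) * 4 ^ (2 * n / 3) := by
  have n_pos : 0 < n := (Nat.zero_le _).trans_lt n_large
  have n2_pos : 1 ≤ 2 * n := mul_pos (zero_lt_two' ℕ) n_pos
  let f : ℕ → ℕ := fun x => x ^ n.centralBinom.factorization x
  have hfle : ∀ p, f p ≤ 2 * n := fun p => pow_factorization_choose_le (mul_pos two_pos n_pos)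
  have hnot : p0 ∉ Finset.range (2 * n / 3 + 1) := by
    rw [Finset.mem_range]
    omega
  -- step 1: factorisation
  have h1 : centralBinom n ≤ (∏ p ∈ Finset.range (2 * n / 3 + 1), f p) * f p0 := by
    by_cases hle : p0 ≤ 2 * n
    · have : centralBinom n = ∏ p ∈ insert p0 (Finset.range (2 * n / 3 + 1)), f p := by
        refine (Eq.trans ?_ n.prod_pow_factorization_centralBinom).symm
        apply Finset.prod_subset
        · intro x hx
          rw [Finset.mem_insert, Finset.mem_range] at hx
          rw [Finset.mem_range]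
          rcases hx with rfl | hx <;> omega
        intro x hx h2x
        rw [Finset.mem_range, Nat.lt_succ_iff] at hx
        rw [Finset.mem_insert, Finset.mem_range, not_or, Nat.lt_succ_iff, not_le,
          div_lt_iff_lt_mul three_pos, mul_comm x] at h2x
        by_cases hx' : x.Prime
        · have hxn : x ≤ n := by
            by_contra hcon
            exact h2x.1 (one_prime x hx' (not_le.mp hcon) hx)
          show x ^ n.centralBinom.factorization x = 1
          rw [factorization_centralBinom_of_two_mul_self_lt_three_mul n_large hxn h2x.2,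
            Nat.pow_zero]
        · show x ^ n.centralBinom.factorization x = 1
          rw [factorization_eq_zero_of_not_prime n.centralBinom hx', Nat.pow_zero]
      rw [this, Finset.prod_insert hnot, mul_comm]
    · have : centralBinom n = ∏ p ∈ Finset.range (2 * n / 3 + 1), f p := by
        apply centralBinom_factorization_small n n_large
        intro p hp hnp
        by_contra hcon
        have := one_prime p hp hnp (not_lt.mp hcon)
        omega
      rw [this]
      have hpos : 1 ≤ f p0 := Nat.one_le_pow _ _ (by omega)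
      exact Nat.le_mul_of_pos_right _ hpos
  refine h1.trans ?_
  let S := {p ∈ Finset.range (2 * n / 3 + 1) | Nat.Prime p}
  have hS : ∏ x ∈ S, f x = ∏ x ∈ Finset.range (2 * n / 3 + 1), f x := by
    refine Finset.prod_filter_of_ne fun p _ h => ?_
    contrapose h; dsimp only [f]
    rw [factorization_eq_zero_of_not_prime n.centralBinom h, _root_.pow_zero]
  rw [← hS, ← Finset.prod_filter_mul_prod_filter_not S (· ≤ sqrt (2 * n))]
  have hs1 : 1 ≤ sqrt (2 * n) := by
    rw [Nat.le_sqrt]; omega
  have hA : (∏ x ∈ S with x ≤ sqrt (2 * n), f x) * f p0 ≤ (2 * n) ^ sqrt (2 * n) := by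
    have hA1 : (∏ x ∈ S with x ≤ sqrt (2 * n), f x) ≤ (2 * n) ^ (sqrt (2 * n) - 1) := by
      refine (Finset.prod_le_prod' fun p _ => hfle p).trans ?_
      have : (Finset.Icc 2 (sqrt (2 * n))).card = sqrt (2 * n) - 1 := by
        rw [card_Icc]; omega
      rw [Finset.prod_const]
      refine pow_right_mono₀ n2_pos ((Finset.card_le_card fun x hx => ?_).trans this.le)
      obtain ⟨h1, h2⟩ := Finset.mem_filter.1 hx
      exact Finset.mem_Icc.mpr ⟨(Finset.mem_filter.1 h1).2.two_le, h2⟩
    calc (∏ x ∈ S with x ≤ sqrt (2 * n), f x) * f p0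
        ≤ (2 * n) ^ (sqrt (2 * n) - 1) * (2 * n) := Nat.mul_le_mul hA1 (hfle p0)
      _ = (2 * n) ^ sqrt (2 * n) := by
          rw [← pow_succ]; congr 1; omega
  have hB : (∏ x ∈ S with ¬ x ≤ sqrt (2 * n), f x) ≤ 4 ^ (2 * n / 3) := by
    refine le_trans ?_ (primorial_le_four_pow (2 * n / 3))
    refine (Finset.prod_le_prod' fun p hp => (?_ : f p ≤ p)).trans ?_
    · obtain ⟨h1, h2⟩ := Finset.mem_filter.1 hp
      refine (pow_right_mono₀ (Finset.mem_filter.1 h1).2.one_lt.le ?_).trans (pow_one p).le
      exact Nat.factorization_choose_le_one (sqrt_lt'.mp <| not_le.1 h2)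
    refine Finset.prod_le_prod_of_subset_of_one_le' (Finset.filter_subset _ _) ?_
    exact fun p hp _ => (Finset.mem_filter.1 hp).2.one_lt.le
  calc (∏ x ∈ S with x ≤ sqrt (2 * n), f x) * (∏ x ∈ S with ¬ x ≤ sqrt (2 * n), f x) * f p0
      = ((∏ x ∈ S with x ≤ sqrt (2 * n), f x) * f p0) * (∏ x ∈ S with ¬ x ≤ sqrt (2 * n), f x) := by
        ring
    _ ≤ (2 * n) ^ sqrt (2 * n) * 4 ^ (2 * n / 3) := Nat.mul_le_mul hA hB

/-- Two primes in `(n, 2n]` for large `n`. -/
theorem two_primes_eventually (n : ℕ) (n_large : 512 ≤ n) :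
    ∃ q p : ℕ, q.Prime ∧ p.Prime ∧ n < q ∧ q < p ∧ p ≤ 2 * n := by
  obtain ⟨p0, hp0, hnp0, hp0n⟩ := Nat.exists_prime_lt_and_le_two_mul n (by omega)
  by_contra hcon
  have one_prime : ∀ p : ℕ, p.Prime → n < p → p ≤ 2 * n → p = p0 := by
    intro p hp hnp hpn
    by_contra hne
    rcases lt_or_gt_of_ne hne with h | h
    · exact hcon ⟨p, p0, hp, hp0, hnp, h, hp0n⟩
    · exact hcon ⟨p0, p, hp0, hp, hnp0, h, hpn⟩
  have h1 : 4 ^ n < n * n.centralBinom :=
    Nat.four_pow_lt_mul_centralBinom n (le_trans (by norm_num1) n_large)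
  have h2 : n.centralBinom ≤ (2 * n) ^ sqrt (2 * n) * 4 ^ (2 * n / 3) :=
    centralBinom_le_of_one_prime n (lt_of_lt_of_le (by norm_num1) n_large) p0 hnp0 one_prime
  have h3 := bertrand_main_inequality n_large
  have h4 : n * n.centralBinom ≤ n * ((2 * n) ^ sqrt (2 * n) * 4 ^ (2 * n / 3)) :=
    Nat.mul_le_mul_left n h2
  rw [← mul_assoc] at h4
  omega

/-- **Two primes between `n` and `2n`**, for `6 ≤ n`. -/
theorem two_primes (n : ℕ) (hn : 6 ≤ n) :
    ∃ q p : ℕ, q.Prime ∧ p.Prime ∧ n < q ∧ q < p ∧ p ≤ 2 * n := by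
  rcases lt_or_ge 511 n with h | h
  · exact two_primes_eventually n h
  have key : ∀ q p : ℕ, q.Prime → p.Prime → q < p → p ≤ 2 * n → n < q →
      ∃ q p : ℕ, q.Prime ∧ p.Prime ∧ n < q ∧ q < p ∧ p ≤ 2 * n :=
    fun q p hq hp h1 h2 h3 => ⟨q, p, hq, hp, h3, h1, h2⟩
  by_cases h1 : n < 7
  · exact key 7 11 (by norm_num) (by norm_num) (by norm_num) (by omega) (by omega)
  by_cases h2 : n < 11
  · exact key 11 13 (by norm_num) (by norm_num) (by norm_num) (by omega) (by omega)
  by_cases h3 : n < 17
  · exact key 17 19 (by norm_num) (by norm_num) (by norm_num) (by omega) (by omega)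
  by_cases h4 : n < 29
  · exact key 29 31 (by norm_num) (by norm_num) (by norm_num) (by omega) (by omega)
  by_cases h5 : n < 41
  · exact key 41 43 (by norm_num) (by norm_num) (by norm_num) (by omega) (by omega)
  by_cases h6 : n < 71
  · exact key 71 73 (by norm_num) (by norm_num) (by norm_num) (by omega) (by omega)
  by_cases h7 : n < 137
  · exact key 137 139 (by norm_num) (by norm_num) (by norm_num) (by omega) (by omega)
  by_cases h8 : n < 269
  · exact key 269 271 (by norm_num) (by norm_num) (by norm_num) (by omega) (by omega)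
  · exact key 521 523 (by norm_num) (by norm_num) (by norm_num) (by omega) (by omega)

/-- Two primes in `(n/2, n]` for `n = 5`, `n = 7, 8, 9` and `11 ≤ n`. -/
theorem two_primes_half (n : ℕ) (hn : 11 ≤ n) :
    ∃ q p : ℕ, q.Prime ∧ p.Prime ∧ n < 2 * q ∧ q < p ∧ p ≤ n := by
  rcases Nat.lt_or_ge n 12 with h | h
  · exact ⟨7, 11, by norm_num, by norm_num, by omega, by norm_num, by omega⟩
  · obtain ⟨q, p, hq, hp, h1, h2, h3⟩ := two_primes (n / 2) (by omega)
    exact ⟨q, p, hq, hp, by omega, h2, by omega⟩

end Cfsg.Agent.Lib.Helper57
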